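import Cfsg.Agent.Lib.MinIndexSU.Basic
import Cfsg.Agent.Lib.AutPSU.Levi
import Cfsg.Agent.Lib.MinIndexSp.Dual

/-!
Orbits of the radical of a point stabiliser in an action of a special unitary group.
-/

set_option autoImplicit false

namespace Cfsg.Agent.Lib.MinIndexSU

open Matrix Module Cfsg.Agent.Lib.Forms Cfsg.Agent.Lib.Classical Cfsg.Agent.Lib.AutPSU
open Cfsg.Agent.Lib.MinIndexSp (perp mem_perp card_perp exists_perp)

universe u v

attribute [local instance] _root_.Classical.propDecidable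

variable {n : ℕ} {F : Type u} [Field F] [Fintype F] {q : ℕ}

theorem exists_psi : ∃ ψ : AddChar F ℂ, ψ.IsPrimitive ∧ ψ 1 ≠ 1 := by
  obtain ⟨b, hb⟩ : ∃ b, AddChar.FiniteField.primitiveChar_to_Complex F b ≠ 1 := by
    by_contra h
    push Not at h
    exact (AddChar.FiniteField.primitiveChar_to_Complex_isPrimitive F) (one_ne_zero (α := F))
      (DFunLike.ext _ _ fun a => by rw [AddChar.mulShift_apply, h, AddChar.one_apply])
  refine ⟨AddChar.mulShift (AddChar.FiniteField.primitiveChar_to_Complex F) b, ?_, ?_⟩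
  · refine AddChar.IsPrimitive.of_ne_one fun h => hb ?_
    have := DFunLike.congr_fun h 1
    rwa [AddChar.mulShift_apply, mul_one, AddChar.one_apply] at this
  · rwa [AddChar.mulShift_apply, mul_one]

variable (F) in
/-- An additive character which is nontrivial at one. -/
noncomputable def psi : AddChar F ℂ := (exists_psi (F := F)).choose

theorem psi_one : psi F 1 ≠ 1 := (exists_psi (F := F)).choose_spec.2

theorem psi_sub {a b : F} (h : psi F a = psi F b) : psi F (a - b) = 1 := by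
  rw [sub_eq_add_neg, AddChar.map_add_eq_mul, h, ← AddChar.map_add_eq_mul, add_neg_cancel,
    AddChar.map_zero_eq_one]

variable (hF : Fintype.card F = q ^ 2) {e f : Fin n → F}

/-- The symmetrised form. -/
noncomputable def trForm (hF : Fintype.card F = q ^ 2) (v : WM q e f) : WM q e f →+ F where
  toFun w := hm q (v : Fin n → F) w + hm q (w : Fin n → F) v
  map_zero' := by simp [hm_zero_left, hm_zero_right hF]
  map_add' a b := by simp [hm_add_left, hm_add_right hF]; ring

/-- The character of a vector. -/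
noncomputable def kap (hF : Fintype.card F = q ^ 2) (v : WM q e f) : AddChar (WM q e f) ℂ :=
  (psi F).compAddMonoidHom (trForm hF v)

theorem kap_apply (v w : WM q e f) :
    kap hF v w = psi F (hm q (v : Fin n → F) w + hm q (w : Fin n → F) v) := rfl

include hF

theorem exists_skew_set : Nat.card {c : F // Skew q c} = q := by
  obtain ⟨κ, hκ0, hκ⟩ := exists_skew_ne_zero hF
  refine (Nat.card_congr ?_).trans (Herm.card_fixed hF)
  refine (Equiv.subtypeEquiv (Equiv.mulRight₀ κ hκ0) fun c => ?_).symm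
  show c ^ q = c ↔ Skew q (c * κ)
  unfold Skew at *
  rw [mul_pow, show κ ^ q = -κ by linear_combination hκ]
  constructor
  · intro h; rw [h]; ring
  · intro h
    have : (c - c ^ q) * κ = 0 := by linear_combination h
    exact (sub_eq_zero.1 ((mul_eq_zero.1 this).resolve_right hκ0)).symm

variable (HP : Pair q e f)
include HP

theorem exists_WM_partner {v : WM q e f} (hv : v ≠ 0) :
    ∃ y : WM q e f, hm q (y : Fin n → F) v = 1 ∧ hm q (v : Fin n → F) y = 1 := by
  obtain ⟨y, hy, h1, h2⟩ := InW.nondeg hF HP (mem_WM.1 v.2) (fun h => hv (Subtype.ext h))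
  exact ⟨⟨y, hy⟩, h1, h2⟩

theorem kap_injective : Function.Injective (kap (e := e) (f := f) hF) := by
  intro v v' h
  by_contra hne
  obtain ⟨y, h1, h2⟩ := exists_WM_partner hF HP (v := v - v') (sub_ne_zero.2 hne)
  obtain ⟨t, ht⟩ := exists_trace hF (a := (1 : F)) (one_pow q)
  have h3 := DFunLike.congr_fun h (t • y)
  rw [kap_apply, kap_apply] at h3
  refine psi_one (F := F) ?_
  have h4 := psi_sub h3
  simp only [Submodule.coe_smul, hm_smul_left', hm_smul_right] at h4
  simp only [AddSubgroupClass.coe_sub, hm_sub_left, hm_sub_right hF] at h1 h2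
  convert h4 using 2
  linear_combination -(t ^ q) * h2 - t * h1 - ht

theorem U_zero_zero : U hF e (0 : Fin n → F) 0 = 1 := by
  rw [U_zero_eq_T hF HP (Skew.zero hF), T_zero hF HP.ee]

omit HP in
theorem cond_inv {x : Fin n → F} {c : F} (hc : Cond q x c) : Cond q (-x) (-c - hm q x x) := by
  have hnn : hm q (-x) (-x) = hm q x x := by
    rw [show -x = (-1 : F) • x from (neg_one_smul F x).symm, hm_smul_left', hm_smul_right,
      Herm.conj_neg hF, one_pow]
    ring
  unfold Cond at *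
  rw [Herm.conj_sub hF, Herm.conj_neg hF, AutPSU.hm_self_fixed hF, hnn]
  linear_combination -hc

theorem InW_neg {x : Fin n → F} (hx : InW q e f x) : InW q e f (-x) := by
  simpa using (InW.zero (q := q) e f).sub hx

theorem U_inv {x : Fin n → F} (hx : InW q e f x) {c : F} (hc : Cond q x c) :
    (U hF e x c)⁻¹ = U hF e (-x) (-c - hm q x x) := by
  refine inv_eq_of_mul_eq_one_right ?_
  rw [U_mul hF HP hx (InW_neg hF HP hx) hc (cond_inv hF hc)]
  have e0 : c + (-c - hm q x x) - hm q (-x) x = 0 := by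
    rw [AutPSU.hm_neg_left]; ring
  rw [add_neg_cancel, e0, U_zero_zero hF HP]

theorem U_T {x : Fin n → F} (hx : InW q e f x) {c d : F} (hc : Cond q x c) (hd : Skew q d) :
    U hF e x c * T hF e d = U hF e x (c + d) ∧ T hF e d * U hF e x c = U hF e x (c + d) := by
  rw [← U_zero_eq_T hF HP hd]
  constructor
  · rw [U_mul hF HP hx (InW.zero e f) hc (Cond.skew hF hd), add_zero, hm_zero_left, sub_zero]
  · rw [U_mul hF HP (InW.zero e f) hx (Cond.skew hF hd) hc, zero_add, hm_zero_right hF, sub_zero,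
      add_comm]

omit HP in
theorem cond_add {x : Fin n → F} {c d : F} (hc : Cond q x c) (hd : Skew q d) :
    Cond q x (c + d) := by
  unfold Cond Skew at *
  rw [Herm.conj_add hF]
  linear_combination hc + hd

omit HP in
theorem skew_of_cond {x : Fin n → F} {c d : F} (hc : Cond q x c) (hd : Cond q x d) :
    Skew q (c - d) := by
  unfold Cond Skew at *
  rw [Herm.conj_sub hF]
  linear_combination hc - hd

theorem comm_skew (x y : Fin n → F) : Skew q (hm q x y - hm q y x) := by
  unfold Skew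
  rw [Herm.conj_sub hF, ← hm_swap hF x y, ← hm_swap hF y x]; ring

variable {Ω : Type v} [MulAction (S n F q) Ω]

omit hF HP in
/-- The part of the centre fixing a point. -/
noncomputable def Z0 (hF : Fintype.card F = q ^ 2) (HP : Pair q e f) (ω : Ω) : AddSubgroup F where
  carrier := {c : F | Skew q c ∧ T hF e c • ω = ω}
  add_mem' := fun {c d} hc hd => ⟨Skew.add hF hc.1 hd.1, by
    rw [← T_add hF HP.ee hc.1 hd.1, mul_smul, hd.2, hc.2]⟩
  zero_mem' := ⟨Skew.zero hF, by rw [T_zero hF HP.ee, one_smul]⟩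
  neg_mem' := fun {c} hc => by
    have hn : Skew q (-c) := by
      have := hc.1; unfold Skew at *; rw [Herm.conj_neg hF]; linear_combination -this
    refine ⟨hn, ?_⟩
    conv_lhs => rw [← hc.2, ← mul_smul, T_add hF HP.ee hn hc.1, neg_add_cancel, T_zero hF HP.ee,
      one_smul]

omit hF HP in
/-- No central element fixes the point. -/
def Free (hF : Fintype.card F = q ^ 2) (e : Fin n → F) (ω : Ω) : Prop :=
  ∀ c : F, Skew q c → T hF e c • ω = ω → c = 0

omit hF HP in
/-- The projection of the stabiliser. -/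
noncomputable def Wst (hF : Fintype.card F = q ^ 2) (HP : Pair q e f) (ω : Ω) :
    AddSubgroup (WM q e f) where
  carrier := {w | ∃ c, Cond q (w : Fin n → F) c ∧ U hF e (w : Fin n → F) c • ω = ω}
  add_mem' := fun {w w'} hw hw' => by
    obtain ⟨c, hc, hc'⟩ := hw
    obtain ⟨d, hd, hd'⟩ := hw'
    refine ⟨c + d - hm q (w' : Fin n → F) w, hc.mul hF hd, ?_⟩
    rw [Submodule.coe_add, ← U_mul hF HP (mem_WM.1 w.2) (mem_WM.1 w'.2) hc hd, mul_smul, hd', hc']
  zero_mem' := ⟨0, Cond.zero hF, by rw [Submodule.coe_zero, U_zero_zero hF HP, one_smul]⟩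
  neg_mem' := fun {w} hw => by
    obtain ⟨c, hc, hc'⟩ := hw
    refine ⟨_, cond_inv hF hc, ?_⟩
    rw [Submodule.coe_neg, ← U_inv hF HP (mem_WM.1 w.2) hc, inv_smul_eq_iff, hc']

omit HP in
theorem mem_Wst {HP : Pair q e f} {ω : Ω} {w : WM q e f} :
    w ∈ Wst hF HP ω ↔ ∃ c, Cond q (w : Fin n → F) c ∧ U hF e (w : Fin n → F) c • ω = ω := Iff.rfl

omit hF HP in
/-- The annihilator of the projection of the stabiliser. -/
noncomputable def Ann (hF : Fintype.card F = q ^ 2) (HP : Pair q e f) (ω : Ω) :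
    Finset (WM q e f) := perp (kap hF) (Wst hF HP ω)

omit HP in
theorem mem_Ann {HP : Pair q e f} {ω : Ω} {v : WM q e f} :
    v ∈ Ann hF HP ω ↔ ∀ w ∈ Wst hF HP ω, kap hF v w = 1 := mem_perp _

theorem zero_mem_Ann (ω : Ω) : (0 : WM q e f) ∈ Ann hF HP ω :=
  (mem_Ann hF).2 fun w _ => by simp [kap_apply, hm_zero_left, hm_zero_right hF]

theorem add_mem_Ann {ω : Ω} {v v' : WM q e f} (hv : v ∈ Ann hF HP ω) (hv' : v' ∈ Ann hF HP ω) :
    v + v' ∈ Ann hF HP ω := (mem_Ann hF).2 fun w hw => by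
  have h1 := (mem_Ann hF).1 hv w hw
  have h2 := (mem_Ann hF).1 hv' w hw
  rw [kap_apply] at *
  rw [Submodule.coe_add, hm_add_left, hm_add_right hF, add_add_add_comm, AddChar.map_add_eq_mul,
    h1, h2, one_mul]

theorem neg_mem_Ann {ω : Ω} {v : WM q e f} (hv : v ∈ Ann hF HP ω) :
    -v ∈ Ann hF HP ω := (mem_Ann hF).2 fun w hw => by
  have h1 := (mem_Ann hF).1 hv (-w) ((Wst hF HP ω).neg_mem hw)
  rw [kap_apply] at *
  convert h1 using 2
  rw [show ((-v : WM q e f) : Fin n → F) = (-1 : F) • (v : Fin n → F) by simp,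
    show ((-w : WM q e f) : Fin n → F) = (-1 : F) • (w : Fin n → F) by simp, hm_smul_left',
    hm_smul_right, hm_smul_right, hm_smul_left', Herm.conj_neg hF, one_pow]

theorem sub_mem_Ann {ω : Ω} {v v' : WM q e f} (hv : v ∈ Ann hF HP ω) (hv' : v' ∈ Ann hF HP ω) :
    v - v' ∈ Ann hF HP ω := by
  rw [sub_eq_add_neg]; exact add_mem_Ann hF HP hv (neg_mem_Ann hF HP hv')

theorem card_WM {m : ℕ} (hn : n = m + 2) : Nat.card (WM q e f) = q ^ (2 * m) := by
  rw [finrank_eq_card_pow hF, show finrank F (WM q e f) = m by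
    have := (finrank_WM hF HP).1; omega]

theorem card_Ann_mul_Wst {m : ℕ} (hn : n = m + 2) (ω : Ω) :
    (Ann hF HP ω).card * Nat.card (Wst hF HP ω) = q ^ (2 * m) := by
  rw [Ann, card_perp _ (kap_injective hF HP), ← Nat.card_eq_fintype_card, card_WM hF HP hn]

theorem Wst_real {ω : Ω} (hfree : Free hF e ω) {w w' : WM q e f} (hw : w ∈ Wst hF HP ω)
    (hw' : w' ∈ Wst hF HP ω) : hm q (w : Fin n → F) w' = hm q (w' : Fin n → F) w := by
  obtain ⟨c, hc, h⟩ := hw
  obtain ⟨d, hd, h'⟩ := hw'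
  refine sub_eq_zero.1 (hfree _ (comm_skew hF HP _ _) ?_)
  have e1 := congrArg (· • ω) (U_comm hF HP (mem_WM.1 w.2) (mem_WM.1 w'.2) hc hd)
  simp only [mul_smul, h, h'] at e1
  exact e1.symm

theorem card_Ann_ge {m : ℕ} (hn : n = m + 2) {ω : Ω} (hfree : Free hF e ω) :
    q ^ m ≤ (Ann hF HP ω).card := by
  obtain ⟨ξ, hξ0, hξ⟩ := exists_skew_ne_zero hF
  have hξq : ξ ^ q = -ξ := by unfold Skew at hξ; linear_combination hξ
  let κ' : WM q e f → AddChar (WM q e f) ℂ := fun v => kap hF (ξ • v)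
  have hinj : Function.Injective κ' := fun v v' h =>
    smul_right_injective _ hξ0 (kap_injective hF HP h)
  have hsub : (Finset.univ.filter fun w => w ∈ Wst hF HP ω) ⊆ perp κ' (Wst hF HP ω) := by
    intro w hw
    refine (mem_perp _).2 fun w' hw' => ?_
    show kap hF (ξ • w) w' = 1
    rw [kap_apply, Submodule.coe_smul, hm_smul_left', hm_smul_right, hξq,
      Wst_real hF HP hfree (Finset.mem_filter.1 hw).2 hw', neg_mul, add_neg_cancel,
      AddChar.map_zero_eq_one]
  have h1 := card_perp κ' hinj (Wst hF HP ω)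
  rw [← Nat.card_eq_fintype_card, card_WM hF HP hn] at h1
  have h2 : Nat.card (Wst hF HP ω) ≤ (perp κ' (Wst hF HP ω)).card := by
    refine le_of_eq_of_le ?_ (Finset.card_le_card hsub)
    rw [← SetLike.coe_sort_coe, Nat.card_coe_set_eq, ← Set.ncard_coe_finset]
    congr 1; ext w; simp
  have h3 := card_Ann_mul_Wst hF HP hn ω
  have h4 : Nat.card (Wst hF HP ω) * Nat.card (Wst hF HP ω) ≤ q ^ m * q ^ m := by
    rw [← pow_add, ← two_mul, ← h1]
    exact Nat.mul_le_mul_right _ h2
  have h5 : Nat.card (Wst hF HP ω) ≤ q ^ m := Nat.mul_self_le_mul_self_iff.1 h4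
  refine Nat.le_of_mul_le_mul_right ?_ (Nat.card_pos (α := Wst hF HP ω))
  rw [h3, two_mul, pow_add]
  exact Nat.mul_le_mul_left _ h5

omit hF HP in
/-- The parameters of the radical. -/
abbrev QP (q : ℕ) (e f : Fin n → F) := {p : WM q e f × F // Cond q (p.1 : Fin n → F) p.2}

theorem card_QP : Nat.card (QP q e f) = Nat.card (WM q e f) * q := by
  have h : ∀ x : WM q e f, ∃ c, Cond q (x : Fin n → F) c := fun x => exists_cond hF _
  choose c0 hc0 using h
  refine (Nat.card_congr (β := WM q e f × {c : F // Skew q c})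
    { toFun := fun p => (p.1.1, ⟨p.1.2 - c0 p.1.1, skew_of_cond hF p.2 (hc0 _)⟩)
      invFun := fun p => ⟨(p.1, c0 p.1 + p.2.1), cond_add hF (hc0 _) p.2.2⟩
      left_inv := fun p => Subtype.ext (Prod.ext rfl (add_sub_cancel _ _))
      right_inv := fun p => Prod.ext rfl (Subtype.ext (add_sub_cancel_left _ _)) }).trans ?_
  rw [Nat.card_prod, exists_skew_set hF]

omit hF HP in
/-- The orbit under the radical. -/
noncomputable def orb (hF : Fintype.card F = q ^ 2) (e f : Fin n → F) (ω : Ω) : Finset Ω :=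
  (Finset.univ : Finset (QP q e f)).image fun p => U hF e (p.1.1 : Fin n → F) p.1.2 • ω

omit HP in
theorem mem_orb {ω y : Ω} : y ∈ orb hF e f ω ↔ ∃ (w : WM q e f) (c : F),
    Cond q (w : Fin n → F) c ∧ U hF e (w : Fin n → F) c • ω = y := by
  simp [orb]

theorem self_mem_orb (ω : Ω) : ω ∈ orb hF e f ω :=
  (mem_orb hF).2 ⟨0, 0, Cond.zero hF, by rw [Submodule.coe_zero, U_zero_zero hF HP, one_smul]⟩

theorem card_orb {ω : Ω} (hfree : Free hF e ω) :
    (orb hF e f ω).card = q * (Ann hF HP ω).card := by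
  have h1 := Finset.card_eq_sum_card_image
    (fun p : QP q e f => U hF e (p.1.1 : Fin n → F) p.1.2 • ω) Finset.univ
  have h2 : ∀ y ∈ orb hF e f ω, (Finset.univ.filter fun p : QP q e f =>
      U hF e (p.1.1 : Fin n → F) p.1.2 • ω = y).card = Nat.card (Wst hF HP ω) := by
    intro y hy
    obtain ⟨w0, c0, hc0, rfl⟩ := (mem_orb hF).1 hy
    have hex : ∀ w : Wst hF HP ω, ∃ c, Cond q (w.1 : Fin n → F) c ∧
        U hF e (w.1 : Fin n → F) c • ω = ω := fun w => w.2
    choose cw hcw hcw' using hex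
    rw [Nat.card_eq_fintype_card, ← Finset.card_univ]
    refine (Finset.card_bij (fun w _ => (⟨(w0 + w.1, c0 + cw w - hm q (w.1 : Fin n → F) w0),
      hc0.mul hF (hcw w)⟩ : QP q e f)) ?_ ?_ ?_).symm
    · intro w _
      refine Finset.mem_filter.2 ⟨Finset.mem_univ _, ?_⟩
      show U hF e ((w0 + w.1 : WM q e f) : Fin n → F) _ • ω = _
      rw [Submodule.coe_add, ← U_mul hF HP (mem_WM.1 w0.2) (mem_WM.1 w.1.2) hc0 (hcw w), mul_smul,
        hcw']
    · intro w _ w' _ h
      simp only [Subtype.mk.injEq, Prod.mk.injEq] at h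
      exact Subtype.ext (add_left_cancel h.1)
    · rintro ⟨⟨w1, c1⟩, hc1⟩ hp
      have hp' := (Finset.mem_filter.1 hp).2
      simp only at hp'
      set d := -c0 - hm q (w0 : Fin n → F) w0 + c1 - hm q (w1 : Fin n → F) ((-w0 : WM q e f) : Fin n → F)
      have hd : Cond q ((-w0 + w1 : WM q e f) : Fin n → F) d :=
        (cond_inv hF hc0).mul hF hc1
      have hfix : U hF e ((-w0 + w1 : WM q e f) : Fin n → F) d • ω = ω := by
        rw [Submodule.coe_add, ← U_mul hF HP (mem_WM.1 (-w0).2) (mem_WM.1 w1.2)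
          (cond_inv hF hc0) hc1, mul_smul, hp', Submodule.coe_neg,
          ← U_inv hF HP (mem_WM.1 w0.2) hc0, inv_smul_smul]
      have hmem : -w0 + w1 ∈ Wst hF HP ω := ⟨d, hd, hfix⟩
      refine ⟨⟨_, hmem⟩, Finset.mem_univ _, Subtype.ext (Prod.ext (by simp) ?_)⟩
      show c0 + cw ⟨_, hmem⟩ - hm q ((-w0 + w1 : WM q e f) : Fin n → F) w0 = c1
      have hcd : cw ⟨_, hmem⟩ = d := by
        refine sub_eq_zero.1 (hfree _ (skew_of_cond hF (hcw _) hd) ?_)
        refine smul_left_cancel (U hF e ((-w0 + w1 : WM q e f) : Fin n → F) d) ?_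
        rw [hfix, ← mul_smul, (U_T hF HP (mem_WM.1 (-w0 + w1).2) hd (skew_of_cond hF (hcw _) hd)).1,
          add_sub_cancel]
        exact hcw' ⟨_, hmem⟩
      rw [hcd]
      simp only [d, Submodule.coe_add, Submodule.coe_neg, hm_add_left, AutPSU.hm_neg_left]
      rw [show -(w0 : Fin n → F) = (-1 : F) • (w0 : Fin n → F) from (neg_one_smul F _).symm,
        hm_smul_right, Herm.conj_neg hF, one_pow]
      ring
  rw [← orb, Finset.sum_congr rfl h2, Finset.sum_const, smul_eq_mul, Finset.card_univ,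
    ← Nat.card_eq_fintype_card, card_QP hF HP] at h1
  obtain ⟨m, hn⟩ : ∃ m, n = m + 2 := ⟨_, (finrank_WM hF HP).1.symm⟩
  rw [card_WM hF HP hn, ← card_Ann_mul_Wst hF HP hn ω] at h1
  refine Nat.eq_of_mul_eq_mul_right (Nat.card_pos (α := Wst hF HP ω)) ?_
  rw [← h1]; ring

theorem free_orb {ω y : Ω} (hfree : Free hF e ω) (hy : y ∈ orb hF e f ω) : Free hF e y := by
  obtain ⟨w, c, hc, rfl⟩ := (mem_orb hF).1 hy
  intro d hd h
  refine hfree d hd (smul_left_cancel (U hF e (w : Fin n → F) c) ?_)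
  obtain ⟨h1, h2⟩ := U_T hF HP (mem_WM.1 w.2) hc hd
  rw [← mul_smul, h1, ← h2, mul_smul, h]

theorem Ann_orb {ω y : Ω} (hy : y ∈ orb hF e f ω) : Ann hF HP y = Ann hF HP ω := by
  obtain ⟨w, c, hc, rfl⟩ := (mem_orb hF).1 hy
  have key : ∀ (w x : WM q e f) (c : F), Cond q (w : Fin n → F) c → ∀ z : Ω,
      x ∈ Wst hF HP z → x ∈ Wst hF HP (U hF e (w : Fin n → F) c • z) := by
    intro w x c hc z hx
    obtain ⟨d, hd, h⟩ := hx
    refine ⟨d + (hm q (w : Fin n → F) x - hm q (x : Fin n → F) w),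
      cond_add hF hd (comm_skew hF HP _ _), ?_⟩
    have e1 : U hF e (x : Fin n → F) (d + (hm q (w : Fin n → F) x - hm q (x : Fin n → F) w)) *
        U hF e (w : Fin n → F) c = U hF e (w : Fin n → F) c * U hF e (x : Fin n → F) d := by
      rw [U_mul hF HP (mem_WM.1 x.2) (mem_WM.1 w.2) (cond_add hF hd (comm_skew hF HP _ _)) hc,
        U_mul hF HP (mem_WM.1 w.2) (mem_WM.1 x.2) hc hd, add_comm (x : Fin n → F)]
      congr 1; ring
    rw [← mul_smul, e1, mul_smul, h]
  have hW : Wst hF HP (U hF e (w : Fin n → F) c • ω) = Wst hF HP ω := by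
    refine le_antisymm (fun x hx => ?_) fun x hx => key w x c hc ω hx
    have h := key (-w) x _ (cond_inv hF hc) _ hx
    rwa [Submodule.coe_neg, ← U_inv hF HP (mem_WM.1 w.2) hc, inv_smul_smul] at h
  rw [Ann, hW, Ann]

end Cfsg.Agent.Lib.MinIndexSU
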