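import Cfsg.Agent.Lib.MinIndexSU.Cover

/-!
An anisotropic vector of a proper annihilator lies in two translates.
-/

set_option autoImplicit false

namespace Cfsg.Agent.Lib.MinIndexSU

open Matrix Module Cfsg.Agent.Lib.Forms Cfsg.Agent.Lib.Classical Cfsg.Agent.Lib.AutPSU

universe u v

attribute [local instance] _root_.Classical.propDecidable

variable {n m : ℕ} {F : Type u} [Field F] [Fintype F] {q : ℕ}
variable (hF : Fintype.card F = q ^ 2)
include hF

theorem exists_iso_pairing {U : Submodule F (Fin n → F)} (hU : NDeg q U) (h2 : 2 ≤ finrank F U)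
    {x : Fin n → F} (hx : x ∈ U) (hx0 : x ≠ 0) :
    ∃ z ∈ U, hm q z z = 0 ∧ hm q x z ≠ 0 := by
  by_cases hxx : hm q x x = 0
  · obtain ⟨v, hv, hp⟩ := exists_partner_mem hF hU hx hx0 hxx
    exact ⟨v, hv, hp.ff, by rw [hp.ef]; exact one_ne_zero⟩
  · obtain ⟨z1, hz1, hz10, hz11⟩ := exists_iso_mem hF hU h2
    obtain ⟨z2, hz2, hp⟩ := exists_partner_mem hF hU hz1 hz10 hz11
    by_cases h1 : hm q x z1 = 0
    swap
    · exact ⟨z1, hz1, hz11, h1⟩
    by_cases h3 : hm q x z2 = 0
    swap
    · exact ⟨z2, hz2, hp.ff, h3⟩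
    obtain ⟨α, hα⟩ := exists_cond hF x
    refine ⟨x + z1 + α • z2, U.add_mem (U.add_mem hx hz1) (U.smul_mem _ hz2), ?_, ?_⟩
    · simp only [hm_add_left, hm_add_right hF, hm_smul_left', hm_smul_right, hp.ee, hp.ff, hp.ef,
        hp.fe, h1, h3, hm_comm_zero hF h1, hm_comm_zero hF h3, mul_zero, mul_one, add_zero,
        zero_add]
      unfold Cond at hα
      linear_combination hα
    · rw [hm_add_right hF, hm_add_right hF, hm_smul_right, h1, h3, mul_zero, add_zero, add_zero]
      exact hxx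

theorem T_fix {w u : Fin n → F} (hww : hm q w w = 0) {s : F} (hs : Skew q s) (h : hm q u w = 0) :
    mat (T hF w s) *ᵥ u = u := by
  rw [T_mulVec hF hww hs, h, mul_zero, zero_smul, add_zero]

variable {e f : Fin n → F} (HP : Pair q e f)
include HP

theorem isL_T {w : Fin n → F} (hw : InW q e f w) (hww : hm q w w = 0) {s : F} (hs : Skew q s) :
    IsL q e f (T hF w s) 1 := by
  refine ⟨one_ne_zero, ?_, ?_⟩
  · rw [one_smul, T_fix hF hww hs (hw.swap hF).1]
  · rw [one_pow, inv_one, one_smul, T_fix hF hww hs (hw.swap hF).2]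

variable {Ω : Type v} [MulAction (S n F q) Ω]

/-- The set is kept by every Levi element keeping one of its anisotropic vectors. -/
theorem perp_mem_of_closed {ω : Ω} (hn : n = m + 2) (hm3 : 3 ≤ m)
    (hcard : q ^ m ≤ (Ann hF HP ω).card)
    (hcl : ∀ (s : S n F q) (hs : IsL q e f s 1),
      (∃ u ∈ Ann hF HP ω, u ∈ anV q e f ∧ psiL hF HP hs u ∈ Ann hF HP ω) →
      ∀ y ∈ Ann hF HP ω, psiL hF HP hs y ∈ Ann hF HP ω)
    {u : WM q e f} (huA : u ∈ Ann hF HP ω) (hu : u ∈ anV q e f)
    {x : WM q e f} (hx : hm q (x : Fin n → F) u = 0) : x ∈ Ann hF HP ω := by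
  set A := Ann hF HP ω with hA
  have hu' := mem_anV.1 hu
  set lam := hm q (u : Fin n → F) u with hlam
  set U := WM q e f ⊓ WM q (u : Fin n → F) u with hUdef
  obtain ⟨hdim, hnd⟩ := aniso_perp hF (finrank_WM hF HP).2 (mem_WM.2 (mem_WM.1 u.2)) hu'
  rw [finrank_W hF HP hn, ← hUdef] at hdim
  rw [← hUdef] at hnd
  have memU : ∀ z : Fin n → F, z ∈ U ↔ InW q e f z ∧ hm q z u = 0 := fun z => by
    simp [hUdef, mem_WM, InW]
  -- transvections
  have tv : ∀ (w : Fin n → F) (hw : w ∈ U), hm q w w = 0 → ∀ s : F, Skew q s → ∀ y ∈ A,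
      (s * hm q (y : Fin n → F) w) • (⟨w, ((memU w).1 hw).1⟩ : WM q e f) ∈ A := by
    intro w hw hww s hs y hy
    obtain ⟨hwW, hwu⟩ := (memU w).1 hw
    have hL := isL_T hF HP hwW hww hs
    have h := hcl _ hL ⟨u, huA, hu, by
      convert huA using 1
      apply Subtype.ext
      simp only [psiL]
      rw [inv_one, one_smul, T_fix hF hww hs (hm_comm_zero hF hwu)]⟩ y hy
    have h2 := sub_mem_Ann hF HP h hy
    convert h2 using 1
    apply Subtype.ext
    simp only [psiL, inv_one, one_smul, Submodule.coe_smul, AddSubgroupClass.coe_sub]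
    rw [T_mulVec hF hww hs, add_sub_cancel_left]
  -- a vector off the line of `u`
  obtain ⟨y, hy, hyu⟩ : ∃ y ∈ A, (y : Fin n → F) - (hm q (y : Fin n → F) u / lam) • (u : Fin n → F) ≠ 0 := by
    by_contra hc
    push Not at hc
    have hle : A ⊆ (Finset.univ : Finset F).image fun l => l • u := fun y hy => by
      refine Finset.mem_image.2 ⟨hm q (y : Fin n → F) u / lam, Finset.mem_univ _, Subtype.ext ?_⟩
      rw [Submodule.coe_smul]
      exact (sub_eq_zero.1 (hc y hy)).symm
    have h1 := (Finset.card_le_card hle).trans Finset.card_image_le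
    rw [Finset.card_univ, hF] at h1
    have h2 : q ^ 2 < q ^ m := Nat.pow_lt_pow_right (Herm.two_le_q hF) (by omega)
    omega
  set y' := (y : Fin n → F) - (hm q (y : Fin n → F) u / lam) • (u : Fin n → F) with hy'
  have hy'U : y' ∈ U := (memU _).2 ⟨(mem_WM.1 y.2).sub ((mem_WM.1 u.2).smul _), by
    rw [hy', hm_sub_left, hm_smul_left', ← hlam, div_mul_cancel₀ _ hu', sub_self]⟩
  obtain ⟨z0, hz0, hz00, hyz⟩ := exists_iso_pairing hF hnd (by omega) hy'U hyu
  have hyz0 : hm q (y : Fin n → F) z0 ≠ 0 := by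
    intro h
    apply hyz
    rw [hy', hm_sub_left, hm_smul_left', h, hm_comm_zero hF ((memU z0).1 hz0).2, mul_zero, sub_zero]
  obtain ⟨ξ, hξ0, hξ⟩ := exists_skew_ne_zero hF
  set z := (ξ * hm q (y : Fin n → F) z0) • z0 with hz
  have hzU : z ∈ U := U.smul_mem _ hz0
  have hzne : z ≠ 0 := smul_ne_zero (mul_ne_zero hξ0 hyz0) (fun h => hyz0 (by rw [h, hm_zero_right hF]))
  have hzz : hm q z z = 0 := by rw [hz, hm_smul_left', hm_smul_right, hz00, mul_zero, mul_zero]
  set Z : WM q e f := ⟨z, ((memU z).1 hzU).1⟩ with hZ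
  have hreal : ∀ r : F, r ^ q = r → r • Z ∈ A := fun r hr => by
    have h := tv z0 hz0 hz00 _ (hξ.mul_fixed hr) y hy
    convert h using 1
    apply Subtype.ext
    simp only [hZ, hz, Submodule.coe_smul, smul_smul]
    congr 1; ring
  obtain ⟨z', hz'U, hp⟩ := exists_partner_mem hF hnd hzU hzne hzz
  set Z' : WM q e f := ⟨z', ((memU z').1 hz'U).1⟩ with hZ'
  have hskew : ∀ s : F, Skew q s → s • Z' ∈ A := fun s hs => by
    have h := tv z' hz'U hp.ff s hs Z (by simpa using hreal 1 (one_pow q))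
    rwa [show hm q (Z : Fin n → F) z' = 1 from hp.ef, mul_one] at h
  -- the Eichler element
  have hxW : InW q z z' (-(u : Fin n → F)) := by
    have h1 := hm_comm_zero hF ((memU z).1 hzU).2
    have h2 := hm_comm_zero hF ((memU z').1 hz'U).2
    exact ⟨by rw [AutPSU.hm_neg_left, h1, neg_zero], by rw [AutPSU.hm_neg_left, h2, neg_zero]⟩
  obtain ⟨c, hc⟩ := exists_cond hF (-(u : Fin n → F))
  have hEv : ∀ v : Fin n → F, mat (AutPSU.U hF z (-(u : Fin n → F)) c) *ᵥ v =
      v + hm q v z • (-(u : Fin n → F)) + (c * hm q v z - hm q v (-(u : Fin n → F))) • z :=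
    fun v => U_mulVec hF hp hxW hc v
  have hneg : ∀ v : Fin n → F, hm q v (-(u : Fin n → F)) = -hm q v u := fun v => by
    rw [show -(u : Fin n → F) = (-1 : F) • (u : Fin n → F) from (neg_one_smul F _).symm,
      hm_smul_right, Herm.conj_neg hF, one_pow, neg_one_mul]
  have hzs := ((memU z).1 hzU)
  have hEL : IsL q e f (AutPSU.U hF z (-(u : Fin n → F)) c) 1 := by
    refine ⟨one_ne_zero, ?_, ?_⟩
    · rw [hEv, hneg, one_smul, (hzs.1.swap hF).1, ((mem_WM.1 u.2).swap hF).1]; module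
    · rw [hEv, hneg, one_pow, inv_one, one_smul, (hzs.1.swap hF).2, ((mem_WM.1 u.2).swap hF).2]; module
  have hcond : c + c ^ q = -lam := by
    have h := hc
    unfold Cond at h
    rwa [AutPSU.hm_neg_left, hneg, neg_neg] at h
  have hE : ∀ v ∈ A, psiL hF HP hEL v ∈ A := fun v hv => hcl _ hEL ⟨u, huA, hu, by
    have h := add_mem_Ann hF HP huA (hreal lam (AutPSU.hm_self_fixed hF _))
    convert h using 1
    apply Subtype.ext
    simp only [psiL, hZ, inv_one, one_smul, Submodule.coe_add, Submodule.coe_smul]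
    rw [hEv, hneg, ← hlam, hm_comm_zero hF hzs.2]
    module⟩ v hv
  have hstep : ∀ v ∈ A, psiL hF HP hEL v - v ∈ A := fun v hv => sub_mem_Ann hF HP (hE v hv) hv
  have hzu0 : hm q z u = 0 := hzs.2
  have hz'u0 : hm q z' u = 0 := ((memU z').1 hz'U).2
  have h1 : ∀ s : F, Skew q s → (s * c) • Z - s • u ∈ A := fun s hs => by
    convert hstep _ (hskew s hs) using 1
    apply Subtype.ext
    simp only [psiL, hZ, hZ', inv_one, one_smul, Submodule.coe_smul, AddSubgroupClass.coe_sub]
    rw [hEv, hm_smul_left', hp.fe, hm_smul_left', hneg, hz'u0]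
    module
  have h2 : ∀ s : F, Skew q s → (s * lam) • Z ∈ A := fun s hs => by
    have h := neg_mem_Ann hF HP (hstep _ (h1 s hs))
    convert h using 1
    apply Subtype.ext
    simp only [psiL, hZ, inv_one, one_smul, Submodule.coe_smul, AddSubgroupClass.coe_sub,
      Submodule.coe_neg]
    rw [hEv, hneg]
    simp only [hm_sub_left, hm_smul_left', hp.ee, hzu0, ← hlam,
      hm_comm_zero hF hzu0]
    module
  have hfull : ∀ a : F, a • Z ∈ A := by
    intro a
    by_cases hall : ∀ s : F, Skew q s → s ^ q = s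
    · have heq : ∀ r : F, r ^ q = r → Skew q r := by
        have hsub : {s : F | Skew q s} ⊆ {r : F | r ^ q = r} := hall
        have := Set.eq_of_subset_of_ncard_le hsub (le_of_eq (by
          rw [← Nat.card_coe_set_eq, ← Nat.card_coe_set_eq]
          exact (Herm.card_fixed hF).trans (exists_skew_set hF).symm))
        exact fun r hr => (Set.ext_iff.1 this r).2 hr
      have hcnf : c ^ q ≠ c := fun h => by
        have h' := heq c h
        unfold Skew at h'
        rw [h'] at hcond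
        exact hu' (neg_eq_zero.1 hcond.symm)
      obtain ⟨r1, r2, hr1, hr2, rfl⟩ := AutPSU.exists_fixed_decomp hF hcnf a
      have hcz : c • Z ∈ A := by
        have h := add_mem_Ann hF HP (h1 1 (heq 1 (one_pow q))) huA
        rwa [one_smul, one_mul, sub_add_cancel] at h
      have h3 := tv z' hz'U hp.ff r2 (heq r2 hr2) _ hcz
      rw [show hm q ((c • Z : WM q e f) : Fin n → F) z' = c by
        rw [Submodule.coe_smul, hm_smul_left', show hm q (Z : Fin n → F) z' = 1 from hp.ef, mul_one]] at h3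
      have h4 := tv z hzU hzz 1 (heq 1 (one_pow q)) _ h3
      rw [Submodule.coe_smul, hm_smul_left', show hm q (z' : Fin n → F) z = 1 from hp.fe, mul_one,
        one_mul] at h4
      rw [add_smul]
      exact add_mem_Ann hF HP (hreal r1 hr1) h4
    · push Not at hall
      obtain ⟨s, hs, hsf⟩ := hall
      have hθ : (s * lam) ^ q ≠ s * lam := fun h => hsf (by
        rw [mul_pow, AutPSU.hm_self_fixed hF] at h
        exact mul_right_cancel₀ hu' h)
      obtain ⟨r1, r2, hr1, hr2, rfl⟩ := AutPSU.exists_fixed_decomp hF hθ a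
      have h3 := h2 _ (hs.mul_fixed hr2)
      rw [add_smul]
      refine add_mem_Ann hF HP (hreal r1 hr1) ?_
      convert h3 using 2
      ring
  have hiso : ∀ (w : Fin n → F) (hw : w ∈ U), hm q w w = 0 → hm q z w ≠ 0 → ∀ a : F,
      a • (⟨w, ((memU w).1 hw).1⟩ : WM q e f) ∈ A := fun w hw hww hne a => by
    have h := tv w hw hww ξ hξ _ (hfull (a / (ξ * hm q z w)))
    rw [Submodule.coe_smul, hm_smul_left', show hm q (Z : Fin n → F) w = hm q z w from rfl] at h
    convert h using 2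
    field_simp
  -- every vector of the orthogonal space
  have hxU : (x : Fin n → F) ∈ U := (memU _).2 ⟨mem_WM.1 x.2, hx⟩
  set x0 := proj q z z' (x : Fin n → F) with hx0
  have hx0U : x0 ∈ U := U.sub_mem (U.sub_mem hxU (U.smul_mem _ hzU)) (U.smul_mem _ hz'U)
  have hx0p : InW q z z' x0 := proj_mem hp _
  obtain ⟨α, hα⟩ := exists_cond hF x0
  set w := x0 + z' + α • z with hw
  have hwU : w ∈ U := U.add_mem (U.add_mem hx0U hz'U) (U.smul_mem _ hzU)
  have hww : hm q w w = 0 := by
    simp only [hw, hm_add_left, hm_add_right hF, hm_smul_left', hm_smul_right, hp.ee, hp.ff, hp.ef,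
      hp.fe, hx0p.1, hx0p.2, (hx0p.swap hF).1, (hx0p.swap hF).2, mul_zero, mul_one, add_zero,
      zero_add]
    unfold Cond at hα
    linear_combination hα
  have hzw : hm q z w ≠ 0 := by
    rw [hw, hm_add_right hF, hm_add_right hF, hm_smul_right, hzz, hp.ef, (hx0p.swap hF).1]
    simp
  have hZ'A : ∀ a : F, a • Z' ∈ A := hiso z' hz'U hp.ff (by rw [hp.ef]; exact one_ne_zero)
  have h := add_mem_Ann hF HP (hiso w hwU hww hzw 1)
    (add_mem_Ann hF HP (hfull (hm q (x : Fin n → F) z' - α))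
      (hZ'A (hm q (x : Fin n → F) z - 1)))
  convert h using 1
  apply Subtype.ext
  simp only [hZ, hZ', hw, hx0, Submodule.coe_add, Submodule.coe_smul, proj]
  module

/-- An anisotropic vector of a proper annihilator lies in a second translate. -/
theorem exists_second {ω : Ω} (hn : n = m + 2) (hm3 : 3 ≤ m) (hfree : Free hF e ω)
    {u : WM q e f} (huA : u ∈ Ann hF HP ω) (hu : u ∈ anV q e f)
    (hne : Ann hF HP ω ≠ Finset.univ) :
    ∃ B ∈ Tset hF HP ω, B ≠ Ann hF HP ω ∧ u ∈ B := by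
  by_contra hc
  push Not at hc
  refine hne (Finset.eq_univ_iff_forall.2 fun x => ?_)
  have huniq : ∀ B ∈ Tset hF HP ω, u ∈ B → B = Ann hF HP ω := fun B hB hB' => by
    by_contra h
    exact hc B hB h hB'
  have hcl : ∀ (s : S n F q) (hs : IsL q e f s 1),
      (∃ v ∈ Ann hF HP ω, v ∈ anV q e f ∧ psiL hF HP hs v ∈ Ann hF HP ω) →
      ∀ y ∈ Ann hF HP ω, psiL hF HP hs y ∈ Ann hF HP ω := by
    rintro s hs ⟨v, hv, hvan, hsv⟩ y hy
    have hsv' : psiL hF HP hs v ∈ anV q e f := by
      rw [mem_anV, psiL_norm hF HP hs]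
      simpa using mem_anV.1 hvan
    obtain ⟨t, b, ht, htu⟩ := trans_an hF HP hn (by omega) hsv' hu
    have e1 := huniq _ (Tset_psiL hF HP ht (Ann_mem_Tset hF HP ω))
      (by rw [← htu]; exact Finset.mem_image_of_mem _ hsv)
    have e2 := huniq _ (Tset_psiL hF HP ht (Tset_psiL hF HP hs (Ann_mem_Tset hF HP ω)))
      (by rw [← htu]; exact Finset.mem_image_of_mem _ (Finset.mem_image_of_mem _ hv))
    have e3 := Finset.image_injective (psiL_injective hF HP ht) (e2.trans e1.symm)
    rw [← e3]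
    exact Finset.mem_image_of_mem _ hy
  have hperp := fun {v : WM q e f} (hv : v ∈ Ann hF HP ω) (hv' : v ∈ anV q e f) {y : WM q e f}
      (hy : hm q (y : Fin n → F) v = 0) =>
    perp_mem_of_closed hF HP hn hm3 (card_Ann_ge hF HP hn hfree) hcl hv hv' hy
  have hu' := mem_anV.1 hu
  obtain ⟨hdim, hnd⟩ := aniso_perp hF (finrank_WM hF HP).2 (mem_WM.2 (mem_WM.1 u.2)) hu'
  rw [finrank_W hF HP hn] at hdim
  obtain ⟨v, hv, hv1⟩ := exists_norm_one_mem hF hnd (by omega)
  obtain ⟨hvW, hvu⟩ := Submodule.mem_inf.1 hv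
  set V : WM q e f := ⟨v, hvW⟩
  have hVA : V ∈ Ann hF HP ω := hperp huA hu hvu.1
  have hVan : V ∈ anV q e f := mem_anV.2 (by
    show hm q v v ≠ 0
    rw [hv1]; exact one_ne_zero)
  set β := hm q (x : Fin n → F) u / hm q (u : Fin n → F) u
  have h1 : x - β • u ∈ Ann hF HP ω := hperp huA hu (by
    rw [AddSubgroupClass.coe_sub, Submodule.coe_smul, hm_sub_left, hm_smul_left',
      div_mul_cancel₀ _ hu', sub_self])
  have h2 : β • u ∈ Ann hF HP ω := hperp hVA hVan (by
    show hm q ((β • u : WM q e f) : Fin n → F) v = 0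
    rw [Submodule.coe_smul, hm_smul_left', hm_comm_zero hF hvu.1, mul_zero])
  have h := add_mem_Ann hF HP h1 h2
  rwa [sub_add_cancel] at h

end Cfsg.Agent.Lib.MinIndexSU
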