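import Cfsg.Agent.Lib.AutPSU.Space
import Cfsg.Agent.Lib.Forms.WittHerm
import Cfsg.Agent.Lib.Classical.HermCount

/-!
The orthogonal space of a hyperbolic pair and numbers of vectors of given norm in subspaces.
-/

set_option autoImplicit false

namespace Cfsg.Agent.Lib.MinIndexSU

open Matrix Module Cfsg.Agent.Lib.Forms Cfsg.Agent.Lib.Classical Cfsg.Agent.Lib.AutPSU

universe u

variable {n : ℕ} {F : Type u} [Field F] [Fintype F] {q : ℕ}

theorem hData (hF : Fintype.card F = q ^ 2) (n : ℕ) :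
    HermData (conjQ hF) (hm (n := n) (F := F) q) where
  ne_refl := (isUnitary_hermForm hF n).ne_refl
  involutive := (isUnitary_hermForm hF n).involutive
  add_left := hm_add_left
  smul_left := hm_smul_left'
  herm := fun x y => (isUnitary_hermForm hF n).herm x y
  sep := fun x hx => by
    obtain ⟨w, -, h⟩ := exists_hm_one hF hx
    exact ⟨w, by rw [h]; exact one_ne_zero⟩

/-- The orthogonal space of two vectors. -/
noncomputable def WM (q : ℕ) (e f : Fin n → F) : Submodule F (Fin n → F) where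
  carrier := {x | InW q e f x}
  add_mem' := fun hx hy => InW.add hx hy
  zero_mem' := InW.zero e f
  smul_mem' := fun a _ hx => InW.smul a hx

theorem mem_WM {e f x : Fin n → F} : x ∈ WM q e f ↔ InW q e f x := Iff.rfl

/-- The form is nondegenerate on the subspace. -/
def NDeg (q : ℕ) (U : Submodule F (Fin n → F)) : Prop :=
  ∀ x ∈ U, x ≠ 0 → ∃ y ∈ U, hm q x y ≠ 0

theorem ndeg_top (hF : Fintype.card F = q ^ 2) : NDeg q (⊤ : Submodule F (Fin n → F)) :=
  fun _ _ hx => by
    obtain ⟨w, -, h⟩ := exists_hm_one hF hx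
    exact ⟨w, trivial, by rw [h]; exact one_ne_zero⟩

variable (hF : Fintype.card F = q ^ 2)
include hF

theorem finrank_eq_card_pow (U : Submodule F (Fin n → F)) :
    Nat.card U = q ^ (2 * finrank F U) := by
  rw [Module.natCard_eq_pow_finrank (K := F), Nat.card_eq_fintype_card, hF, ← pow_mul]

/-- Splitting off a hyperbolic pair. -/
theorem pair_perp {U : Submodule F (Fin n → F)} (hU : NDeg q U) {u v : Fin n → F}
    (hu : u ∈ U) (hv : v ∈ U) (hp : Pair q u v) :
    finrank F (U ⊓ WM q u v : Submodule F (Fin n → F)) + 2 = finrank F U ∧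
      NDeg q (U ⊓ WM q u v) := by
  let L : U →ₗ[F] (Fin 2 → F) :=
    { toFun := fun x => ![hm q x.1 u, hm q x.1 v]
      map_add' := fun x y => by
        funext i; fin_cases i <;> simp [hm_add_left]
      map_smul' := fun a x => by
        funext i; fin_cases i <;> simp [hm_smul_left'] }
  have hsurj : LinearMap.range L = ⊤ := by
    rw [eq_top_iff]
    intro c _
    refine ⟨⟨c 1 • u + c 0 • v, U.add_mem (U.smul_mem _ hu) (U.smul_mem _ hv)⟩, ?_⟩
    funext i
    fin_cases i <;> simp [L, hm_add_left, hm_smul_left', hp.ee, hp.ff, hp.ef, hp.fe]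
  have h1 := LinearMap.finrank_range_add_finrank_ker L
  rw [hsurj, finrank_top, Module.finrank_fintype_fun_eq_card, Fintype.card_fin] at h1
  have h2 : (LinearMap.ker L).map U.subtype = U ⊓ WM q u v := by
    ext x
    simp only [Submodule.mem_map, LinearMap.mem_ker, Submodule.mem_inf, mem_WM]
    constructor
    · rintro ⟨y, hy, rfl⟩
      exact ⟨y.2, by simpa [L] using congrFun hy 0, by simpa [L] using congrFun hy 1⟩
    · rintro ⟨hx, h0, h1⟩
      refine ⟨⟨x, hx⟩, ?_, rfl⟩
      funext i; fin_cases i <;> simp [L, h0, h1]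
  have h3 : finrank F ((LinearMap.ker L).map U.subtype) = finrank F (LinearMap.ker L) :=
    Submodule.finrank_map_subtype_eq U _
  rw [h2] at h3
  refine ⟨by omega, fun x hx hx0 => ?_⟩
  obtain ⟨hxU, hxW⟩ := Submodule.mem_inf.1 hx
  obtain ⟨y, hy, hxy⟩ := hU x hxU hx0
  refine ⟨proj q u v y, Submodule.mem_inf.2 ⟨?_, proj_mem hp y⟩, ?_⟩
  · exact U.sub_mem (U.sub_mem hy (U.smul_mem _ hu)) (U.smul_mem _ hv)
  · rwa [hm_swap hF, hm_proj hF hxW, ← hm_swap hF]

/-- Splitting off an anisotropic vector. -/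
theorem aniso_perp {U : Submodule F (Fin n → F)} (hU : NDeg q U) {u : Fin n → F}
    (hu : u ∈ U) (hu0 : hm q u u ≠ 0) :
    finrank F (U ⊓ WM q u u : Submodule F (Fin n → F)) + 1 = finrank F U ∧
      NDeg q (U ⊓ WM q u u) := by
  let L : U →ₗ[F] F :=
    { toFun := fun x => hm q x.1 u
      map_add' := fun x y => hm_add_left _ _ _
      map_smul' := fun a x => hm_smul_left' _ _ _ }
  have hsurj : LinearMap.range L = ⊤ := by
    rw [eq_top_iff]
    intro c _
    refine ⟨⟨(c / hm q u u) • u, U.smul_mem _ hu⟩, ?_⟩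
    simp [L, hm_smul_left', div_mul_cancel₀ _ hu0]
  have h1 := LinearMap.finrank_range_add_finrank_ker L
  rw [hsurj, finrank_top, Module.finrank_self] at h1
  have h2 : (LinearMap.ker L).map U.subtype = U ⊓ WM q u u := by
    ext x
    simp only [Submodule.mem_map, LinearMap.mem_ker, Submodule.mem_inf, mem_WM, InW, and_self]
    constructor
    · rintro ⟨y, hy, rfl⟩
      exact ⟨y.2, hy⟩
    · rintro ⟨hx, h0⟩
      exact ⟨⟨x, hx⟩, h0, rfl⟩
  have h3 : finrank F ((LinearMap.ker L).map U.subtype) = finrank F (LinearMap.ker L) :=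
    Submodule.finrank_map_subtype_eq U _
  rw [h2] at h3
  refine ⟨by omega, fun x hx hx0 => ?_⟩
  obtain ⟨hxU, hxW⟩ := Submodule.mem_inf.1 hx
  obtain ⟨y, hy, hxy⟩ := hU x hxU hx0
  refine ⟨y - (hm q y u / hm q u u) • u,
    Submodule.mem_inf.2 ⟨U.sub_mem hy (U.smul_mem _ hu), ?_⟩, ?_⟩
  · have h : hm q (y - (hm q y u / hm q u u) • u) u = 0 := by
      rw [hm_sub_left, hm_smul_left', div_mul_cancel₀ _ hu0, sub_self]
    exact ⟨h, h⟩
  · rwa [hm_sub_right hF, hm_smul_right, hxW.1, mul_zero, sub_zero]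

/-- Orthonormal coordinates. -/
theorem exists_coords {U : Submodule F (Fin n → F)} (hU : NDeg q U) :
    ∃ φ : (Fin (finrank F U) → F) ≃ₗ[F] U, ∀ c c',
      hm q (φ c : Fin n → F) (φ c' : Fin n → F) = Cfsg.hermForm (finrank F U) F q c c' := by
  have H := hData hF n
  obtain ⟨b, hb⟩ := exists_orthonormal_family (conjQ hF) H.ne_refl H.involutive (finrank F U) U
    (fun x y => hm q x.1 y.1) (fun _ _ _ => hm_add_left _ _ _) (fun _ _ _ => hm_smul_left' _ _ _)
    (fun _ _ => H.herm _ _) (fun x hx => by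
      obtain ⟨y, hy, h⟩ := hU x.1 x.2 (fun h => hx (Subtype.ext h))
      exact ⟨⟨y, hy⟩, h⟩) rfl
  let L : (Fin (finrank F U) → F) →ₗ[F] U :=
    { toFun := fun c => ∑ i, c i • b i
      map_add' := fun c c' => by simp [add_smul, Finset.sum_add_distrib]
      map_smul' := fun a c => by simp [Finset.smul_sum, smul_smul] }
  have hL : ∀ c c', hm q (L c : Fin n → F) (L c' : Fin n → F) =
      Cfsg.hermForm (finrank F U) F q c c' := fun c c' => by
    have e : ∀ c, (L c : Fin n → F) = ∑ i, c i • (b i : Fin n → F) := fun c => by simp [L]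
    rw [e, e, H.sum_orthonormal (f := fun i => (b i : Fin n → F)) hb]
    rfl
  have hinj : Function.Injective L := by
    rw [injective_iff_map_eq_zero]
    intro c hc
    funext i
    have h := hL c (Pi.single i 1)
    rw [hc, Submodule.coe_zero, hm_zero_left, Herm.herm_single_right hF] at h
    exact h.symm
  exact ⟨LinearEquiv.ofInjectiveOfFinrankEq L hinj (by simp), hL⟩

theorem card_norm_sub {U : Submodule F (Fin n → F)} (hU : NDeg q U) (c : F) :
    Nat.card {x : U // hm q (x : Fin n → F) x = c} = Herm.cnt (finrank F U) F q c := by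
  obtain ⟨φ, hφ⟩ := exists_coords hF hU
  exact Nat.card_congr (Equiv.subtypeEquiv φ.toEquiv fun x => by
    simp [hφ]).symm

omit hF in
/-- The number of nonzero isotropic vectors in dimension `d`. -/
def N0 (q d : ℕ) : ℕ :=
  if Even d then (q ^ d - 1) * (q ^ (d - 1) + 1) else (q ^ d + 1) * (q ^ (d - 1) - 1)

theorem cnt_zero_N0 (d : ℕ) : Herm.cnt d F q (0 : F) = N0 q d + 1 := Herm.cnt_zero_eq hF d

theorem N0_succ_succ (d : ℕ) :
    N0 q (d + 2) + 1 = q ^ 2 * (N0 q d + 1) + (q ^ 2 - 1) * q ^ (2 * d + 1) := by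
  rw [← cnt_zero_N0 hF, ← cnt_zero_N0 hF]
  have h1 := Herm.q_mul_cnt_zero hF (d + 2)
  have h2 := Herm.q_mul_cnt_zero hF d
  have hq := Herm.two_le_q hF
  have hq2 : 1 ≤ q ^ 2 := Nat.one_le_pow _ _ (by omega)
  refine Nat.cast_injective (R := ℤ) (mul_left_cancel₀ (show (q : ℤ) ≠ 0 by omega) ?_)
  rw [h1]
  push_cast [Nat.cast_sub hq2]
  linear_combination (-(q : ℤ) ^ 2) * h2

theorem N0_add_aniso (d : ℕ) :
    N0 q d + 1 + (q - 1) * Herm.cnt d F q (1 : F) = q ^ (2 * d) := by
  rw [← cnt_zero_N0 hF]; exact Herm.cnt_total hF d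

variable {e f : Fin n → F} (HP : Pair q e f)
include HP

theorem finrank_WM : finrank F (WM q e f) + 2 = n ∧ NDeg q (WM q e f) := by
  have h := pair_perp hF (ndeg_top hF) (U := ⊤) (u := e) (v := f) trivial trivial HP
  rwa [top_inf_eq, finrank_top, Module.finrank_fintype_fun_eq_card, Fintype.card_fin] at h

end Cfsg.Agent.Lib.MinIndexSU
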