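import Cfsg.Agent.Lib.MinIndexSU.Levi

/-!
Orbits on vectors and the translates of an annihilator.
-/

set_option autoImplicit false

namespace Cfsg.Agent.Lib.MinIndexSU

open Matrix Module Cfsg.Agent.Lib.Forms Cfsg.Agent.Lib.Classical Cfsg.Agent.Lib.AutPSU

universe u v

attribute [local instance] _root_.Classical.propDecidable

variable {n m : ℕ} {F : Type u} [Field F] [Fintype F] {q : ℕ}

/-- Nonzero isotropic vectors. -/
noncomputable def isoV (q : ℕ) (e f : Fin n → F) : Finset (WM q e f) :=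
  Finset.univ.filter fun v : WM q e f => v ≠ 0 ∧ hm q (v : Fin n → F) v = 0

/-- Anisotropic vectors. -/
noncomputable def anV (q : ℕ) (e f : Fin n → F) : Finset (WM q e f) :=
  Finset.univ.filter fun v : WM q e f => hm q (v : Fin n → F) v ≠ 0

theorem mem_isoV {e f : Fin n → F} {v : WM q e f} :
    v ∈ isoV q e f ↔ v ≠ 0 ∧ hm q (v : Fin n → F) v = 0 := by simp [isoV]

theorem mem_anV {e f : Fin n → F} {v : WM q e f} :
    v ∈ anV q e f ↔ hm q (v : Fin n → F) v ≠ 0 := by simp [anV]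

variable (hF : Fintype.card F = q ^ 2) {e f : Fin n → F} (HP : Pair q e f)
include hF HP

theorem finrank_W (hn : n = m + 2) : finrank F (WM q e f) = m := by
  have := (finrank_WM hF HP).1
  omega

theorem card_isoV (hn : n = m + 2) : (isoV q e f).card = N0 q m := by
  have h := card_norm_sub hF (finrank_WM hF HP).2 (0 : F)
  rw [finrank_W hF HP hn, cnt_zero_N0 hF, Nat.card_eq_fintype_card, Fintype.card_subtype] at h
  have e1 : (Finset.univ.filter fun x : WM q e f => hm q (x : Fin n → F) x = 0) =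
      insert 0 (isoV q e f) := by
    ext x
    rcases eq_or_ne x 0 with rfl | hx
    · simp [hm_zero_left]
    · simp [mem_isoV, hx]
  rw [e1, Finset.card_insert_of_notMem (by simp [mem_isoV])] at h
  omega

theorem card_isoV_add_anV (hn : n = m + 2) :
    (isoV q e f).card + (anV q e f).card + 1 = q ^ (2 * m) := by
  have h : (Finset.univ : Finset (WM q e f)) = insert 0 (isoV q e f ∪ anV q e f) := by
    ext x
    rcases eq_or_ne x 0 with rfl | hx
    · simp
    · by_cases h0 : hm q (x : Fin n → F) x = 0 <;> simp [mem_isoV, mem_anV, hx, h0]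
  have hc := congrArg Finset.card h
  rw [Finset.card_univ, ← Nat.card_eq_fintype_card, card_WM hF HP hn,
    Finset.card_insert_of_notMem (by simp [mem_isoV, mem_anV, hm_zero_left]),
    Finset.card_union_of_disjoint (Finset.disjoint_left.2 fun x hx hx' =>
      (mem_anV.1 hx') (mem_isoV.1 hx).2)] at hc
  exact hc.symm

theorem trans_an (hn : n = m + 2) (hm2 : 2 ≤ m) {u u' : WM q e f} (hu : u ∈ anV q e f)
    (hu' : u' ∈ anV q e f) : ∃ (s : S n F q) (a : F) (hs : IsL q e f s a),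
      psiL hF HP hs u = u' := by
  rw [mem_anV] at hu hu'
  obtain ⟨a, ha0, ha⟩ := Herm.exists_norm hF
    (c := hm q (u : Fin n → F) u / hm q (u' : Fin n → F) u') (div_ne_zero hu hu')
    (by rw [div_pow, AutPSU.hm_self_fixed hF, AutPSU.hm_self_fixed hF])
  obtain ⟨M, hd, hiso, he, hf, hM⟩ := witt_pair hF HP (k := 1) (x := fun _ => (u : Fin n → F))
    (x' := fun _ => a • (u' : Fin n → F)) (fun _ => mem_WM.1 u.2) (fun _ => (mem_WM.1 u'.2).smul a)
    (LinearIndependent.of_subsingleton (v := fun _ : Fin 1 => _) 0 (fun h => hu (by rw [h, hm_zero_left])))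
    (LinearIndependent.of_subsingleton (v := fun _ : Fin 1 => _) 0 (smul_ne_zero ha0 (fun h => hu' (by rw [h, hm_zero_left]))))
    (fun _ _ => by
      rw [hm_smul_left', hm_smul_right, ← mul_assoc, ← pow_succ', ha, div_mul_cancel₀ _ hu'])
  obtain ⟨hdim, hnd⟩ := aniso_perp hF (finrank_WM hF HP).2 (mem_WM.2 (mem_WM.1 u'.2)) hu'
  rw [finrank_W hF HP hn] at hdim
  obtain ⟨w, hw, hw1⟩ := exists_norm_one_mem hF hnd (by omega)
  obtain ⟨hwW, hwu⟩ := Submodule.mem_inf.1 hw
  obtain ⟨s, hs, hsx⟩ := fix_quasi hF HP hd hiso he hf hwW hw1 ha0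
  refine ⟨s, a, hs, Subtype.ext ?_⟩
  simp only [psiL]
  rw [hsx _ (mem_WM.1 u.2) (by
    rw [hM 0, hm_smul_left', hm_comm_zero hF hwu.1, mul_zero]), hM 0, smul_smul,
    inv_mul_cancel₀ ha0, one_smul]

theorem trans_iso (hn : n = m + 2) (hm3 : 3 ≤ m) {u u' : WM q e f} (hu : u ∈ isoV q e f)
    (hu' : u' ∈ isoV q e f) : ∃ (s : S n F q) (hs : IsL q e f s 1),
      psiL hF HP hs u = u' := by
  rw [mem_isoV] at hu hu'
  obtain ⟨M, hd, hiso, he, hf, hM⟩ := witt_pair hF HP (k := 1) (x := fun _ => (u : Fin n → F))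
    (x' := fun _ => (u' : Fin n → F)) (fun _ => mem_WM.1 u.2) (fun _ => mem_WM.1 u'.2)
    (LinearIndependent.of_subsingleton (v := fun _ : Fin 1 => _) 0 (fun h => hu.1 (Subtype.ext h)))
    (LinearIndependent.of_subsingleton (v := fun _ : Fin 1 => _) 0 (fun h => hu'.1 (Subtype.ext h)))
    (fun _ _ => by rw [hu.2, hu'.2])
  obtain ⟨v, hv, hp⟩ := exists_partner_mem hF (finrank_WM hF HP).2 (mem_WM.2 (mem_WM.1 u'.2))
    (fun h => hu'.1 (Subtype.ext h)) hu'.2
  obtain ⟨hdim, hnd⟩ := pair_perp hF (finrank_WM hF HP).2 (mem_WM.2 (mem_WM.1 u'.2)) hv hp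
  rw [finrank_W hF HP hn] at hdim
  obtain ⟨w, hw, hw1⟩ := exists_norm_one_mem hF hnd (by omega)
  obtain ⟨hwW, hwu⟩ := Submodule.mem_inf.1 hw
  obtain ⟨s, hs, hsx⟩ := fix_quasi hF HP hd hiso he hf hwW hw1 one_ne_zero
  refine ⟨s, hs, Subtype.ext ?_⟩
  simp only [psiL]
  rw [hsx _ (mem_WM.1 u.2) (by rw [hM 0, hm_comm_zero hF hwu.1]), hM 0, inv_one, one_smul]

variable {Ω : Type v} [MulAction (S n F q) Ω]

omit hF HP in
/-- The translates of the annihilator. -/
noncomputable def Tset (hF : Fintype.card F = q ^ 2) (HP : Pair q e f) (ω : Ω) :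
    Finset (Finset (WM q e f)) :=
  ((Finset.univ : Finset (S n F q)).filter fun s => ∃ a, IsL q e f s a).image
    fun s => Ann hF HP (s • ω)

omit HP in
theorem mem_Tset {HP : Pair q e f} {ω : Ω} {B : Finset (WM q e f)} :
    B ∈ Tset hF HP ω ↔ ∃ s a, IsL q e f s a ∧ Ann hF HP (s • ω) = B := by
  simp [Tset, and_assoc, exists_and_right]

theorem Ann_mem_Tset (ω : Ω) : Ann hF HP ω ∈ Tset hF HP ω :=
  (mem_Tset hF).2 ⟨1, 1, IsL.one hF HP, by rw [one_smul]⟩

theorem Tset_psiL {s : S n F q} {a : F} (hs : IsL q e f s a) {ω : Ω} {B : Finset (WM q e f)}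
    (hB : B ∈ Tset hF HP ω) : B.image (psiL hF HP hs) ∈ Tset hF HP ω := by
  obtain ⟨t, b, ht, rfl⟩ := (mem_Tset hF).1 hB
  exact (mem_Tset hF).2 ⟨s * t, a * b, IsL.mul hF HP hs ht, by rw [mul_smul, Ann_smul hF HP hs]⟩

theorem Tset_card {ω : Ω} {B : Finset (WM q e f)} (hB : B ∈ Tset hF HP ω) :
    B.card = (Ann hF HP ω).card := by
  obtain ⟨t, b, ht, rfl⟩ := (mem_Tset hF).1 hB
  rw [Ann_smul hF HP ht, Finset.card_image_of_injective _ (psiL_injective hF HP ht)]

theorem sum_le_card [Fintype Ω] {ω : Ω} (hfree : Free hF e ω) :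
    q * ∑ B ∈ Tset hF HP ω, B.card ≤ (Finset.univ.filter fun y : Ω => Free hF e y).card := by
  rw [Finset.mul_sum]
  refine le_trans (Finset.sum_le_sum fun B hB => ?_) (le_of_eq_of_le
    (Finset.card_biUnion (s := Tset hF HP ω)
      (t := fun B => (Finset.univ.filter fun y : Ω => Free hF e y ∧ Ann hF HP y = B)) ?_).symm
    (Finset.card_le_card ?_))
  · obtain ⟨t, b, ht, rfl⟩ := (mem_Tset hF).1 hB
    rw [← card_orb hF HP (free_smul hF HP ht hfree)]
    exact Finset.card_le_card fun y hy => Finset.mem_filter.2 ⟨Finset.mem_univ _,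
      free_orb hF HP (free_smul hF HP ht hfree) hy, Ann_orb hF HP hy⟩
  · intro B _ C _ hne
    rw [Function.onFun, Finset.disjoint_left]
    intro y hy hy'
    exact hne ((Finset.mem_filter.1 hy).2.2.symm.trans (Finset.mem_filter.1 hy').2.2)
  · intro y hy
    obtain ⟨B, -, hy⟩ := Finset.mem_biUnion.1 hy
    exact Finset.mem_filter.2 ⟨Finset.mem_univ _, (Finset.mem_filter.1 hy).2.1⟩

/-- A transitive family of vectors is covered evenly. -/
theorem cover {ω : Ω} {O : Finset (WM q e f)} {u0 : WM q e f}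
    (htrans : ∀ u ∈ O, ∃ (s : S n F q) (a : F) (hs : IsL q e f s a), psiL hF HP hs u0 = u)
    {T : Finset (Finset (WM q e f))} (hT : T ⊆ Tset hF HP ω) (hu0 : ∀ B ∈ T, u0 ∈ B) :
    T.card * O.card ≤ ∑ B ∈ Tset hF HP ω, (O.filter fun u => u ∈ B).card := by
  have hswap : ∑ B ∈ Tset hF HP ω, (O.filter fun u => u ∈ B).card =
      ∑ u ∈ O, ((Tset hF HP ω).filter fun B => u ∈ B).card := by
    simp only [Finset.card_filter]; exact Finset.sum_comm
  rw [hswap, mul_comm, ← smul_eq_mul]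
  refine Finset.card_nsmul_le_sum O _ _ fun u hu => ?_
  obtain ⟨s, a, hs, rfl⟩ := htrans u hu
  refine Finset.card_le_card_of_injOn (fun B => B.image (psiL hF HP hs)) (fun B hB => ?_)
    ((Finset.image_injective (psiL_injective hF HP hs)).injOn)
  exact Finset.mem_filter.2 ⟨Tset_psiL hF HP hs (hT hB),
    Finset.mem_image_of_mem _ (hu0 B hB)⟩

end Cfsg.Agent.Lib.MinIndexSU
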