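import Cfsg.Agent.Lib.MinIndexSU.Levi

/-!
Diagonal elements of the Levi part over the field with four elements.
-/

set_option autoImplicit false

namespace Cfsg.Agent.Lib.MinIndexSU

open Matrix Module Cfsg.Agent.Lib.Forms Cfsg.Agent.Lib.Classical Cfsg.Agent.Lib.AutPSU

universe u

attribute [local instance] _root_.Classical.propDecidable

variable {n m : ℕ} {F : Type u} [Field F] [Fintype F] {q : ℕ}

/-- An orthonormal basis of the orthogonal space of a pair. -/
structure OrthB (q : ℕ) (e f : Fin n → F) (b : Fin m → Fin n → F) : Prop where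
  mem : ∀ i, InW q e f (b i)
  orth : ∀ i j, hm q (b i) (b j) = if i = j then 1 else 0
  expand : ∀ x, InW q e f x → x = ∑ i, hm q x (b i) • b i

theorem hm_sum_left {ι : Type} (A : Finset ι) (x : ι → Fin n → F) (w : Fin n → F) :
    hm q (∑ i ∈ A, x i) w = ∑ i ∈ A, hm q (x i) w := by
  induction A using Finset.induction_on with
  | empty => simp [hm_zero_left]
  | @insert a A ha ih => rw [Finset.sum_insert ha, Finset.sum_insert ha, hm_add_left, ih]

variable {e f : Fin n → F} {b : Fin m → Fin n → F}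

theorem OrthB.self (hb : OrthB q e f b) (i : Fin m) : hm q (b i) (b i) = 1 := by
  rw [hb.orth, if_pos rfl]

theorem OrthB.coef (hb : OrthB q e f b) (A : Finset (Fin m)) (c : Fin m → F) (j : Fin m) :
    hm q (∑ i ∈ A, c i • b i) (b j) = if j ∈ A then c j else 0 := by
  rw [hm_sum_left]
  simp only [hm_smul_left', hb.orth, mul_ite, mul_one, mul_zero]
  exact Finset.sum_ite_eq' A j c

variable (hF : Fintype.card F = q ^ 2)
include hF

theorem exists_orthB (hn : n = m + 2) (HP : Pair q e f) :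
    ∃ b : Fin m → Fin n → F, OrthB q e f b := by
  have hc := exists_coords hF (finrank_WM hF HP).2
  rw [show finrank F (WM q e f) = m by have := (finrank_WM hF HP).1; omega] at hc
  obtain ⟨φ, hφ⟩ := hc
  refine ⟨fun i => (φ (Pi.single i 1) : Fin n → F), fun i => mem_WM.1 (φ _).2, fun i j => ?_,
    fun x hx => ?_⟩
  · rw [hφ, Herm.herm_single_right hF, Pi.single_apply]
    simp [eq_comm]
  · set c := φ.symm ⟨x, hx⟩
    have hxc : φ c = ⟨x, hx⟩ := φ.apply_symm_apply _
    have h1 : ∀ i, hm q x (φ (Pi.single i 1) : Fin n → F) = c i := fun i => by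
      rw [show x = (φ c : Fin n → F) from congrArg Subtype.val hxc.symm, hφ,
        Herm.herm_single_right hF]
    simp only [h1]
    have h2 : φ c = ∑ i, c i • φ (Pi.single i 1) := by
      conv_lhs => rw [pi_eq_sum_univ' c]
      rw [map_sum]
      exact Finset.sum_congr rfl fun i _ => map_smul _ _ _
    rw [hxc] at h2
    simpa using congrArg Subtype.val h2

omit hF in
theorem OrthB.proj_expand (hb : OrthB q e f b) (hF : Fintype.card F = q ^ 2) (HP : Pair q e f)
    (z : Fin n → F) : proj q e f z = ∑ i, hm q z (b i) • b i := by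
  refine (hb.expand _ (proj_mem HP z)).trans (Finset.sum_congr rfl fun i _ => ?_)
  rw [hm_proj hF (hb.mem i)]

/-- A diagonal element. -/
theorem exists_diag (hb : OrthB q e f b) (d : Fin m → F) (hd : ∀ i, d i * d i ^ q = 1)
    (A : Finset (Fin m)) :
    ∃ M : Matrix (Fin n) (Fin n) F, M.det = ∏ i ∈ A, d i ∧
      (∀ z w, hm q (M *ᵥ z) (M *ᵥ w) = hm q z w) ∧
      ∀ z, M *ᵥ z = z + ∑ i ∈ A, ((d i - 1) * hm q z (b i)) • b i := by
  induction A using Finset.induction_on with
  | empty => exact ⟨1, by simp, by simp, by simp⟩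
  | @insert a A ha ih =>
    obtain ⟨M, h1, h2, h3⟩ := ih
    obtain ⟨N, k1, k2, k3⟩ := normDil hF (hb.self a) (hd a)
    refine ⟨N * M, ?_, fun z w => ?_, fun z => ?_⟩
    · rw [det_mul, k1, h1, Finset.prod_insert ha]
    · rw [← mulVec_mulVec, ← mulVec_mulVec, k2, h2]
    · rw [← mulVec_mulVec, k3, h3, hm_add_left, hb.coef, if_neg ha, add_zero,
        Finset.sum_insert ha]
      abel

variable (HP : Pair q e f) (hb : OrthB q e f b)
include HP hb

theorem exists_diag_S (d : Fin m → F) (hd : ∀ i, d i * d i ^ q = 1) (hprod : ∏ i, d i = 1) :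
    ∃ δ : S n F q, IsL q e f δ 1 ∧
      ∀ z, mat δ *ᵥ z = z + ∑ i, ((d i - 1) * hm q z (b i)) • b i := by
  obtain ⟨M, h1, h2, h3⟩ := exists_diag hF hb d hd Finset.univ
  refine ⟨⟨⟨M, by rw [h1, hprod]⟩, h2⟩, ⟨one_ne_zero, ?_, ?_⟩, h3⟩
  · show M *ᵥ e = _
    rw [h3, Finset.sum_eq_zero fun i _ => by rw [((hb.mem i).swap hF).1, mul_zero, zero_smul],
      add_zero, one_smul]
  · show M *ᵥ f = _
    rw [h3, Finset.sum_eq_zero fun i _ => by rw [((hb.mem i).swap hF).2, mul_zero, zero_smul],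
      add_zero, one_pow, inv_one, one_smul]

omit hF HP in
theorem diag_coef {d : Fin m → F} {δ : S n F q}
    (hδ : ∀ z, mat δ *ᵥ z = z + ∑ i, ((d i - 1) * hm q z (b i)) • b i) (z : Fin n → F) (j : Fin m) :
    hm q (mat δ *ᵥ z) (b j) = d j * hm q z (b j) := by
  rw [hδ, hm_add_left, hb.coef, if_pos (Finset.mem_univ _)]
  ring

omit hF HP in
theorem diag_comm {d d' : Fin m → F} {δ δ' : S n F q}
    (hδ : ∀ z, mat δ *ᵥ z = z + ∑ i, ((d i - 1) * hm q z (b i)) • b i)
    (hδ' : ∀ z, mat δ' *ᵥ z = z + ∑ i, ((d' i - 1) * hm q z (b i)) • b i) : δ * δ' = δ' * δ := by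
  refine vec_ext fun z => ?_
  rw [mat_mul, mat_mul, ← mulVec_mulVec, ← mulVec_mulVec, hδ (mat δ' *ᵥ z), hδ' (mat δ *ᵥ z)]
  simp only [diag_coef hb hδ', diag_coef hb hδ]
  rw [hδ, hδ', add_assoc, add_assoc, ← Finset.sum_add_distrib, ← Finset.sum_add_distrib]
  congr 1
  refine Finset.sum_congr rfl fun i _ => ?_
  module

omit hF HP in
theorem diag_fpf {d : Fin m → F} (hd : ∀ i, d i ≠ 1) {δ : S n F q}
    (hδ : ∀ z, mat δ *ᵥ z = z + ∑ i, ((d i - 1) * hm q z (b i)) • b i) (x : WM q e f)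
    (hx : (1 : F) ^ q • (mat δ *ᵥ (x : Fin n → F)) = (x : Fin n → F)) : x = 0 := by
  rw [one_pow, one_smul] at hx
  refine Subtype.ext ((hb.expand _ (mem_WM.1 x.2)).trans (Finset.sum_eq_zero fun i _ => ?_))
  have h := diag_coef hb hδ (x : Fin n → F) i
  rw [hx] at h
  have h2 : (d i - 1) * hm q (x : Fin n → F) (b i) = 0 := by linear_combination -h
  rw [(mul_eq_zero.1 h2).resolve_left (sub_ne_zero.2 (hd i)), zero_smul]

/-- A diagonal element constant on a set commutes with elements supported on it. -/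
theorem diag_comm_supp {θ : F} {d : Fin m → F} {T : Finset (Fin m)} (hdT : ∀ i ∈ T, d i = θ)
    {δ g : S n F q} (hδ : ∀ z, mat δ *ᵥ z = z + ∑ i, ((d i - 1) * hm q z (b i)) • b i)
    (hg : IsL q e f g 1) (hfix : ∀ l ∉ T, mat g *ᵥ b l = b l) : δ * g = g * δ := by
  refine vec_ext fun z => ?_
  rw [mat_mul, mat_mul, ← mulVec_mulVec, ← mulVec_mulVec, hδ (mat g *ᵥ z), hδ z, mulVec_add]
  congr 1
  have hge : mat g *ᵥ e = e := by rw [hg.2.1, one_smul]
  have hgf : mat g *ᵥ f = f := by rw [hg.2.2, one_pow, inv_one, one_smul]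
  have hout : ∀ l ∉ T, hm q (mat g *ᵥ z) (b l) = hm q z (b l) := fun l hl => by
    conv_lhs => rw [← hfix l hl, iso]
  have hproj : proj q e f (mat g *ᵥ z) = mat g *ᵥ proj q e f z := by
    have he : hm q (mat g *ᵥ z) e = hm q z e := by conv_lhs => rw [← hge, iso]
    have hf : hm q (mat g *ᵥ z) f = hm q z f := by conv_lhs => rw [← hgf, iso]
    simp only [proj, he, hf, mulVec_sub, mulVec_smul, hge, hgf]
  rw [hb.proj_expand hF HP, hb.proj_expand hF HP] at hproj
  have split : ∀ y : Fin n → F, ∑ i, ((d i - 1) * hm q y (b i)) • b i =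
      (θ - 1) • (∑ i, hm q y (b i) • b i) + ∑ i ∈ Tᶜ, ((d i - θ) * hm q y (b i)) • b i := by
    intro y
    rw [Finset.smul_sum, ← Finset.sum_add_sum_compl T,
      ← Finset.sum_add_sum_compl T fun i => (θ - 1) • hm q y (b i) • b i, add_assoc,
      ← Finset.sum_add_distrib]
    congr 1
    · exact Finset.sum_congr rfl fun i hi => by rw [hdT i hi, smul_smul]
    · exact Finset.sum_congr rfl fun i _ => by module
  rw [split, split, hproj, mulVec_add, mulVec_smul]
  congr 1
  rw [mulVec_sum]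
  refine Finset.sum_congr rfl fun i hi => ?_
  rw [mulVec_smul, hout i (Finset.mem_compl.1 hi), hfix i (Finset.mem_compl.1 hi)]

end Cfsg.Agent.Lib.MinIndexSU
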