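import Cfsg.Agent.Lib.MinIndexSU.Main

/-!
The minimal index for even dimension over the field with four elements: the nonsingular points.
-/

set_option autoImplicit false

namespace Cfsg.Agent.Lib.MinIndexSU

open Matrix Module Cfsg.Agent.Lib.Forms Cfsg.Agent.Lib.Classical Cfsg.Agent.Lib.AutPSU

universe u v

attribute [local instance] _root_.Classical.propDecidable

variable {n m : ℕ} {F : Type u} [Field F] [Fintype F] {q : ℕ}

/-- The number of nonsingular vectors in even dimension over the field with four elements. -/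
def NS (n : ℕ) : ℕ := 2 ^ (n - 1) * (2 ^ n - 1)

variable (hF : Fintype.card F = q ^ 2)
include hF

theorem two_mul_N0_even (h2 : q = 2) (he : Even m) :
    2 * (N0 q m + 1) = 2 ^ m * 2 ^ m + 2 ^ m := by
  rw [← cnt_zero_N0 hF]
  have h := Herm.q_mul_cnt_zero hF m
  rw [he.neg_pow, h2] at h
  rw [h2] at *
  zify
  push_cast at h
  rw [two_mul m, pow_add] at h
  linarith

theorem NS_succ_succ (m : ℕ) : NS (m + 2) + 2 * 2 ^ m = 8 * (2 ^ m * 2 ^ m) := by
  have h1 : 1 ≤ 2 ^ (m + 2) := Nat.one_le_two_pow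
  unfold NS
  rw [show m + 2 - 1 = m + 1 by omega, Nat.mul_sub, mul_one]
  have e : 2 ^ (m + 1) * 2 ^ (m + 2) = 8 * (2 ^ m * 2 ^ m) := by
    rw [pow_succ, pow_succ, pow_succ]; ring
  have e2 : (2 : ℕ) ^ (m + 1) = 2 * 2 ^ m := by rw [pow_succ]; ring
  have h3 : 2 ^ (m + 1) ≤ 2 ^ (m + 1) * 2 ^ (m + 2) := Nat.le_mul_of_pos_right _ h1
  omega

/-- The numbers in terms of `2 ^ m`. -/
theorem numbers_two (h2 : q = 2) (he : Even m) :
    2 * (N0 q m + 1) = 2 ^ m * 2 ^ m + 2 ^ m ∧
      N0 q (m + 2) + 1 = 8 * (2 ^ m * 2 ^ m) + 2 * 2 ^ m ∧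
      q ^ (2 * m) = 2 ^ m * 2 ^ m ∧ q ^ (2 * m + 1) = 2 * (2 ^ m * 2 ^ m) ∧
      NS (m + 2) + 2 * 2 ^ m = 8 * (2 ^ m * 2 ^ m) := by
  have hX := two_mul_N0_even hF h2 he
  have hrel := N0_succ_succ hF (q := q) m
  have hp : q ^ (2 * m) = 2 ^ m * 2 ^ m := by rw [h2, two_mul, pow_add]
  have hp1 : q ^ (2 * m + 1) = 2 * (2 ^ m * 2 ^ m) := by rw [pow_succ', hp, h2]
  have e4 : q ^ 2 = 4 := by rw [h2]; rfl
  rw [hp1, e4] at hrel
  exact ⟨hX, by omega, hp, hp1, NS_succ_succ hF m⟩

theorem NS_le_N0 (h2 : q = 2) (he : Even m) : NS (m + 2) ≤ N0 q (m + 2) := by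
  obtain ⟨-, h, -, -, h'⟩ := numbers_two hF h2 he
  have : 1 ≤ 2 ^ m := Nat.one_le_two_pow
  omega

theorem arith_an_even (h2 : q = 2) (he : Even m) (hm : 3 ≤ m) {s : ℕ}
    (h : 2 * (q ^ (2 * m) - (N0 q m + 1)) + N0 q m ≤ s) :
    NS (m + 2) ≤ (q ^ 2 - 1) * (q * s) := by
  obtain ⟨hX, -, hp, -, hT⟩ := numbers_two hF h2 he
  have h8 : 2 ^ 3 ≤ 2 ^ m := Nat.pow_le_pow_right (by norm_num) hm
  have hKK : 8 * 2 ^ m ≤ 2 ^ m * 2 ^ m := Nat.mul_le_mul_right _ (by simpa using h8)
  rw [hp] at h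
  subst h2
  norm_num at h8 ⊢
  omega

theorem arith_iso_even (h2 : q = 2) (he : Even m) (hm : 3 ≤ m) {t : ℕ}
    (h : (q + 1) * N0 q m ≤ t * (q ^ m - 1)) :
    NS (m + 2) ≤ (q ^ 2 - 1) * (q * (t * q ^ m)) := by
  obtain ⟨hX, -, -, -, hT⟩ := numbers_two hF h2 he
  have h8 : 2 ^ 3 ≤ 2 ^ m := Nat.pow_le_pow_right (by norm_num) hm
  have hKK : 8 * 2 ^ m ≤ 2 ^ m * 2 ^ m := Nat.mul_le_mul_right _ (by simpa using h8)
  have hle := h.trans (Nat.mul_le_mul_left _ (Nat.sub_le _ _))
  subst h2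
  norm_num at h8 hle ⊢
  omega

theorem arith_reg_even (h2 : q = 2) (he : Even m) (R1 R S M : ℕ)
    (h : q ^ (2 * m) ≤ R1 + N0 q m + 1) (hsum : S + R = N0 q (m + 2))
    (hR : R = N0 q m + (q ^ 2 - 1) * R1) (hc : M * S = N0 q (m + 2) * q ^ (2 * m + 1)) :
    NS (m + 2) ≤ (q ^ 2 - 1) * M := by
  obtain ⟨hX, hN, hp, hp1, hT⟩ := numbers_two hF h2 he
  have hK : 1 ≤ 2 ^ m := Nat.one_le_two_pow
  rw [hp] at h
  rw [hp1] at hc
  subst h2
  rw [show (2 : ℕ) ^ 2 - 1 = 3 from rfl] at hR ⊢
  generalize (2 : ℕ) ^ m = K at *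
  generalize N0 2 m = N at *
  generalize N0 2 (m + 2) = N' at *
  generalize NS (m + 2) = T at *
  have hS : S ≤ 6 * (K * K) + 3 * K := by omega
  refine Nat.le_of_mul_le_mul_right ?_ (show 0 < 6 * (K * K) + 3 * K by omega)
  calc T * (6 * (K * K) + 3 * K) = 3 * (N' * (2 * (K * K))) := by
        zify at hN hT hK ⊢
        have e1 : (N' : ℤ) = 8 * (K * K) + 2 * K - 1 := by linarith
        have e2 : (T : ℤ) = 8 * (K * K) - 2 * K := by linarith
        rw [e1, e2]; ring
    _ = 3 * (M * S) := by rw [hc]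
    _ ≤ 3 * (M * (6 * (K * K) + 3 * K)) := by gcongr
    _ = _ := by ring

theorem arith_two_orbits (h2 : q = 2) (he : Even m) {M : ℕ} (h : 2 * q ^ (2 * m + 1) ≤ M) :
    NS (m + 2) ≤ (q ^ 2 - 1) * M := by
  obtain ⟨-, -, -, hp1, hT⟩ := numbers_two hF h2 he
  rw [hp1] at h
  subst h2
  norm_num at h ⊢
  omega

variable {e f : Fin n → F} (HP : Pair q e f)
include HP

variable {Ω : Type v} [MulAction (S n F q) Ω]

theorem bound_of_proper_even [Fintype Ω] (hn : n = m + 2) (hm3 : 3 ≤ m) (h2 : q = 2) (he : Even m)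
    {ω : Ω} (hfree : Free hF e ω) (hne : Ann hF HP ω ≠ Finset.univ) :
    NS n ≤ (q ^ 2 - 1) * (Finset.univ.filter fun y : Ω => Free hF e y).card := by
  refine le_trans ?_ (Nat.mul_le_mul_left _ (sum_le_card hF HP hfree))
  have hiso_card := card_isoV hF HP hn
  have hsum := card_isoV_add_anV hF HP hn
  rw [hiso_card] at hsum
  have hanc : (anV q e f).card = q ^ (2 * m) - (N0 q m + 1) := by omega
  by_cases han : ∃ u ∈ Ann hF HP ω, u ∈ anV q e f
  · obtain ⟨u, huA, hu⟩ := han
    obtain ⟨B, hB, hBA, huB⟩ := exists_second hF HP hn hm3 hfree huA hu hne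
    have hc := cover hF HP (ω := ω) (O := anV q e f) (u0 := u)
      (fun v hv => trans_an hF HP hn (by omega) hu hv) (T := {Ann hF HP ω, B})
      (Finset.insert_subset (Ann_mem_Tset hF HP ω) (Finset.singleton_subset_iff.2 hB))
      (fun C hC => by
        simp only [Finset.mem_insert, Finset.mem_singleton] at hC
        rcases hC with rfl | rfl <;> assumption)
    rw [Finset.card_pair (Ne.symm hBA), hanc] at hc
    have hs := sum_split hF HP ω
    subst hn
    obtain ⟨v, hvA, hv⟩ := exists_iso_two hF HP rfl hm3 h2 hfree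
    have h3 := cover hF HP (ω := ω) (O := isoV q e f) (u0 := v)
      (fun w hw => by
        obtain ⟨s, hs, h⟩ := trans_iso hF HP rfl hm3 hv hw
        exact ⟨s, 1, hs, h⟩) (T := {Ann hF HP ω})
      (Finset.singleton_subset_iff.2 (Ann_mem_Tset hF HP ω))
      (fun C hC => by rw [Finset.mem_singleton] at hC; subst hC; exact hvA)
    rw [Finset.card_singleton, one_mul, hiso_card] at h3
    exact arith_an_even hF h2 he hm3 (by omega)
  · push Not at han
    have hall : ∀ v ∈ Ann hF HP ω, hm q (v : Fin n → F) v = 0 := fun v hv => by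
      by_contra h; exact han v hv (mem_anV.2 h)
    obtain ⟨u, hu, hmult⟩ := iso_mult hF HP hn hm3 hfree hall
    have hc := cover hF HP (ω := ω) (O := isoV q e f) (u0 := u)
      (fun w hw => by
        obtain ⟨s, hs, h⟩ := trans_iso hF HP hn hm3 hu hw
        exact ⟨s, 1, hs, h⟩) (T := (Tset hF HP ω).filter fun B => u ∈ B)
      (Finset.filter_subset _ _) (fun C hC => (Finset.mem_filter.1 hC).2)
    obtain ⟨hcard, -⟩ := iso_struct hF HP hn hfree hall
    have h3 : ∑ B ∈ Tset hF HP ω, ((isoV q e f).filter fun v => v ∈ B).card ≤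
        (Tset hF HP ω).card * (q ^ m - 1) := by
      rw [← smul_eq_mul]
      refine Finset.sum_le_card_nsmul _ _ _ fun B hB => ?_
      have h0 : (0 : WM q e f) ∈ B := by
        obtain ⟨t, b, ht, hBe⟩ := (mem_Tset hF).1 hB
        rw [← hBe]; exact zero_mem_Ann hF HP _
      rw [← hcard, ← Tset_card hF HP hB, ← Finset.card_erase_of_mem h0]
      exact Finset.card_le_card fun x hx => Finset.mem_erase.2
        ⟨(mem_isoV.1 (Finset.mem_filter.1 hx).1).1, (Finset.mem_filter.1 hx).2⟩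
    rw [hiso_card] at hc
    have h4 : (q + 1) * N0 q m ≤ (Tset hF HP ω).card * (q ^ m - 1) :=
      ((Nat.mul_le_mul_right _ hmult).trans hc).trans h3
    subst hn
    refine le_trans (arith_iso_even hF h2 he hm3 h4) (le_of_eq ?_)
    rw [Finset.sum_congr rfl fun B hB => Tset_card hF HP hB, Finset.sum_const, smul_eq_mul, hcard]

variable {b : Fin m → Fin n → F}

/-- In dimension six some transvection of the Levi part is lifted. -/
theorem exists_lifted (hb : OrthB q e f b) (h2 : q = 2) (hm4 : m = 4) {ω : Ω}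
    (hreg : Reg (n := n) hF Ω) (hω : Free hF e ω) :
    ∃ ω' ∈ orb hF e f ω, ∃ u ∈ isoV q e f, ∀ s, Skew q s →
      Lin hF e ω' (T hF ((u : WM q e f) : Fin n → F) s) := by
  subst hm4
  obtain ⟨θ, h0, h1, h3⟩ := exists_theta hF h2
  have h21 : θ ^ 2 ≠ 1 := fun h => h1 (by
    have : θ ^ 3 = θ := by rw [pow_succ', h, mul_one]
    exact this.symm.trans h3)
  set d : Fin 4 → F := ![θ, θ, θ ^ 2, θ ^ 2] with hd
  have hd1 : ∀ i, d i ≠ 1 := fun i => by fin_cases i <;> simp [hd, h1, h21]
  have hd0 : ∀ i, d i ≠ 0 := fun i => by fin_cases i <;> simp [hd, h0]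
  have hprod : ∏ i, d i = 1 := by
    simp only [hd, Fin.prod_univ_four, Matrix.cons_val]
    linear_combination (θ ^ 3 + 1) * h3
  obtain ⟨δ, hδ, hδz⟩ := exists_diag_S hF HP hb d (fun i => norm_two hF h2 (hd0 i)) hprod
  have hfpf := diag_fpf hb hd1 hδz
  obtain ⟨ω', hω', hlin⟩ := exists_shift hF HP hreg hω hδ hfpf
  have hf' := free_orb hF HP hω hω'
  obtain ⟨hpW, hp0, hpp, hpo⟩ := add_pair_facts hF HP hb h2 (i := (0 : Fin 4)) (j := 1) (by decide)
  refine ⟨ω', hω', ⟨b 0 + b 1, hpW⟩, mem_isoV.2 ⟨fun h => hp0 (congrArg Subtype.val h), hpp⟩,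
    fun s hs => ?_⟩
  have hv : IsL q e f (T hF (b 0 + b 1) s) 1 := isL_T hF HP hpW hpp hs
  refine lin_of_commute hF HP hreg hf' hδ hv hlin
    (diag_comm_supp hF HP hb (T := {0, 1}) (θ := θ) (fun i hi => ?_) hδz hv fun l hl => ?_) hfpf
  · simp only [Finset.mem_insert, Finset.mem_singleton] at hi
    rcases hi with rfl | rfl <;> simp [hd]
  · simp only [Finset.mem_insert, Finset.mem_singleton, not_or] at hl
    exact T_fix hF hpp hs (hm_comm_zero hF (hpo l hl.1 hl.2))

/-- The number of bad vectors orthogonal to a free one, from one lifted transvection. -/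
theorem card_bad_perp_of_lifted (hn : n = m + 2) (hm3 : 3 ≤ m) (hreg : Reg (n := n) hF Ω) {ω : Ω}
    (hω : Free hF e ω) {u0 : WM q e f} (hu0 : u0 ∈ isoV q e f)
    (hlin : ∀ s, Skew q s → Lin hF e ω (T hF (u0 : Fin n → F) s)) :
    ((bad (n := n) hF ω).filter fun z => hm q z e = 0).card = N0 q m := by
  set B := (bad (n := n) hF ω).filter fun z => hm q z e = 0 with hB
  let pr' : (Fin n → F) → WM q e f := fun z => ⟨proj q e f z, proj_mem HP z⟩
  obtain ⟨hu0ne, hu0iso⟩ := mem_isoV.1 hu0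
  -- the image
  have hdec : ∀ z ∈ B, z = hm q z f • e + (pr' z : Fin n → F) ∧ pr' z ∈ isoV q e f := by
    intro z hz
    obtain ⟨hzb, hze⟩ := Finset.mem_filter.1 hz
    obtain ⟨⟨hz0, hzz⟩, hnf⟩ := (mem_bad (n := n) hF).1 hzb
    have hd : z = hm q z f • e + (pr' z : Fin n → F) := perp_e_decomp hF HP hze
    refine ⟨hd, mem_isoV.2 ⟨fun h => hnf ?_, ?_⟩⟩
    · rw [h, Submodule.coe_zero, add_zero] at hd
      have hα : hm q z f ≠ 0 := fun hα => hz0 (by rw [hd, hα, zero_smul])
      rw [hd, free_smul_vec hF hα HP.ee]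
      exact hω
    · rw [hd] at hzz
      simpa [hm_add_left, hm_add_right hF, hm_smul_left', hm_smul_right, HP.ee,
        (mem_WM.1 (pr' z).2).1, ((mem_WM.1 (pr' z).2).swap hF).1] using hzz
  -- each fibre
  have hu0c : ∀ α : F, (α • e + (u0 : Fin n → F) ∈ B ↔ α = 0) := by
    intro α
    constructor
    · intro h
      by_contra hα
      obtain ⟨hb', -⟩ := Finset.mem_filter.1 h
      obtain ⟨-, hnf⟩ := (mem_bad (n := n) hF).1 hb'
      rw [add_comm] at hnf
      exact hnf (free_line hF HP hreg hω hu0ne hu0iso hlin hα)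
    · rintro rfl
      rw [zero_smul, zero_add]
      obtain ⟨κ, hκ0, hκ⟩ := exists_skew_ne_zero hF
      exact Finset.mem_filter.2 ⟨(mem_bad (n := n) hF).2
        ⟨⟨fun h => hu0ne (Subtype.ext h), hu0iso⟩,
          fun h => hκ0 (h κ hκ (T_fixes hF HP hreg hω hu0ne hu0iso hlin hκ))⟩, (mem_WM.1 u0.2).1⟩
  have huniq : ∀ u' ∈ isoV q e f, ∃ β : F, ∀ α : F,
      (α • e + (u' : Fin n → F) ∈ B ↔ α = β) := by
    intro u' hu'
    obtain ⟨s, hs, hsu⟩ := trans_iso hF HP hn hm3 hu0 hu'
    have hsu' : mat s *ᵥ (u0 : Fin n → F) = u' := by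
      have h := congrArg Subtype.val hsu
      simpa [psiL] using h
    obtain ⟨w, c, hc, hw⟩ := (mem_orb hF).1 ((hreg e f HP ω hω).2 _ (free_smul hF HP hs hω))
    set g := (AutPSU.U hF e (w : Fin n → F) c)⁻¹ * s with hg
    have hgω : g • ω = ω := by rw [hg, mul_smul, ← hw, inv_smul_smul]
    have hse : mat s *ᵥ e = e := by rw [hs.2.1, one_smul]
    set β := -hm q (u' : Fin n → F) (-(w : Fin n → F))
    have hge : ∀ α : F, mat g *ᵥ (α • e + (u0 : Fin n → F)) = (α + β) • e + (u' : Fin n → F) := by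
      intro α
      rw [hg, mat_mul, ← mulVec_mulVec, mulVec_add, mulVec_smul, hse, hsu',
        U_inv hF HP (mem_WM.1 w.2) hc,
        U_mulVec hF HP (InW_neg hF HP (mem_WM.1 w.2)) (cond_inv hF hc)]
      simp only [hm_add_left, hm_smul_left', HP.ee, (mem_WM.1 u'.2).1,
        ((InW_neg hF HP (mem_WM.1 w.2)).swap hF).1, β]
      module
    have hmap : ∀ x : Fin n → F, mat g *ᵥ x ∈ B ↔ x ∈ B := by
      intro x
      have hgp : mat g *ᵥ e = e := by
        rw [hg, mat_mul, ← mulVec_mulVec, hse, U_inv hF HP (mem_WM.1 w.2) hc,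
          U_apply_e hF HP (InW_neg hF HP (mem_WM.1 w.2)) (cond_inv hF hc)]
      have h1 : hm q (mat g *ᵥ x) e = hm q x e := by
        conv_lhs => rw [← hgp, iso]
      rw [hB, Finset.mem_filter, Finset.mem_filter, h1]
      refine and_congr_left fun _ => ?_
      conv_lhs => rw [← hgω, bad_map hF]
      exact (mulVec_injective g).mem_finset_image
    refine ⟨β, fun α => ?_⟩
    have h := hmap ((α - β) • e + (u0 : Fin n → F))
    rw [hge, sub_add_cancel] at h
    rw [h, hu0c, sub_eq_zero]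
  rw [← card_isoV hF HP hn]
  refine Finset.card_bij (fun z _ => pr' z) (fun z hz => (hdec z hz).2) (fun z hz z' hz' h => ?_)
    (fun u' hu' => ?_)
  · obtain ⟨hd, hi⟩ := hdec z hz
    obtain ⟨hd', -⟩ := hdec z' hz'
    obtain ⟨β, hβ⟩ := huniq _ hi
    rw [← h] at hd'
    have e1 := (hβ _).1 (hd ▸ hz)
    have e2 := (hβ _).1 (hd' ▸ hz')
    rw [hd, hd', e1, e2]
  · obtain ⟨β, hβ⟩ := huniq _ hu'
    refine ⟨β • e + (u' : Fin n → F), (hβ β).2 rfl, Subtype.ext ?_⟩
    show proj q e f (β • e + (u' : Fin n → F)) = _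
    rw [proj_add_e HP, proj_eq_self (mem_WM.1 u'.2)]

omit HP in
/-- The bound in dimension six for regular radicals. -/
theorem bound_of_reg_four [Fintype Ω] [MulAction.IsPretransitive (S n F q) Ω] (hn : n = 4 + 2)
    (h2 : q = 2) (hΩ : 2 ≤ Fintype.card Ω) (hreg : Reg (n := n) hF Ω) :
    NS n ≤ (q ^ 2 - 1) * Fintype.card Ω := by
  haveI : Nonempty Ω := Fintype.card_pos_iff.1 (by omega)
  obtain ⟨ω⟩ := ‹Nonempty Ω›
  -- the perpendicular count at every free vector
  have hperp : ∀ (e f : Fin n → F) (_ : Pair q e f) (y : Ω), Free hF e y →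
      ((bad (n := n) hF y).filter fun z => hm q z e = 0).card = N0 q 4 := by
    intro e f HP y hy
    obtain ⟨b, hb⟩ := exists_orthB hF hn HP
    obtain ⟨ω', hω', u, hu, hlin⟩ := exists_lifted hF HP hb h2 rfl hreg hy
    have hf' := free_orb hF HP hy hω'
    have h := card_bad_perp_of_lifted hF HP hn (by norm_num) hreg hf' hu hlin
    obtain ⟨w, c, hc, hw⟩ := (mem_orb hF).1 ((hreg e f HP ω' hf').2 y hy)
    have hge : mat (AutPSU.U hF e (w : Fin n → F) c) *ᵥ e = e :=
      U_apply_e hF HP (mem_WM.1 w.2) hc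
    have hp : ∀ x, hm q (mat (AutPSU.U hF e (w : Fin n → F) c) *ᵥ x) e = hm q x e := fun x => by
      have h := iso (AutPSU.U hF e (w : Fin n → F) c) x e
      rwa [hge] at h
    rw [← hw, bad_map hF, Finset.filter_image]
    simp only [hp]
    rw [Finset.card_image_of_injective _ (mulVec_injective _), h]
  have hfr : ∀ x ∈ validV q n F,
      (Finset.univ.filter fun y : Ω => Free hF x y).card = q ^ (2 * 4 + 1) := by
    intro x hx
    have hv := (Finset.mem_filter.1 hx).2
    obtain ⟨e, he0, hee, hfree⟩ := exists_free hF hn (by norm_num) hΩ ω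
    obtain ⟨f, -, HP⟩ := exists_partner_mem hF (ndeg_top hF) (U := ⊤) trivial he0 hee
    obtain ⟨f', -, HP'⟩ := exists_partner_mem hF (ndeg_top hF) (U := ⊤) trivial hv.1 hv.2
    obtain ⟨g, l, hl, hg⟩ := AutPSU.transitive hF HP (by omega) hv
    have hfx : Free hF x (g • ω) := by
      rw [← free_smul_vec hF hl hv.2, ← hg, free_map hF g HP.ee]
      exact hfree
    exact card_free hF HP' hn hreg hfx
  set Sc := ((validV q n F).filter fun x => Free hF x ω).card with hSc
  set R := (bad (n := n) hF ω).card with hR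
  have hsplit : ∀ y : Ω, ((validV q n F).filter fun x => Free hF x y).card + R = N0 q n :=
    fun y => by rw [hR, ← card_bad_eq hF y ω]; exact split_bad (n := n) hF y
  have hsum : Sc + R = N0 q n := hsplit ω
  have hcount : Fintype.card Ω * Sc = N0 q n * q ^ (2 * 4 + 1) := by
    rw [← card_validV hF, ← smul_eq_mul ((validV q n F).card), ← Finset.sum_const,
      ← Finset.sum_congr rfl hfr, ← Finset.card_univ, ← smul_eq_mul, ← Finset.sum_const]
    refine (Finset.sum_congr rfl fun y _ => ?_).trans ?_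
      (b := ∑ y : Ω, ((validV q n F).filter fun x => Free hF x y).card)
    · have := hsplit y; omega
    · simp only [Finset.card_filter]; exact Finset.sum_comm
  have hdouble : Sc * N0 q 4 ≤ R * (q ^ 2 * (N0 q 4 + 1) - 1) := by
    calc Sc * N0 q 4
        = ∑ x ∈ (validV q n F).filter (fun x => Free hF x ω),
            ((bad (n := n) hF ω).filter fun z => hm q z x = 0).card := by
          rw [hSc, ← smul_eq_mul, ← Finset.sum_const]
          refine Finset.sum_congr rfl fun x hx => ?_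
          obtain ⟨hxv, hxf⟩ := Finset.mem_filter.1 hx
          have hv := (Finset.mem_filter.1 hxv).2
          obtain ⟨f', -, HP'⟩ := exists_partner_mem hF (ndeg_top hF) (U := ⊤) trivial hv.1 hv.2
          exact (hperp x f' HP' ω hxf).symm
      _ = ∑ z ∈ bad (n := n) hF ω,
            ((validV q n F).filter fun x => Free hF x ω ∧ hm q z x = 0).card := by
          simp only [← Finset.filter_filter]
          simp only [Finset.card_filter]
          exact Finset.sum_comm
      _ ≤ R * (q ^ 2 * (N0 q 4 + 1) - 1) := by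
          rw [hR, ← smul_eq_mul]
          refine Finset.sum_le_card_nsmul _ _ _ fun z hz => ?_
          obtain ⟨hv, -⟩ := (mem_bad (n := n) hF).1 hz
          obtain ⟨f', -, HP'⟩ := exists_partner_mem hF (ndeg_top hF) (U := ⊤) trivial hv.1 hv.2
          have h := card_perp_valid hF HP' hn
          have hle : ((validV q n F).filter fun x => Free hF x ω ∧ hm q z x = 0).card ≤
              ((validV q n F).filter fun x => hm q x z = 0).card :=
            Finset.card_le_card fun x hx => by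
              obtain ⟨h1, -, h2⟩ := Finset.mem_filter.1 hx
              exact Finset.mem_filter.2 ⟨h1, hm_comm_zero hF h2⟩
          omega
  subst hn
  subst h2
  rw [show N0 2 4 = 135 from rfl] at hdouble
  rw [show N0 2 (4 + 2) = 2079 from rfl] at hsum hcount
  norm_num at hcount hdouble
  rw [show NS (4 + 2) = 2016 from rfl, show (2 : ℕ) ^ 2 - 1 = 3 from rfl]
  by_contra hlt
  push Not at hlt
  generalize Fintype.card Ω = M at *
  have hS : Sc ≤ 1665 := by omega
  have hM : 639 ≤ M := by nlinarith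
  have hM' : M ≤ 671 := by omega
  interval_cases M <;> omega

omit HP in
/-- A transitive action is at least as large as the action on the nonsingular points. -/
theorem card_bound_even [Fintype Ω] [MulAction.IsPretransitive (S n F q) Ω] (hn : n = m + 2)
    (hm4 : 4 ≤ m) (h2 : q = 2) (he : Even m) (hΩ : 2 ≤ Fintype.card Ω) :
    NS n ≤ (q ^ 2 - 1) * Fintype.card Ω := by
  have hm3 : 3 ≤ m := by omega
  by_cases hreg : Reg (n := n) hF Ω
  · rcases eq_or_lt_of_le hm4 with hm | hm
    · subst hm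
      exact bound_of_reg_four hF hn h2 hΩ hreg
    · have hm6 : 6 ≤ m := by obtain ⟨k, hk⟩ := he; omega
      subst hn
      exact bound_of_reg_gen hF rfl hm3 (NS_le_N0 hF h2 he)
        (fun R1 R S M h hs hR hc => arith_reg_even hF h2 he R1 R S M h hs hR hc) hΩ hreg
        (hasNorm_two hF rfl hm3 h2 (Or.inr hm6) hreg)
  unfold Reg at hreg
  push Not at hreg
  obtain ⟨e, f, HP, y, hy, hreg⟩ := hreg
  have hproper : ∀ z, Free hF e z → Ann hF HP z ≠ Finset.univ →
      NS n ≤ (q ^ 2 - 1) * Fintype.card Ω := fun z hz hne =>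
    (bound_of_proper_even hF HP hn hm3 h2 he hz hne).trans
      (Nat.mul_le_mul_left _ (Finset.card_le_univ _))
  by_cases hA : Ann hF HP y = Finset.univ
  swap
  · exact hproper y hy hA
  obtain ⟨y', hy', hyy⟩ := hreg hA
  by_cases hA' : Ann hF HP y' = Finset.univ
  swap
  · exact hproper y' hy' hA'
  subst hn
  refine arith_two_orbits hF h2 he ?_
  have hcard : ∀ z : Ω, Free hF e z → Ann hF HP z = Finset.univ →
      (orb hF e f z).card = q ^ (2 * m + 1) := fun z hz hAz => by
    rw [card_orb hF HP hz, hAz, Finset.card_univ, ← Nat.card_eq_fintype_card,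
      card_WM hF HP rfl, pow_succ']
  rw [two_mul]
  nth_rewrite 1 [← hcard y hy hA]
  rw [← hcard y' hy' hA', ← Finset.card_union_of_disjoint]
  · exact Finset.card_le_univ _
  rw [Finset.disjoint_left]
  intro z hz hz'
  obtain ⟨w, c, hc, rfl⟩ := (mem_orb hF).1 hz
  obtain ⟨w', c', hc', h⟩ := (mem_orb hF).1 hz'
  apply hyy
  refine (mem_orb hF).2 ⟨-w' + w, _, (cond_inv hF hc').mul hF hc, ?_⟩
  rw [Submodule.coe_add, Submodule.coe_neg,
    ← U_mul hF HP (InW_neg hF HP (mem_WM.1 w'.2)) (mem_WM.1 w.2) (cond_inv hF hc') hc,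
    mul_smul, ← U_inv hF HP (mem_WM.1 w'.2) hc', inv_smul_eq_iff, h]

omit HP in
/-- Transitivity on vectors of norm one. -/
theorem transitive_norm_one (hn : 2 ≤ n) {v v' : Fin n → F} (hv : hm q v v = 1)
    (hv' : hm q v' v' = 1) : ∃ g : S n F q, mat g *ᵥ v = v' := by
  have hne : ∀ x : Fin n → F, hm q x x = 1 → x ≠ 0 := fun x hx h => by
    rw [h, hm_zero_left] at hx; exact zero_ne_one hx
  obtain ⟨M, hd, hiso, hM⟩ := witt_family hF (x := fun _ : Fin 1 => v) (x' := fun _ : Fin 1 => v')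
    (LinearIndependent.of_subsingleton (v := fun _ : Fin 1 => _) 0 (hne v hv))
    (LinearIndependent.of_subsingleton (v := fun _ : Fin 1 => _) 0 (hne v' hv'))
    (fun _ _ => hv'.trans hv.symm)
  obtain ⟨hdim, hnd⟩ := aniso_perp hF (ndeg_top hF) (U := ⊤) (u := v') trivial
    (by rw [hv']; exact one_ne_zero)
  rw [finrank_top, Module.finrank_fintype_fun_eq_card, Fintype.card_fin] at hdim
  obtain ⟨y, hy, hy1⟩ := exists_norm_one_mem hF hnd (by omega)
  have hMne : M.det ≠ 0 := fun h => by rw [h, zero_mul] at hd; exact zero_ne_one hd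
  obtain ⟨N, hNd, hNi, hN⟩ := normDil hF hy1 (l := M.det⁻¹) (by rw [inv_pow, ← mul_inv, hd, inv_one])
  refine ⟨⟨⟨N * M, by rw [det_mul, hNd, inv_mul_cancel₀ hMne]⟩, fun z w => ?_⟩, ?_⟩
  · show hm q ((N * M) *ᵥ z) ((N * M) *ᵥ w) = _
    rw [← mulVec_mulVec, ← mulVec_mulVec, hNi, hiso]
  · show (N * M) *ᵥ v = _
    have h0 : hm q v' y = 0 := hm_comm_zero hF (mem_WM.1 (Submodule.mem_inf.1 hy).2).1
    rw [← mulVec_mulVec, hM 0, hN, h0, mul_zero, zero_smul, add_zero]

omit HP in
/-- The stabiliser of a nonsingular point. -/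
theorem exists_index_even (h2 : q = 2) (hn : 3 ≤ n) (he : Even n) : ∃ H : Subgroup (S n F q),
    Subgroup.center (S n F q) ≤ H ∧ H.index * (q ^ 2 - 1) = NS n := by
  obtain ⟨v0, -, hv0⟩ := exists_norm_one_mem hF (ndeg_top hF (n := n))
    (by rw [finrank_top, Module.finrank_fintype_fun_eq_card, Fintype.card_fin]; omega)
  have hnorm : ∀ l : F, l ≠ 0 → l * l ^ q = 1 := fun l hl => norm_two hF h2 hl
  letI act : MulAction (S n F q) (Set (Fin n → F)) :=
    { smul := fun g A => (fun v => mat g *ᵥ v) '' A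
      one_smul := fun A => by
        show (fun v => mat (1 : S n F q) *ᵥ v) '' A = A
        simp [mat_one]
      mul_smul := fun g h A => by
        show (fun v => mat (g * h) *ᵥ v) '' A =
          (fun v => mat g *ᵥ v) '' ((fun v => mat h *ᵥ v) '' A)
        simp [Set.image_image, mulVec_mulVec, mat_mul] }
  have hact : ∀ (g : S n F q) (v : Fin n → F), g • lineOf v = lineOf (mat g *ᵥ v) := fun g v => by
    show (fun w => mat g *ᵥ w) '' lineOf v = lineOf (mat g *ᵥ v)
    ext w
    constructor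
    · rintro ⟨u, ⟨l, rfl⟩, rfl⟩
      exact ⟨l, mulVec_smul _ _ _⟩
    · rintro ⟨l, rfl⟩
      exact ⟨l • v, ⟨l, rfl⟩, mulVec_smul _ _ _⟩
  refine ⟨MulAction.stabilizer (S n F q) (lineOf v0), fun g hg => ?_, ?_⟩
  · rw [MulAction.mem_stabilizer_iff, hact]
    obtain ⟨a, ha⟩ := Herm.scalar_of_mem_center_SU hF (by omega) hg
    have ha' : mat g = a • 1 := ha
    have hae : mat g *ᵥ v0 = a • v0 := by rw [ha', smul_mulVec, one_mulVec]
    have hv0ne : v0 ≠ 0 := fun h => by rw [h, hm_zero_left] at hv0; exact zero_ne_one hv0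
    have ha0 : a ≠ 0 := fun h => mulVec_ne_zero g hv0ne (by rw [hae, h, zero_smul])
    rw [hae, lineOf_smul ha0]
  · rw [MulAction.index_stabilizer]
    set V1 := Finset.univ.filter fun v : Fin n → F => hm q v v = 1 with hV1
    set O : Finset (Set (Fin n → F)) := V1.image lineOf with hO
    have horb : MulAction.orbit (S n F q) (lineOf v0) = (O : Set (Set (Fin n → F))) := by
      ext A
      simp only [MulAction.mem_orbit_iff, hO, Finset.coe_image, Set.mem_image, Finset.mem_coe]
      constructor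
      · rintro ⟨g, rfl⟩
        exact ⟨mat g *ᵥ v0, Finset.mem_filter.2 ⟨Finset.mem_univ _, by rw [iso, hv0]⟩,
          (hact g v0).symm⟩
      · rintro ⟨v, hv, rfl⟩
        obtain ⟨g, hg⟩ := transitive_norm_one hF (by omega) hv0 (Finset.mem_filter.1 hv).2
        exact ⟨g, by rw [hact, hg]⟩
    have hV1c : V1.card = NS n := by
      have h := card_norm_sub hF (ndeg_top hF (n := n)) (1 : F)
      rw [finrank_top, Module.finrank_fintype_fun_eq_card, Fintype.card_fin, Herm.cnt_one_eq hF,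
        if_pos he] at h
      subst h2
      rw [NS, ← h, hV1, ← Fintype.card_subtype, ← Nat.card_eq_fintype_card]
      exact Nat.card_congr (Equiv.subtypeEquiv Submodule.topEquiv.toEquiv fun x => Iff.rfl).symm
    rw [horb, Set.ncard_coe_finset, ← hV1c]
    have hfib : ∀ A ∈ O, (V1.filter fun v => lineOf v = A).card = q ^ 2 - 1 := by
      intro A hA
      obtain ⟨v, hv, rfl⟩ := Finset.mem_image.1 hA
      have hv1 : hm q v v = 1 := (Finset.mem_filter.1 hv).2
      have hvne : v ≠ 0 := fun h => by rw [h, hm_zero_left] at hv1; exact zero_ne_one hv1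
      rw [← hF, ← Finset.card_univ (α := F), ← Finset.card_erase_of_mem (Finset.mem_univ (0 : F))]
      symm
      refine Finset.card_bij (fun l _ => l • v) (fun l hl => ?_)
        (fun l _ l' _ h => smul_left_injective F hvne h) (fun w hw => ?_)
      · have hl0 := Finset.ne_of_mem_erase hl
        refine Finset.mem_filter.2 ⟨Finset.mem_filter.2 ⟨Finset.mem_univ _, ?_⟩, lineOf_smul hl0 v⟩
        rw [hm_smul_left', hm_smul_right, hv1, mul_one, hnorm l hl0]
      · obtain ⟨hw1, hw2⟩ := Finset.mem_filter.1 hw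
        obtain ⟨l, hl⟩ : w ∈ lineOf v := by rw [← hw2]; exact ⟨1, (one_smul F w).symm⟩
        refine ⟨l, Finset.mem_erase.2 ⟨fun h => ?_, Finset.mem_univ _⟩, hl.symm⟩
        have := (Finset.mem_filter.1 hw1).2
        rw [hl, h, zero_smul, hm_zero_left] at this
        exact zero_ne_one this
    rw [← smul_eq_mul, ← Finset.sum_const, ← Finset.sum_congr rfl hfib,
      ← Finset.card_eq_sum_card_image]

omit HP in
/-- The minimal index in even dimension over the field with four elements. -/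
theorem min_index_even (h2 : q = 2) (hn : 6 ≤ n) (he : Even n) :
    (∀ H : Subgroup (Cfsg.PSU n F q), H ≠ ⊤ → NS n / (q ^ 2 - 1) ≤ H.index) ∧
      ∃ H : Subgroup (Cfsg.PSU n F q), H.index = NS n / (q ^ 2 - 1) := by
  have hq2 : 0 < q ^ 2 - 1 := by subst h2; norm_num
  have hs := pr_surjective (n := n) (F := F) (q := q)
  refine ⟨fun H hH => ?_, ?_⟩
  · obtain ⟨m, rfl⟩ : ∃ m, n = m + 2 := ⟨n - 2, by omega⟩
    rw [← H.index_comap_of_surjective hs, Subgroup.index_eq_card]
    set K := H.comap pr with hK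
    haveI : Fintype (S (m + 2) F q ⧸ K) := Fintype.ofFinite _
    have hK1 : K ≠ ⊤ := fun e => hH (Subgroup.comap_injective hs (by rw [Subgroup.comap_top]; exact e))
    have hcard : 2 ≤ Fintype.card (S (m + 2) F q ⧸ K) := by
      have h0 : K.index ≠ 1 := fun e => hK1 (Subgroup.index_eq_one.1 e)
      have h1 := Fintype.card_pos (α := S (m + 2) F q ⧸ K)
      rw [Subgroup.index_eq_card, Nat.card_eq_fintype_card] at h0
      omega
    rw [Nat.card_eq_fintype_card, Nat.div_le_iff_le_mul_add_pred hq2]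
    have hem : Even m := by
      obtain ⟨k, hk⟩ := he
      exact ⟨k - 1, by omega⟩
    exact le_trans (card_bound_even hF rfl (by omega) h2 hem hcard) (Nat.le_add_right _ _)
  · obtain ⟨H, hle, hH⟩ := exists_index_even hF h2 (n := n) (by omega) he
    refine ⟨H.map pr, ?_⟩
    rw [← hH, Nat.mul_div_cancel _ hq2]
    refine Subgroup.index_map_eq _ hs ?_
    rw [QuotientGroup.ker_mk']
    exact hle

end Cfsg.Agent.Lib.MinIndexSU
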