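import Cfsg.Agent.Lib.MinIndexSU.Aniso
import Cfsg.Agent.Lib.Classical.UnitarySimple

/-!
In a nontrivial transitive action some root group fixes some point only trivially.
-/

set_option autoImplicit false

namespace Cfsg.Agent.Lib.MinIndexSU

open Matrix Module Cfsg.Agent.Lib.Forms Cfsg.Agent.Lib.Classical Cfsg.Agent.Lib.AutPSU
open Cfsg.Agent.Lib.MinIndexSp (perp mem_perp card_perp exists_perp)

universe u v

attribute [local instance] _root_.Classical.propDecidable

variable {n m : ℕ} {F : Type u} [Field F] [Fintype F] {q : ℕ}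
variable (hF : Fintype.card F = q ^ 2)
include hF

theorem psi_primitive : (psi F).IsPrimitive := (exists_psi (F := F)).choose_spec.1

variable {e f : Fin n → F} (HP : Pair q e f)
include HP

/-- A transvection on a line of the perpendicular space. -/
theorem T_shift {u : Fin n → F} (hu : InW q e f u) (huu : hm q u u = 0) (ν : F) {s : F}
    (hs : Skew q s) :
    Cond q ((s * ν ^ q) • u) (s * (ν * ν ^ q)) ∧
      T hF (u + ν • e) s = AutPSU.U hF e ((s * ν ^ q) • u) (s * (ν * ν ^ q)) * T hF u s := by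
  have hc : Cond q ((s * ν ^ q) • u) (s * (ν * ν ^ q)) := by
    have h := hs.mul_fixed (norm_fixed' hF ν)
    unfold Skew at h
    unfold Cond
    rw [hm_smul_left', hm_smul_right, huu, mul_zero, mul_zero, neg_zero]
    exact h
  have hv : hm q (u + ν • e) (u + ν • e) = 0 := by
    simp [hm_add_left, hm_add_right hF, hm_smul_left', hm_smul_right, huu, HP.ee, hu.1,
      (hu.swap hF).1]
  refine ⟨hc, vec_ext fun z => ?_⟩
  rw [mat_mul, ← mulVec_mulVec, T_mulVec hF hv hs, T_mulVec hF huu hs,
    U_mulVec hF HP (hu.smul _) hc]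
  have hsq : s ^ q = -s := by unfold Skew at hs; linear_combination hs
  simp only [hm_add_left, hm_add_right hF, hm_smul_left', hm_smul_right, hu.1, huu, mul_pow,
    Herm.conj_conj hF, hsq]
  module

variable {Ω : Type v} [MulAction (S n F q) Ω]

theorem not_free_all (hn : n = m + 2) (hm2 : 2 ≤ m) (ω : Ω)
    (hall : ∀ x : Fin n → F, x ≠ 0 → hm q x x = 0 → ¬ Free hF x ω) :
    ∀ c : F, Skew q c → T hF e c • ω = ω := by
  have hq := Herm.two_le_q hF
  -- multiples of isotropic vectors in the stabiliser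
  have hL : ∀ u : WM q e f, u ≠ 0 → hm q (u : Fin n → F) u = 0 →
      q + 1 ≤ (Finset.univ.filter fun l : F => l • u ∈ Wst hF HP ω).card := by
    intro u hu0 huu
    have hex : ∀ ν : F, ∃ s, Skew q s ∧ s ≠ 0 ∧ T hF ((u : Fin n → F) + ν • e) s • ω = ω := by
      intro ν
      have h := hall ((u : Fin n → F) + ν • e) (fun h => hu0 (Subtype.ext (by
          have h1 := congrArg (hm q · f) h
          simp only [hm_add_left, hm_smul_left', (mem_WM.1 u.2).2, HP.ef, mul_one, zero_add,
            hm_zero_left] at h1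
          rw [h1, zero_smul, add_zero] at h
          exact h)))
        (by simp [hm_add_left, hm_add_right hF, hm_smul_left', hm_smul_right, huu, HP.ee,
          (mem_WM.1 u.2).1, ((mem_WM.1 u.2).swap hF).1])
      unfold Free at h
      push Not at h
      obtain ⟨s, h1, h2, h3⟩ := h
      exact ⟨s, h1, h3, h2⟩
    choose sf hsk hs0 hsfix using hex
    set SK := Finset.univ.filter fun c : F => Skew q c ∧ c ≠ 0
    have hSK : SK.card = q - 1 := by
      have e1 : SK = (Finset.univ.filter fun c : F => Skew q c).erase 0 := by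
        ext c; simp [SK, and_comm]
      rw [e1, Finset.card_erase_of_mem (Finset.mem_filter.2 ⟨Finset.mem_univ _, Skew.zero hF⟩),
        ← Fintype.card_subtype, ← Nat.card_eq_fintype_card, exists_skew_set hF]
    obtain ⟨s, hs, hfib⟩ := Finset.exists_lt_card_fiber_of_mul_lt_card_of_maps_to
      (s := (Finset.univ : Finset F)) (t := SK) (f := sf) (n := q)
      (fun ν _ => Finset.mem_filter.2 ⟨Finset.mem_univ _, hsk ν, hs0 ν⟩)
      (by rw [hSK, Finset.card_univ, hF, pow_two]; exact Nat.mul_lt_mul_of_pos_right (by omega) (by omega))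
    obtain ⟨ν0, hν0⟩ := Finset.card_pos.1 (lt_of_le_of_lt (Nat.zero_le _) hfib)
    refine le_trans hfib (Finset.card_le_card_of_injOn (fun ν => s * ν ^ q - s * ν0 ^ q) (fun ν hν => ?_) ?_)
    · have e1 := (Finset.mem_filter.1 hν).2
      have e0 := (Finset.mem_filter.1 hν0).2
      have hsk' : Skew q s := e1 ▸ hsk ν
      obtain ⟨hc, hT⟩ := T_shift hF HP (mem_WM.1 u.2) huu ν hsk'
      obtain ⟨hc0, hT0⟩ := T_shift hF HP (mem_WM.1 u.2) huu ν0 hsk'
      have h1 := hsfix ν
      have h0 := hsfix ν0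
      rw [e1, hT, mul_smul] at h1
      rw [e0, hT0, mul_smul] at h0
      have ew : (((s * ν ^ q - s * ν0 ^ q) • u : WM q e f) : Fin n → F) =
          (s * ν ^ q) • (u : Fin n → F) + -((s * ν0 ^ q) • (u : Fin n → F)) := by
        rw [Submodule.coe_smul, sub_smul, sub_eq_add_neg]
      refine Finset.mem_filter.2 ⟨Finset.mem_univ _, (mem_Wst hF).2
        ⟨_, by rw [ew]; exact hc.mul hF (cond_inv hF hc0), ?_⟩⟩
      rw [ew, ← U_mul hF HP ((mem_WM.1 u.2).smul _) (InW_neg hF HP ((mem_WM.1 u.2).smul _)) hc (cond_inv hF hc0),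
        ← U_inv hF HP ((mem_WM.1 u.2).smul _) hc0, mul_smul]
      rw [eq_comm] at h0
      conv_lhs => rw [h0, inv_smul_smul, h1]
    · intro a _ b _ hab
      have h1 := mul_left_cancel₀ (show s ≠ 0 from (Finset.mem_filter.1 hs).2.2)
        (sub_left_inj.1 hab)
      rw [← Herm.conj_conj hF a, h1, Herm.conj_conj hF]
  obtain ⟨u, hu, hu0, huu⟩ := exists_iso_mem hF (finrank_WM hF HP).2
    (by rw [finrank_W hF HP hn]; exact hm2)
  obtain ⟨u', hu', hp⟩ := exists_partner_mem hF (finrank_WM hF HP).2 hu hu0 huu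
  set U1 : WM q e f := ⟨u, hu⟩
  set U2 : WM q e f := ⟨u', hu'⟩
  have h1 := hL U1 (fun h => hu0 (congrArg Subtype.val h)) huu
  have h2 := hL U2 (fun h => hp.f_ne (congrArg Subtype.val h)) hp.ff
  set L1 := (Wst hF HP ω).comap ((LinearMap.toSpanSingleton F (WM q e f) U1).toAddMonoidHom)
  intro c0 hc0
  by_contra hne
  obtain ⟨b, hb, hb0⟩ := exists_perp (fun x : F => AddChar.mulShift (psi F) x)
    (AddChar.to_mulShift_inj_of_isPrimitive (psi_primitive hF))
    (W := Z0 hF HP ω) (w := c0) (fun h => hne h.2)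
  let inner : F → F →+ F := fun μ =>
    { toFun := fun l => b * (l * μ ^ q - μ * l ^ q)
      map_zero' := by simp [Herm.conj_zero hF]
      map_add' := fun x y => by rw [Herm.conj_add hF]; ring }
  let κ : F → AddChar F ℂ := fun μ => (psi F).compAddMonoidHom (inner μ)
  have hκ : Function.Injective κ := by
    intro μ μ' h
    by_contra hne'
    have hd : (μ - μ') ^ q ≠ 0 := pow_ne_zero _ (sub_ne_zero.2 hne')
    obtain ⟨y, hy⟩ := Herm.exists_conj_sub hF (z := -c0) (by
      unfold Skew at hc0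
      rw [Herm.conj_neg hF]; linear_combination -hc0)
    have h3 := psi_sub (DFunLike.congr_fun h (y / (μ - μ') ^ q) : psi F (inner μ _) = psi F (inner μ' _))
    apply hb0
    rw [AddChar.mulShift_apply]
    have e : ∀ x, inner μ x - inner μ' x = b * (x * (μ - μ') ^ q - (μ - μ') * x ^ q) := fun x => by
      simp only [inner, AddMonoidHom.coe_mk, ZeroHom.coe_mk]
      rw [Herm.conj_sub hF]; ring
    rw [e, div_mul_cancel₀ _ hd, div_pow, Herm.conj_conj hF,
      mul_div_cancel₀ _ (sub_ne_zero.2 hne')] at h3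
    rwa [show c0 = y - y ^ q by linear_combination hy]
  have hsub : (Finset.univ.filter fun l : F => l • U2 ∈ Wst hF HP ω) ⊆ perp κ L1 := by
    intro μ hμ
    refine (mem_perp κ).2 fun l hl => ?_
    obtain ⟨c, hc, hfc⟩ : ∃ c, Cond q ((l • U1 : WM q e f) : Fin n → F) c ∧
        AutPSU.U hF e ((l • U1 : WM q e f) : Fin n → F) c • ω = ω := hl
    obtain ⟨d, hd, hfd⟩ := (Finset.mem_filter.1 hμ).2
    have e1 := congrArg (· • ω) (U_comm hF HP (mem_WM.1 (l • U1).2) (mem_WM.1 (μ • U2).2) hc hd)
    simp only [mul_smul, hfc, hfd] at e1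
    have hmem : hm q ((l • U1 : WM q e f) : Fin n → F) ((μ • U2 : WM q e f) : Fin n → F) -
        hm q ((μ • U2 : WM q e f) : Fin n → F) ((l • U1 : WM q e f) : Fin n → F) ∈ Z0 hF HP ω :=
      ⟨comm_skew hF HP _ _, e1.symm⟩
    have h3 := (mem_perp _).1 hb _ hmem
    rw [AddChar.mulShift_apply] at h3
    simp only [U1, U2, Submodule.coe_smul, hm_smul_left', hm_smul_right, hp.ef, hp.fe, mul_one] at h3
    show psi F (b * (l * μ ^ q - μ * l ^ q)) = 1
    convert h3 using 2
    ring
  have h3 := card_perp κ hκ L1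
  have h4 : q + 1 ≤ Nat.card L1 := by
    refine h1.trans (le_of_eq ?_)
    rw [← Fintype.card_subtype, ← Nat.card_eq_fintype_card]
    rfl
  have h5 := Nat.mul_le_mul (h2.trans (Finset.card_le_card hsub)) h4
  rw [h3, hF, pow_two] at h5
  have h6 : (q + 1) * (q + 1) = q * q + 2 * q + 1 := by ring
  omega

omit HP in
/-- Some point is free for some pair. -/
theorem exists_free (hn : n = m + 2) (hm2 : 2 ≤ m) [Fintype Ω]
    [MulAction.IsPretransitive (S n F q) Ω] (hΩ : 2 ≤ Fintype.card Ω) (ω : Ω) :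
    ∃ x : Fin n → F, x ≠ 0 ∧ hm q x x = 0 ∧ Free hF x ω := by
  by_contra hc
  push Not at hc
  have hgen := UnitarySimple.generated hF (n := n) (by omega) (by omega)
  have htop : (⊤ : Subgroup (S n F q)) ≤ MulAction.stabilizer (S n F q) ω := by
    rw [← hgen, Subgroup.closure_le]
    rintro _ ⟨v, c, hv, hcs, rfl⟩
    rw [SetLike.mem_coe, MulAction.mem_stabilizer_iff]
    rcases eq_or_ne v 0 with rfl | hv0
    · have : T hF (0 : Fin n → F) c = 1 := vec_ext fun x => by
        rw [T_mulVec hF hv hcs, smul_zero, add_zero, mat_one, one_mulVec]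
      rw [this, one_smul]
    · obtain ⟨z, -, hp⟩ := exists_partner_mem hF (ndeg_top hF) (U := ⊤) trivial hv0 hv
      exact not_free_all hF hp hn hm2 ω hc c hcs
  obtain ⟨a, b, hab⟩ := Fintype.one_lt_card_iff.1 hΩ
  have hall : ∀ y : Ω, y = ω := fun y => by
    obtain ⟨g, rfl⟩ := MulAction.exists_smul_eq (S n F q) ω y
    exact MulAction.mem_stabilizer_iff.1 (htop (Subgroup.mem_top g))
  exact hab ((hall a).trans (hall b).symm)

end Cfsg.Agent.Lib.MinIndexSU
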