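import Cfsg.Agent.Lib.MinIndexSU.Aniso

/-!
Annihilators consisting of isotropic vectors.
-/

set_option autoImplicit false

namespace Cfsg.Agent.Lib.MinIndexSU

open Matrix Module Cfsg.Agent.Lib.Forms Cfsg.Agent.Lib.Classical Cfsg.Agent.Lib.AutPSU
open Cfsg.Agent.Lib.MinIndexSp (perp mem_perp exists_perp)

universe u v

attribute [local instance] _root_.Classical.propDecidable

variable {n m : ℕ} {F : Type u} [Field F] [Fintype F] {q : ℕ}
variable (hF : Fintype.card F = q ^ 2) {e f : Fin n → F} (HP : Pair q e f)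
include hF HP

variable {Ω : Type v} [MulAction (S n F q) Ω]

/-- The structure of an isotropic annihilator. -/
theorem iso_struct (hn : n = m + 2) {ω : Ω} (hfree : Free hF e ω)
    (hall : ∀ v ∈ Ann hF HP ω, hm q (v : Fin n → F) v = 0) :
    (Ann hF HP ω).card = q ^ m ∧
      (∀ a ∈ Ann hF HP ω, ∀ b ∈ Ann hF HP ω, (hm q (a : Fin n → F) b) ^ q = hm q (a : Fin n → F) b) ∧
      (∀ r : F, r ^ q = r → ∀ a ∈ Ann hF HP ω, r • a ∈ Ann hF HP ω) ∧
      ((∀ a ∈ Ann hF HP ω, ∀ b ∈ Ann hF HP ω, hm q (a : Fin n → F) b = 0) →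
        ∀ l : F, ∀ a ∈ Ann hF HP ω, l • a ∈ Ann hF HP ω) := by
  set A := Ann hF HP ω with hA
  have htr : ∀ a ∈ A, ∀ b ∈ A, hm q (a : Fin n → F) b + hm q (b : Fin n → F) a = 0 := by
    intro a ha b hb
    have h := hall _ (add_mem_Ann hF HP ha hb)
    rw [Submodule.coe_add, hm_add_left, hm_add_right hF, hm_add_right hF, hall a ha, hall b hb,
      zero_add, add_zero] at h
    exact h
  set WF := Finset.univ.filter fun w => w ∈ Wst hF HP ω with hWF
  have hWc : Nat.card (Wst hF HP ω) = WF.card := by
    rw [← SetLike.coe_sort_coe, Nat.card_coe_set_eq, ← Set.ncard_coe_finset]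
    congr 1; ext w; simp [hWF]
  have hsub : A ⊆ WF := by
    intro a ha
    refine Finset.mem_filter.2 ⟨Finset.mem_univ _, ?_⟩
    by_contra hc
    obtain ⟨v, hv, hne⟩ := exists_perp _ (kap_injective hF HP) hc
    exact hne (by rw [kap_apply, htr v hv a ha, AddChar.map_zero_eq_one])
  have h1 := card_Ann_mul_Wst hF HP hn ω
  have h2 := card_Ann_ge hF HP hn hfree
  rw [← hA, hWc] at h1
  rw [← hA] at h2
  have h3 : A.card ≤ WF.card := Finset.card_le_card hsub
  have h4 : A.card * A.card ≤ q ^ m * q ^ m := by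
    rw [← pow_add, ← two_mul, ← h1]; exact Nat.mul_le_mul_left _ h3
  have h5 : A.card = q ^ m := le_antisymm (Nat.mul_self_le_mul_self_iff.1 h4) h2
  have h6 : WF.card = q ^ m := by
    rw [h5, two_mul, pow_add] at h1
    exact Nat.eq_of_mul_eq_mul_left (pow_pos (by have := Herm.two_le_q hF; omega) m) h1
  have heq : A = WF := Finset.eq_of_subset_of_card_le hsub (by rw [h5, h6])
  have hW : ∀ {w}, w ∈ Wst hF HP ω → w ∈ A := fun {w} hw => by
    rw [heq]; exact Finset.mem_filter.2 ⟨Finset.mem_univ _, hw⟩
  have hreal : ∀ a ∈ A, ∀ b ∈ A, (hm q (a : Fin n → F) b) ^ q = hm q (a : Fin n → F) b :=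
    fun a ha b hb => by
      rw [← hm_swap hF]
      exact Wst_real hF HP hfree (Finset.mem_filter.1 (hsub hb)).2 (Finset.mem_filter.1 (hsub ha)).2
  refine ⟨h5, hreal, fun r hr a ha => (mem_Ann hF).2 fun w hw => ?_,
    fun h0 l a ha => (mem_Ann hF).2 fun w hw => ?_⟩
  · rw [kap_apply, Submodule.coe_smul, hm_smul_left', hm_smul_right, hr, ← mul_add,
      htr a ha w (hW hw), mul_zero, AddChar.map_zero_eq_one]
  · rw [kap_apply, Submodule.coe_smul, hm_smul_left', hm_smul_right, h0 a ha w (hW hw),
      h0 w (hW hw) a ha, mul_zero, mul_zero, add_zero, AddChar.map_zero_eq_one]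

theorem Tset_iso {ω : Ω} (hall : ∀ v ∈ Ann hF HP ω, hm q (v : Fin n → F) v = 0)
    {B : Finset (WM q e f)} (hB : B ∈ Tset hF HP ω) : ∀ v ∈ B, hm q (v : Fin n → F) v = 0 := by
  obtain ⟨t, b, ht, rfl⟩ := (mem_Tset hF).1 hB
  intro v hv
  rw [Ann_smul hF HP ht] at hv
  obtain ⟨v', hv', rfl⟩ := Finset.mem_image.1 hv
  rw [psiL_norm, hall v' hv', mul_zero]

omit HP in
theorem li_pair {u y : Fin n → F} (hu : u ≠ 0) (hy : ∀ l : F, y ≠ l • u) :
    LinearIndependent F ![u, y] := by
  refine LinearIndependent.pair_iff.2 fun s t h => ?_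
  rcases eq_or_ne t 0 with rfl | ht
  · rw [zero_smul, add_zero] at h
    exact ⟨(smul_eq_zero.1 h).resolve_right hu, rfl⟩
  · refine absurd ?_ (hy (-(s / t)))
    have := congrArg (t⁻¹ • ·) h
    simp only [smul_add, smul_smul, inv_mul_cancel₀ ht, one_smul, smul_zero] at this
    rw [neg_smul, eq_neg_iff_add_eq_zero, add_comm, div_eq_inv_mul]
    exact this

/-- Some vector of an isotropic annihilator lies in at least `q + 1` translates. -/
theorem iso_mult (hn : n = m + 2) (hm3 : 3 ≤ m) {ω : Ω} (hfree : Free hF e ω)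
    (hall : ∀ v ∈ Ann hF HP ω, hm q (v : Fin n → F) v = 0) :
    ∃ u ∈ isoV q e f, q + 1 ≤ ((Tset hF HP ω).filter fun B => u ∈ B).card := by
  have hq := Herm.two_le_q hF
  obtain ⟨hcard, hreal, hstab, hlin⟩ := iso_struct hF HP hn hfree hall
  set A := Ann hF HP ω with hA
  have hTs : ∀ B ∈ Tset hF HP ω, ∃ y : Ω, Free hF e y ∧ Ann hF HP y = B ∧
      ∀ v ∈ Ann hF HP y, hm q (v : Fin n → F) v = 0 := by
    intro B hB
    obtain ⟨t, b, ht, hBe⟩ := (mem_Tset hF).1 hB
    exact ⟨t • ω, free_smul hF HP ht hfree, hBe, by rw [hBe]; exact Tset_iso hF HP hall hB⟩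
  by_cases h0 : ∀ a ∈ A, ∀ b ∈ A, hm q (a : Fin n → F) b = 0
  · -- a maximal totally isotropic subspace
    have hl := hlin h0
    let SA : Submodule F (WM q e f) :=
      { carrier := {v | v ∈ A}
        add_mem' := fun ha hb => add_mem_Ann hF HP ha hb
        zero_mem' := zero_mem_Ann hF HP ω
        smul_mem' := fun l a ha => hl l a ha }
    have hSA : Nat.card SA = A.card := by
      rw [← Nat.card_eq_finsetCard]; rfl
    rw [Module.natCard_eq_pow_finrank (K := F), Nat.card_eq_fintype_card, hF, hcard, ← pow_mul] at hSA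
    have hm_even : 2 * finrank F SA = m := Nat.pow_right_injective hq hSA
    obtain ⟨u, huA, hu0⟩ : ∃ u ∈ A, u ≠ 0 := by
      refine Finset.exists_mem_ne ?_ 0
      rw [hcard]; exact Nat.one_lt_pow (by omega) (by omega)
    have huu := hall u huA
    have huc : (u : Fin n → F) ≠ 0 := fun h => hu0 (Subtype.ext h)
    refine ⟨u, mem_isoV.2 ⟨hu0, huu⟩, ?_⟩
    obtain ⟨y, hyA, hy⟩ : ∃ y ∈ A, ∀ l : F, (y : Fin n → F) ≠ l • (u : Fin n → F) := by
      by_contra hc
      push Not at hc
      have hle : A ⊆ (Finset.univ : Finset F).image fun l => l • u := fun y hy => by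
        obtain ⟨l, hl'⟩ := hc y hy
        exact Finset.mem_image.2 ⟨l, Finset.mem_univ _, Subtype.ext hl'.symm⟩
      have h1 := (Finset.card_le_card hle).trans Finset.card_image_le
      rw [Finset.card_univ, hF, hcard] at h1
      have h2 : q ^ 2 < q ^ m := Nat.pow_lt_pow_right hq (by omega)
      omega
    obtain ⟨u', hu'W, hp⟩ := exists_partner_mem hF (finrank_WM hF HP).2 (mem_WM.2 (mem_WM.1 u.2))
      huc huu
    obtain ⟨hdim, hnd⟩ := pair_perp hF (finrank_WM hF HP).2 (mem_WM.2 (mem_WM.1 u.2)) hu'W hp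
    rw [finrank_W hF HP hn] at hdim
    set U := WM q e f ⊓ WM q (u : Fin n → F) u' with hU
    set T := (Tset hF HP ω).filter fun B => u ∈ B with hT
    let mk : F × {w : U // (w : Fin n → F) ≠ 0 ∧ hm q (w : Fin n → F) w = 0} → WM q e f := fun p =>
      ⟨p.1 • (u : Fin n → F) + (p.2.1 : Fin n → F),
        ((mem_WM.1 u.2).smul _).add (Submodule.mem_inf.1 p.2.1.2).1⟩
    have hmk : Function.Injective mk := by
      intro p p' h
      have h1 := congrArg Subtype.val h
      simp only [mk] at h1
      have h2 := congrArg (hm q · u') h1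
      simp only [hm_add_left, hm_smul_left', hp.ef, mul_one, (Submodule.mem_inf.1 p.2.1.2).2.2,
        (Submodule.mem_inf.1 p'.2.1.2).2.2, add_zero] at h2
      rw [h2, add_right_inj] at h1
      exact Prod.ext h2 (Subtype.ext (Subtype.ext h1))
    set Z := (Finset.univ : Finset (F × {w : U // (w : Fin n → F) ≠ 0 ∧ hm q (w : Fin n → F) w = 0})).image mk
      with hZ
    have hZc : Z.card = q ^ 2 * N0 q (m - 2) := by
      rw [hZ, Finset.card_image_of_injective _ hmk, Finset.card_univ, Fintype.card_prod, hF]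
      congr 1
      have h := card_norm_sub hF hnd (0 : F)
      rw [show finrank F U = m - 2 by omega, cnt_zero_N0 hF, Nat.card_eq_fintype_card,
        Fintype.card_subtype] at h
      rw [Fintype.card_subtype]
      have e1 : (Finset.univ.filter fun x : U => hm q (x : Fin n → F) x = 0) =
          insert 0 (Finset.univ.filter fun x : U => (x : Fin n → F) ≠ 0 ∧ hm q (x : Fin n → F) x = 0) := by
        ext x
        rcases eq_or_ne x 0 with rfl | hx
        · simp [hm_zero_left]
        · simp [hx, show (x : Fin n → F) ≠ 0 from fun h => hx (Subtype.ext h)]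
      rw [e1, Finset.card_insert_of_notMem (by simp)] at h
      omega
    -- each vector is covered
    have hcov : Z ⊆ T.biUnion fun B => B.filter fun z => ∀ l : F, z ≠ l • u := by
      intro z hz
      obtain ⟨⟨α, ⟨w, hw0, hww⟩⟩, -, rfl⟩ := Finset.mem_image.1 hz
      obtain ⟨hwW, hwp⟩ := Submodule.mem_inf.1 w.2
      have hne : ∀ l : F, mk (α, ⟨w, hw0, hww⟩) ≠ l • u := fun l h => hw0 (by
        have h1 := congrArg Subtype.val h
        simp only [mk, Submodule.coe_smul] at h1
        have h2 := congrArg (hm q · u') h1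
        simp only [hm_add_left, hm_smul_left', hp.ef, mul_one, hwp.2, add_zero] at h2
        rwa [h2, add_eq_left] at h1)
      set z' := mk (α, ⟨w, hw0, hww⟩) with hz'
      have hzu : hm q (z' : Fin n → F) u = 0 := by
        simp [hz', mk, hm_add_left, hm_smul_left', huu, hwp.1]
      have hzz : hm q (z' : Fin n → F) z' = 0 := by
        simp [hz', mk, hm_add_left, hm_add_right hF, hm_smul_left', hm_smul_right, huu, hwp.1,
          hm_comm_zero hF hwp.1, hww]
      obtain ⟨M, hd, hiso, he, hf, hM⟩ := witt_pair hF HP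
        (x := ![(u : Fin n → F), (y : Fin n → F)]) (x' := ![(u : Fin n → F), (z' : Fin n → F)])
        (fun i => by fin_cases i <;> first | exact mem_WM.1 u.2 | exact mem_WM.1 y.2)
        (fun i => by fin_cases i <;> first | exact mem_WM.1 u.2 | exact mem_WM.1 z'.2)
        (li_pair hF huc hy) (li_pair hF huc fun l h => hne l (Subtype.ext h))
        (fun i j => by
          fin_cases i <;> fin_cases j <;>
            simp [huu, h0 u huA y hyA, h0 y hyA u huA, h0 y hyA y hyA, hzu, hzz, hm_comm_zero hF hzu])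
      obtain ⟨s, b, hs, hsx⟩ := fix_det hF HP hd hiso he hf
      refine Finset.mem_biUnion.2 ⟨A.image (psiL hF HP hs), ?_, ?_⟩
      · refine Finset.mem_filter.2 ⟨Tset_psiL hF HP hs (Ann_mem_Tset hF HP ω), ?_⟩
        refine Finset.mem_image.2 ⟨b • u, hl b u huA, Subtype.ext ?_⟩
        simp only [psiL, Submodule.coe_smul]
        rw [mulVec_smul, hsx _ (mem_WM.1 u.2), smul_smul, inv_mul_cancel₀ hs.1, one_smul]
        exact hM 0
      · refine Finset.mem_filter.2 ⟨Finset.mem_image.2 ⟨b • y, hl b y hyA, Subtype.ext ?_⟩, hne⟩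
        simp only [psiL, Submodule.coe_smul]
        rw [mulVec_smul, hsx _ (mem_WM.1 y.2), smul_smul, inv_mul_cancel₀ hs.1, one_smul]
        exact hM 1
    have hbound : ∀ B ∈ T, (B.filter fun z => ∀ l : F, z ≠ l • u).card + q ^ 2 ≤ q ^ m := by
      intro B hB
      obtain ⟨hBT, huB⟩ := Finset.mem_filter.1 hB
      obtain ⟨t, b, ht, hBe⟩ := (mem_Tset hF).1 hBT
      have hBl : ∀ l : F, l • u ∈ B := by
        intro l
        rw [← hBe, Ann_smul hF HP ht, Finset.mem_image] at huB ⊢
        obtain ⟨v, hv, hvu⟩ := huB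
        refine ⟨l • v, hl l v hv, ?_⟩
        rw [← hvu]
        apply Subtype.ext
        simp only [psiL, Submodule.coe_smul, mulVec_smul, smul_smul, mul_comm]
      rw [← hcard, ← Tset_card hF HP hBT, ← hF, ← Finset.card_univ,
        ← Finset.card_image_of_injective Finset.univ (f := fun l : F => l • u)
          (smul_left_injective F hu0), ← Finset.card_union_of_disjoint]
      · exact Finset.card_le_card (Finset.union_subset (Finset.filter_subset _ _) fun z hz => by
          obtain ⟨l, -, rfl⟩ := Finset.mem_image.1 hz; exact hBl l)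
      · rw [Finset.disjoint_left]
        intro z hz hz'
        obtain ⟨l, -, rfl⟩ := Finset.mem_image.1 hz'
        exact (Finset.mem_filter.1 hz).2 l rfl
    have h1 := (Finset.card_le_card hcov).trans (Finset.card_biUnion_le_card_mul T _ (q ^ m - q ^ 2)
      fun B hB => by have := hbound B hB; omega)
    rw [hZc] at h1
    obtain ⟨k, hk⟩ : ∃ k, m = 4 + 2 * k := ⟨finrank F SA - 2, by omega⟩
    subst hk
    rw [N0, if_pos ⟨k + 1, by omega⟩, show 4 + 2 * k - 2 = 2 + 2 * k by omega,
      show 2 + 2 * k - 1 = 1 + 2 * k by omega] at h1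
    have e1 : q ^ (4 + 2 * k) - q ^ 2 = q ^ 2 * (q ^ (2 + 2 * k) - 1) := by
      rw [Nat.mul_sub, ← pow_add, mul_one]; congr 2; omega
    rw [e1] at h1
    have hpos : 0 < q ^ 2 * (q ^ (2 + 2 * k) - 1) :=
      Nat.mul_pos (pow_pos (by omega) _) (Nat.sub_pos_of_lt (Nat.one_lt_pow (by omega) (by omega)))
    have h2 : q ^ (1 + 2 * k) + 1 ≤ T.card := by
      refine Nat.le_of_mul_le_mul_left ?_ hpos
      calc q ^ 2 * (q ^ (2 + 2 * k) - 1) * (q ^ (1 + 2 * k) + 1)
          = q ^ 2 * ((q ^ (2 + 2 * k) - 1) * (q ^ (1 + 2 * k) + 1)) := by ring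
        _ ≤ T.card * (q ^ 2 * (q ^ (2 + 2 * k) - 1)) := h1
        _ = _ := by ring
    have h3 : q ≤ q ^ (1 + 2 * k) := Nat.le_self_pow (by omega) q
    omega
  · -- a real form
    push Not at h0
    obtain ⟨y, hyA, u, huA, hne⟩ := h0
    set r0 := hm q (y : Fin n → F) u with hr0
    have hr0f : r0 ^ q = r0 := hreal y hyA u huA
    have hu0 : u ≠ 0 := fun h => hne (by rw [hr0, h]; simp [hm_zero_right hF])
    have huc : (u : Fin n → F) ≠ 0 := fun h => hu0 (Subtype.ext h)
    have huu := hall u huA
    have hyy := hall y hyA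
    obtain ⟨u', hu'W, hp⟩ := exists_partner_mem hF (finrank_WM hF HP).2 (mem_WM.2 (mem_WM.1 u.2))
      huc huu
    obtain ⟨hdim, hnd⟩ := pair_perp hF (finrank_WM hF HP).2 (mem_WM.2 (mem_WM.1 u.2)) hu'W hp
    rw [finrank_W hF HP hn] at hdim
    rcases eq_or_lt_of_le hm3 with hm_eq | hm4
    · -- dimension three
      exfalso
      obtain ⟨r, hrA, hr, hru, hry⟩ : ∃ r ∈ A, r ≠ 0 ∧ hm q (r : Fin n → F) u = 0 ∧
          hm q (r : Fin n → F) y = 0 := by
        set FX := Finset.univ.filter fun c : F => c ^ q = c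
        have hFX : FX.card = q := by
          rw [← Fintype.card_subtype, ← Nat.card_eq_fintype_card, Herm.card_fixed hF]
        obtain ⟨a, ha, b, hb, hab, he'⟩ := Finset.exists_ne_map_eq_of_card_lt_of_maps_to
          (s := A) (t := FX ×ˢ FX) (f := fun a : WM q e f => (hm q (a : Fin n → F) u, hm q (a : Fin n → F) y))
          (by rw [Finset.card_product, hFX, hcard, ← pow_two, ← hm_eq]
              exact Nat.pow_lt_pow_right hq (by omega))
          (fun a ha => Finset.mem_product.2
            ⟨Finset.mem_filter.2 ⟨Finset.mem_univ _, hreal a ha u huA⟩,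
              Finset.mem_filter.2 ⟨Finset.mem_univ _, hreal a ha y hyA⟩⟩)
        simp only [Prod.mk.injEq] at he'
        refine ⟨a - b, sub_mem_Ann hF HP ha hb, sub_ne_zero.2 hab, ?_, ?_⟩
        · rw [AddSubgroupClass.coe_sub, hm_sub_left, he'.1, sub_self]
        · rw [AddSubgroupClass.coe_sub, hm_sub_left, he'.2, sub_self]
      have hrc : (r : Fin n → F) ≠ 0 := fun h => hr (Subtype.ext h)
      obtain ⟨r', hr'W, hp'⟩ := exists_partner_mem hF (finrank_WM hF HP).2 (mem_WM.2 (mem_WM.1 r.2))
        hrc (hall r hrA)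
      obtain ⟨hdim', hnd'⟩ := pair_perp hF (finrank_WM hF HP).2 (mem_WM.2 (mem_WM.1 r.2)) hr'W hp'
      rw [finrank_W hF HP hn, ← hm_eq] at hdim'
      have hur := hm_comm_zero hF hru
      have hdec := decomp (q := q) (r : Fin n → F) r' (u : Fin n → F)
      rw [hur, zero_smul, add_zero] at hdec
      have hx0 : proj q (r : Fin n → F) r' (u : Fin n → F) = 0 := by
        by_contra hne0
        have hx0U : proj q (r : Fin n → F) r' (u : Fin n → F) ∈
            WM q e f ⊓ WM q (r : Fin n → F) r' :=
          Submodule.mem_inf.2 ⟨Submodule.sub_mem _ (Submodule.sub_mem _ (mem_WM.2 (mem_WM.1 u.2))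
            (Submodule.smul_mem _ _ (mem_WM.2 (mem_WM.1 r.2)))) (Submodule.smul_mem _ _ hr'W),
            proj_mem hp' _⟩
        obtain ⟨φ, hφ⟩ := exists_coords hF hnd'
        set c := φ.symm ⟨_, hx0U⟩
        have hxx : hm q (proj q (r : Fin n → F) r' (u : Fin n → F))
            (proj q (r : Fin n → F) r' (u : Fin n → F)) = 0 := by
          have h := huu
          rw [hdec] at h
          have hp0 := proj_mem hp' (u : Fin n → F)
          simpa [hm_add_left, hm_add_right hF, hm_smul_left', hm_smul_right, hp'.ee, hp0.1,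
            hm_comm_zero hF hp0.1] using h
        have h := hφ c c
        rw [show (φ c : Fin n → F) = proj q (r : Fin n → F) r' (u : Fin n → F) by simp [c], hxx,
          Herm.hermForm_self] at h
        have h1 : finrank F (WM q e f ⊓ WM q (r : Fin n → F) r' : Submodule F (Fin n → F)) = 1 := by
          omega
        have hc0 : c = 0 := by
          funext i
          have hsub : ∀ j, j = i := fun j => Fin.ext (by omega)
          rw [Fintype.sum_eq_single i (fun j hj => absurd (hsub j) hj)] at h
          exact pow_eq_zero_iff (Nat.succ_ne_zero q) |>.1 h.symm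
        apply hne0
        have := congrArg φ hc0
        rw [map_zero, LinearEquiv.apply_symm_apply] at this
        exact congrArg Subtype.val this
      apply hne
      rw [hx0, add_zero] at hdec
      rw [hr0, hm_swap hF, hdec, hm_smul_left', hry, mul_zero, Herm.conj_zero hF]
    · refine ⟨u, mem_isoV.2 ⟨hu0, huu⟩, ?_⟩
      set U := WM q e f ⊓ WM q (u : Fin n → F) u' with hU
      set T := (Tset hF HP ω).filter fun B => u ∈ B with hT
      have hr0q : r0 ^ q ≠ 0 := pow_ne_zero _ hne
      let mk : {p : U × F // Cond q (p.1 : Fin n → F) p.2} → WM q e f := fun p =>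
        ⟨r0 • u' + (p.1.2 / r0 ^ q) • (u : Fin n → F) + (p.1.1 : Fin n → F),
          ((InW.smul _ (mem_WM.1 hu'W)).add ((mem_WM.1 u.2).smul _)).add (Submodule.mem_inf.1 p.1.1.2).1⟩
      have hmk : Function.Injective mk := by
        intro p p' h
        have h1 := congrArg Subtype.val h
        simp only [mk] at h1
        have h2 := congrArg (hm q · u') h1
        simp only [hm_add_left, hm_smul_left', hp.ef, hp.ff, mul_one, mul_zero, zero_add,
          (Submodule.mem_inf.1 p.1.1.2).2.2, (Submodule.mem_inf.1 p'.1.1.2).2.2, add_zero] at h2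
        rw [h2, add_right_inj] at h1
        exact Subtype.ext (Prod.ext (Subtype.ext h1) (div_left_inj' hr0q |>.1 h2))
      set Z := (Finset.univ : Finset {p : U × F // Cond q (p.1 : Fin n → F) p.2}).image mk with hZ
      have hZc : Z.card = q ^ (2 * m - 3) := by
        rw [hZ, Finset.card_image_of_injective _ hmk, Finset.card_univ, ← Nat.card_eq_fintype_card]
        have hx : ∀ x : U, ∃ c, Cond q (x : Fin n → F) c := fun x => exists_cond hF _
        choose c0 hc0 using hx
        refine (Nat.card_congr (β := U × {c : F // Skew q c})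
          { toFun := fun p => (p.1.1, ⟨p.1.2 - c0 p.1.1, skew_of_cond hF p.2 (hc0 _)⟩)
            invFun := fun p => ⟨(p.1, c0 p.1 + p.2.1), cond_add hF (hc0 _) p.2.2⟩
            left_inv := fun p => Subtype.ext (Prod.ext rfl (add_sub_cancel _ _))
            right_inv := fun p => Prod.ext rfl (Subtype.ext (add_sub_cancel_left _ _)) }).trans ?_
        rw [Nat.card_prod, exists_skew_set hF, finrank_eq_card_pow hF, ← pow_succ]
        congr 1; omega
      have hcov : Z ⊆ T.biUnion fun B => B.filter fun z : WM q e f => hm q (z : Fin n → F) u = r0 := by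
        intro z hz
        obtain ⟨⟨⟨w, α⟩, hα⟩, -, rfl⟩ := Finset.mem_image.1 hz
        obtain ⟨hwW, hwp⟩ := Submodule.mem_inf.1 w.2
        set z' := mk ⟨(w, α), hα⟩ with hz'
        have hzu : hm q (z' : Fin n → F) u = r0 := by
          simp [hz', mk, hm_add_left, hm_smul_left', huu, hwp.1, hp.fe]
        have hzz : hm q (z' : Fin n → F) z' = 0 := by
          simp only [hz', mk, hm_add_left, hm_add_right hF, hm_smul_left', hm_smul_right, huu, hp.ee,
            hp.ff, hp.ef, hp.fe, hwp.1, hwp.2, (hwp.swap hF).1, (hwp.swap hF).2, mul_zero, mul_one,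
            add_zero, zero_add, div_pow, Herm.conj_conj hF]
          unfold Cond at hα
          simp only at hα
          rw [hr0f]
          field_simp
          linear_combination hα
        have hli : ∀ l : F, (z' : Fin n → F) ≠ l • (u : Fin n → F) := fun l h => hne (by
          rw [h, hm_smul_left', huu, mul_zero] at hzu; exact hzu.symm)
        have hli' : ∀ l : F, (y : Fin n → F) ≠ l • (u : Fin n → F) := fun l h => hne (by
          rw [hr0, h, hm_smul_left', huu, mul_zero])
        obtain ⟨M, hd, hiso, he, hf, hM⟩ := witt_pair hF HP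
          (x := ![(u : Fin n → F), (y : Fin n → F)]) (x' := ![(u : Fin n → F), (z' : Fin n → F)])
          (fun i => by fin_cases i <;> first | exact mem_WM.1 u.2 | exact mem_WM.1 y.2)
          (fun i => by fin_cases i <;> first | exact mem_WM.1 u.2 | exact mem_WM.1 z'.2)
          (li_pair hF huc hli') (li_pair hF huc hli)
          (fun i j => by
            fin_cases i <;> fin_cases j <;> simp [huu, hyy, hzz, hzu, ← hr0,
              hm_swap hF (z' : Fin n → F) u, hm_swap hF (y : Fin n → F) u])
        have hp2 : Pair q (u : Fin n → F) ((r0⁻¹) • (z' : Fin n → F)) :=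
          ⟨huu, by rw [hm_smul_left', hm_smul_right, hzz, mul_zero, mul_zero],
            by rw [hm_smul_right, inv_pow, hm_swap hF (z' : Fin n → F) u, hzu, inv_mul_cancel₀ hr0q],
            by rw [hm_smul_left', hzu, inv_mul_cancel₀ hne]⟩
        obtain ⟨hd2, hn2⟩ := pair_perp hF (finrank_WM hF HP).2 (mem_WM.2 (mem_WM.1 u.2))
          (Submodule.smul_mem _ _ (mem_WM.2 (mem_WM.1 z'.2))) hp2
        rw [finrank_W hF HP hn] at hd2
        obtain ⟨v, hv, hv1⟩ := exists_norm_one_mem hF hn2 (by omega)
        obtain ⟨hvW, hvp⟩ := Submodule.mem_inf.1 hv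
        obtain ⟨s, hs, hsx⟩ := fix_quasi hF HP hd hiso he hf hvW hv1 one_ne_zero
        have hzv : hm q (z' : Fin n → F) v = 0 := by
          have h := (hvp.swap hF).2
          rwa [hm_smul_left', mul_eq_zero, or_iff_right (inv_ne_zero hne)] at h
        refine Finset.mem_biUnion.2 ⟨A.image (psiL hF HP hs), ?_, ?_⟩
        · refine Finset.mem_filter.2 ⟨Tset_psiL hF HP hs (Ann_mem_Tset hF HP ω), ?_⟩
          refine Finset.mem_image.2 ⟨u, huA, Subtype.ext ?_⟩
          simp only [psiL]
          rw [inv_one, one_smul, hsx _ (mem_WM.1 u.2) (by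
            rw [show M *ᵥ (u : Fin n → F) = (u : Fin n → F) from hM 0]; exact (hvp.swap hF).1)]
          exact hM 0
        · refine Finset.mem_filter.2 ⟨Finset.mem_image.2 ⟨y, hyA, Subtype.ext ?_⟩, hzu⟩
          simp only [psiL]
          rw [inv_one, one_smul, hsx _ (mem_WM.1 y.2) (by
            rw [show M *ᵥ (y : Fin n → F) = (z' : Fin n → F) from hM 1]; exact hzv)]
          exact hM 1
      have hbound : ∀ B ∈ T, (B.filter fun z : WM q e f => hm q (z : Fin n → F) u = r0).card * q ≤ q ^ m := by
        intro B hB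
        obtain ⟨hBT, huB⟩ := Finset.mem_filter.1 hB
        obtain ⟨w, hwf, hBe, hwall⟩ := hTs B hBT
        obtain ⟨-, -, hwst, -⟩ := iso_struct hF HP hn hwf hwall
        rw [hBe] at hwst
        rcases Finset.eq_empty_or_nonempty (B.filter fun z : WM q e f => hm q (z : Fin n → F) u = r0)
          with hem | ⟨z1, hz1⟩
        · rw [hem, Finset.card_empty, zero_mul]; exact Nat.zero_le _
        obtain ⟨hz1B, hz1u⟩ := Finset.mem_filter.1 hz1
        set FX := Finset.univ.filter fun c : F => c ^ q = c
        have hFX : FX.card = q := by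
          rw [← Fintype.card_subtype, ← Nat.card_eq_fintype_card, Herm.card_fixed hF]
        rw [← hcard, ← Tset_card hF HP hBT]
        refine le_trans (le_of_eq (show _ * q =
          ((B.filter fun z : WM q e f => hm q (z : Fin n → F) u = r0) ×ˢ FX).card by
            rw [Finset.card_product, hFX])) ?_
        refine Finset.card_le_card_of_injOn (fun p => p.1 + p.2 • z1) (fun p hp => ?_) ?_
        · obtain ⟨h1, h2⟩ := Finset.mem_product.1 hp
          have := add_mem_Ann hF HP (ω := w) (v := p.1) (v' := p.2 • z1)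
            (by rw [hBe]; exact (Finset.mem_filter.1 h1).1)
            (by rw [hBe]; exact hwst _ (Finset.mem_filter.1 h2).2 _ hz1B)
          rwa [hBe] at this
        · intro p hp p' hp' h
          obtain ⟨h1, -⟩ := Finset.mem_product.1 hp
          obtain ⟨h1', -⟩ := Finset.mem_product.1 hp'
          have h3 := congrArg (fun z : WM q e f => hm q (z : Fin n → F) u) h
          simp only [Submodule.coe_add, Submodule.coe_smul, hm_add_left, hm_smul_left', hz1u,
            (Finset.mem_filter.1 h1).2, (Finset.mem_filter.1 h1').2, add_right_inj] at h3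
          have h4 := mul_right_cancel₀ hne h3
          simp only [h4, add_left_inj] at h
          exact Prod.ext h h4
      have h1 := (Finset.card_le_card hcov).trans (Finset.card_biUnion_le_card_mul T _ (q ^ (m - 1))
        fun B hB => by
          refine Nat.le_of_mul_le_mul_right ?_ (by omega : 0 < q)
          rw [← pow_succ, show m - 1 + 1 = m by omega]
          exact hbound B hB)
      rw [hZc, show 2 * m - 3 = (m - 2) + (m - 1) by omega, pow_add] at h1
      have h2 : q ^ (m - 2) ≤ T.card :=
        Nat.le_of_mul_le_mul_right h1 (pow_pos (by omega) _)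
      have h3 : q ^ 2 ≤ q ^ (m - 2) := Nat.pow_le_pow_right (by omega) (by omega)
      nlinarith

end Cfsg.Agent.Lib.MinIndexSU
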