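import Cfsg.Agent.Lib.MinIndexSU.Orbits

/-!
Elements fixing both points of the pair and their action on annihilators.
-/

set_option autoImplicit false

namespace Cfsg.Agent.Lib.MinIndexSU

open Matrix Module Cfsg.Agent.Lib.Forms Cfsg.Agent.Lib.Classical Cfsg.Agent.Lib.AutPSU
open Cfsg.Agent.Lib.MinIndexSp (perp mem_perp card_perp exists_perp)

universe u v

attribute [local instance] _root_.Classical.propDecidable

variable {n : ℕ} {F : Type u} [Field F] [Fintype F] {q : ℕ}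

/-- An element fixing both points. -/
def IsL (q : ℕ) (e f : Fin n → F) (s : S n F q) (a : F) : Prop :=
  a ≠ 0 ∧ mat s *ᵥ e = a • e ∧ mat s *ᵥ f = (a ^ q)⁻¹ • f

variable (hF : Fintype.card F = q ^ 2)
include hF

theorem exists_hilbert {d : F} (hd : d * d ^ q = 1) : ∃ b : F, b ≠ 0 ∧ b * (b ^ q)⁻¹ = d := by
  obtain ⟨x, hx⟩ : ∃ x : F, x + d * x ^ q ≠ 0 := by
    by_contra h
    push Not at h
    have h1 := h 1
    rw [one_pow, mul_one] at h1
    obtain ⟨θ, hθ⟩ := UnitaryConj.exists_moved hF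
    refine hθ ?_
    have h2 := h θ
    show θ ^ q = θ
    linear_combination θ ^ q * h1 - h2
  refine ⟨_, hx, ?_⟩
  rw [mul_inv_eq_iff_eq_mul₀ (pow_ne_zero _ hx), Herm.conj_add hF, mul_pow, Herm.conj_conj hF]
  linear_combination -x * hd

theorem exists_norm_one_mem {U : Submodule F (Fin n → F)} (hU : NDeg q U) (h1 : 1 ≤ finrank F U) :
    ∃ x ∈ U, hm q x x = 1 := by
  obtain ⟨φ, hφ⟩ := exists_coords hF hU
  refine ⟨φ (Pi.single ⟨0, h1⟩ 1), Submodule.coe_mem _, ?_⟩
  rw [hφ, Herm.herm_single_right hF, Pi.single_eq_same]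

theorem exists_iso_mem {U : Submodule F (Fin n → F)} (hU : NDeg q U) (h2 : 2 ≤ finrank F U) :
    ∃ x ∈ U, x ≠ 0 ∧ hm q x x = 0 := by
  obtain ⟨φ, hφ⟩ := exists_coords hF hU
  obtain ⟨ξ, -, hξ⟩ := Herm.exists_norm hF (c := (-1 : F)) (by simp)
    (by rw [Herm.conj_neg hF, one_pow])
  set c : Fin (finrank F U) → F := Pi.single ⟨0, by omega⟩ 1 + ξ • Pi.single ⟨1, by omega⟩ 1
  have hne : (⟨1, by omega⟩ : Fin (finrank F U)) ≠ ⟨0, by omega⟩ := by simp
  refine ⟨φ c, Submodule.coe_mem _, fun h => ?_, ?_⟩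
  · have h2 := congrFun (φ.injective (show φ c = φ 0 by rw [map_zero]; exact Subtype.ext h))
      ⟨0, by omega⟩
    simp [c, hne.symm] at h2
  · rw [hφ]
    simp only [c, Herm.herm_add_left, Herm.herm_add_right hF, Herm.herm_smul_left,
      Herm.herm_smul_right, Herm.herm_single_right hF, Pi.single_eq_same,
      Pi.single_eq_of_ne hne, Pi.single_eq_of_ne hne.symm]
    simp only [Pi.add_apply, Pi.smul_apply, Pi.single_eq_same, Pi.single_eq_of_ne hne,
      Pi.single_eq_of_ne hne.symm, smul_eq_mul]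
    rw [pow_succ'] at hξ
    linear_combination hξ

theorem exists_partner_mem {U : Submodule F (Fin n → F)} (hU : NDeg q U) {u : Fin n → F}
    (hu : u ∈ U) (hu0 : u ≠ 0) (huu : hm q u u = 0) : ∃ v ∈ U, Pair q u v := by
  obtain ⟨z, hz, hne⟩ := hU u hu hu0
  obtain ⟨a, b, h⟩ := exists_partner hF huu hne
  exact ⟨_, U.add_mem (U.smul_mem _ hz) (U.smul_mem _ hu), h⟩

theorem hm_sum {k : ℕ} (c c' : Fin k → F) (x x' : Fin k → Fin n → F) :
    hm q (∑ i, c i • x i) (∑ j, c' j • x' j) =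
      ∑ i, ∑ j, c i * c' j ^ q * hm q (x i) (x' j) := by
  let L : (Fin n → F) → (Fin n → F) →+ F := fun y =>
    { toFun := fun z => hm q z y, map_zero' := hm_zero_left _, map_add' := fun a b => hm_add_left a b y }
  let R : (Fin n → F) → (Fin n → F) →+ F := fun y =>
    { toFun := fun z => hm q y z, map_zero' := hm_zero_right hF _, map_add' := fun a b => hm_add_right hF y a b }
  show L _ _ = _
  rw [map_sum]
  refine Finset.sum_congr rfl fun i _ => ?_
  show R _ _ = _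
  rw [map_sum]
  refine Finset.sum_congr rfl fun j _ => ?_
  show hm q (c i • x i) (c' j • x' j) = _
  rw [hm_smul_left', hm_smul_right]; ring

/-- Witt's theorem for families, as a matrix. -/
theorem witt_family {k : ℕ} {x x' : Fin k → Fin n → F} (hx : LinearIndependent F x)
    (hx' : LinearIndependent F x') (hG : ∀ i j, hm q (x' i) (x' j) = hm q (x i) (x j)) :
    ∃ M : Matrix (Fin n) (Fin n) F, M.det * M.det ^ q = 1 ∧
      (∀ z w, hm q (M *ᵥ z) (M *ᵥ w) = hm q z w) ∧ ∀ i, M *ᵥ x i = x' i := by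
  let b := Basis.span hx
  let φ := b.constr F x'
  have hb : ∀ i, φ (b i) = x' i := fun i => b.constr_basis F x' i
  have hexp : ∀ z : Submodule.span F (Set.range x),
      (z : Fin n → F) = ∑ i, b.repr z i • x i ∧ φ z = ∑ i, b.repr z i • x' i := by
    intro z
    constructor
    · have := congrArg Subtype.val (b.sum_repr z).symm
      simpa [b, Basis.span_apply] using this
    · conv_lhs => rw [← b.sum_repr z, map_sum]
      simp [hb]
  have hiso : ∀ z w, hm q (φ z) (φ w) = hm q (z : Fin n → F) w := by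
    intro z w
    rw [(hexp z).1, (hexp z).2, (hexp w).1, (hexp w).2, hm_sum hF, hm_sum hF]
    simp only [hG]
  have hinj : Function.Injective φ := by
    rw [← LinearMap.ker_eq_bot, LinearMap.ker_eq_bot']
    intro z hz
    have h := (hexp z).2
    rw [hz] at h
    have h0 := Fintype.linearIndependent_iff.1 hx' _ h.symm
    refine b.ext_elem fun i => ?_
    rw [h0 i, map_zero, Finsupp.coe_zero, Pi.zero_apply]
  obtain ⟨g, hg, hgx⟩ := (hData hF n).witt (finrank F (Fin n → F) - finrank F _)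
    (Submodule.span F (Set.range x)) φ (Nat.add_sub_cancel' (Submodule.finrank_le _)) hinj hiso
  set M := LinearMap.toMatrix' g.toLinearMap
  have hM : ∀ z, M *ᵥ z = g z := fun z => LinearMap.toMatrix'_mulVec _ z
  have hdet : M.det ≠ 0 := by
    rw [LinearMap.det_toMatrix']; exact g.isUnit_det'.ne_zero
  refine ⟨M, ?_, fun z w => by rw [hM, hM]; exact hg z w, fun i => ?_⟩
  · rw [← pow_succ']
    exact Herm.det_norm hF (g := GeneralLinearGroup.mkOfDetNeZero M hdet)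
      (Herm.mem_GU.2 fun z w => by
        show hm q (M *ᵥ z) (M *ᵥ w) = hm q z w
        rw [hM, hM]; exact hg z w)
  · rw [hM, show x i = ((b i : Submodule.span F (Set.range x)) : Fin n → F) by simp [b, Basis.span_apply],
      hgx, hb]

variable {e f : Fin n → F} (HP : Pair q e f)
include HP

/-- An isometry fixing the pair and moving given vectors. -/
theorem witt_pair {k : ℕ} {x x' : Fin k → Fin n → F} (hxW : ∀ i, InW q e f (x i))
    (hx'W : ∀ i, InW q e f (x' i)) (hx : LinearIndependent F x) (hx' : LinearIndependent F x')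
    (hG : ∀ i j, hm q (x' i) (x' j) = hm q (x i) (x j)) :
    ∃ M : Matrix (Fin n) (Fin n) F, M.det * M.det ^ q = 1 ∧
      (∀ z w, hm q (M *ᵥ z) (M *ᵥ w) = hm q z w) ∧ M *ᵥ e = e ∧ M *ᵥ f = f ∧
      ∀ i, M *ᵥ x i = x' i := by
  have hli : ∀ y : Fin k → Fin n → F, (∀ i, InW q e f (y i)) → LinearIndependent F y →
      LinearIndependent F (Fin.cons e (Fin.cons f y) : Fin (k + 2) → Fin n → F) := by
    intro y hy hli
    refine Fintype.linearIndependent_iff.2 fun c hc => ?_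
    rw [Fin.sum_univ_succ, Fin.sum_univ_succ] at hc
    simp only [Fin.cons_zero, Fin.cons_succ] at hc
    have hsum : InW q e f (∑ i : Fin k, c i.succ.succ • y i) :=
      (WM q e f).sum_mem fun i _ => (WM q e f).smul_mem _ (hy i)
    have h0 : c 0 = 0 := by
      have h := congrArg (hm q · f) hc
      simpa [hm_add_left, hm_smul_left', HP.ef, HP.ff, hsum.2, hm_zero_left] using h
    have h1 : c (Fin.succ 0) = 0 := by
      have h := congrArg (hm q · e) hc
      simpa [hm_add_left, hm_smul_left', HP.ee, HP.fe, hsum.1, hm_zero_left] using h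
    rw [h0, h1, zero_smul, zero_smul, zero_add, zero_add] at hc
    exact Fin.cases h0 (Fin.cases h1 (Fintype.linearIndependent_iff.1 hli _ hc))
  obtain ⟨M, h1, h2, h3⟩ := witt_family hF (hli x hxW hx) (hli x' hx'W hx') (by
    refine Fin.cases (Fin.cases ?_ (Fin.cases ?_ ?_)) (Fin.cases (Fin.cases ?_ (Fin.cases ?_ ?_))
      (fun i => Fin.cases ?_ (Fin.cases ?_ ?_))) <;>
    simp [Fin.cons_succ, (hxW _).1, (hxW _).2, (hx'W _).1, (hx'W _).2, ((hxW _).swap hF).1,
      ((hxW _).swap hF).2, ((hx'W _).swap hF).1, ((hx'W _).swap hF).2, hG])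
  refine ⟨M, h1, h2, h3 0, h3 (Fin.succ 0), fun i => ?_⟩
  simpa using h3 i.succ.succ

/-- Correcting the determinant by the torus. -/
theorem fix_det {M : Matrix (Fin n) (Fin n) F} (hd : M.det * M.det ^ q = 1)
    (hiso : ∀ z w, hm q (M *ᵥ z) (M *ᵥ w) = hm q z w) (he : M *ᵥ e = e) (hf : M *ᵥ f = f) :
    ∃ (s : S n F q) (b : F), IsL q e f s b ∧
      ∀ x, InW q e f x → mat s *ᵥ x = M *ᵥ x := by
  obtain ⟨b, hb0, hb⟩ := exists_hilbert hF (d := M.det⁻¹) (by rw [inv_pow, ← mul_inv, hd, inv_one])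
  obtain ⟨N, hNd, hNi, hN⟩ := pairDil hF HP hb0
  have hne : M.det ≠ 0 := fun h => by rw [h, zero_mul] at hd; exact zero_ne_one hd
  refine ⟨⟨⟨N * M, by rw [det_mul, hNd, hb, inv_mul_cancel₀ hne]⟩, fun z w => ?_⟩, b,
    ⟨hb0, ?_, ?_⟩, fun x hx => ?_⟩
  · show hm q ((N * M) *ᵥ z) ((N * M) *ᵥ w) = _
    rw [← mulVec_mulVec, ← mulVec_mulVec, hNi, hiso]
  · show (N * M) *ᵥ e = _
    rw [← mulVec_mulVec, he, hN, HP.ee, HP.ef]; module
  · show (N * M) *ᵥ f = _
    rw [← mulVec_mulVec, hf, hN, HP.ff, HP.fe]; module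
  · show (N * M) *ᵥ x = _
    rw [← mulVec_mulVec, hN]
    have h1 : hm q (M *ᵥ x) e = 0 := by conv_lhs => rw [← he, hiso, hx.1]
    have h2 : hm q (M *ᵥ x) f = 0 := by conv_lhs => rw [← hf, hiso, hx.2]
    rw [h1, h2]; module

/-- Correcting the determinant by a quasi-reflection. -/
theorem fix_quasi {M : Matrix (Fin n) (Fin n) F} (hd : M.det * M.det ^ q = 1)
    (hiso : ∀ z w, hm q (M *ᵥ z) (M *ᵥ w) = hm q z w) (he : M *ᵥ e = e) (hf : M *ᵥ f = f)
    {w : Fin n → F} (hw : InW q e f w) (hw1 : hm q w w = 1) {a : F} (ha : a ≠ 0) :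
    ∃ s : S n F q, IsL q e f s a ∧
      ∀ x, InW q e f x → hm q (M *ᵥ x) w = 0 → mat s *ᵥ x = M *ᵥ x := by
  have hne : M.det ≠ 0 := fun h => by rw [h, zero_mul] at hd; exact zero_ne_one hd
  have hq0 : (a ^ q) ≠ 0 := pow_ne_zero _ ha
  obtain ⟨N, hNd, hNi, hN⟩ := normDil hF hw1 (l := (M.det * (a * (a ^ q)⁻¹))⁻¹) (by
    rw [inv_pow, ← mul_inv, inv_eq_one, mul_pow, mul_pow, inv_pow, Herm.conj_conj hF]
    field_simp
    linear_combination hd)
  obtain ⟨P, hPd, hPi, hP⟩ := pairDil hF HP ha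
  refine ⟨⟨⟨P * N * M, ?_⟩, fun z w => ?_⟩, ⟨ha, ?_, ?_⟩, fun x hx hxw => ?_⟩
  · rw [det_mul, det_mul, hPd, hNd]
    field_simp
  · show hm q ((P * N * M) *ᵥ z) ((P * N * M) *ᵥ w) = _
    rw [← mulVec_mulVec, ← mulVec_mulVec, ← mulVec_mulVec, ← mulVec_mulVec, hPi, hNi, hiso]
  · show (P * N * M) *ᵥ e = _
    rw [← mulVec_mulVec, ← mulVec_mulVec, he, hN, (hw.swap hF).1, mul_zero, zero_smul, add_zero, hP,
      HP.ee, HP.ef]; module
  · show (P * N * M) *ᵥ f = _
    rw [← mulVec_mulVec, ← mulVec_mulVec, hf, hN, (hw.swap hF).2, mul_zero, zero_smul, add_zero, hP,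
      HP.ff, HP.fe]; module
  · show (P * N * M) *ᵥ x = _
    rw [← mulVec_mulVec, ← mulVec_mulVec, hN, hxw, mul_zero, zero_smul, add_zero, hP]
    have h1 : hm q (M *ᵥ x) e = 0 := by conv_lhs => rw [← he, hiso, hx.1]
    have h2 : hm q (M *ᵥ x) f = 0 := by conv_lhs => rw [← hf, hiso, hx.2]
    rw [h1, h2]; module

theorem IsL.one : IsL q e f (1 : S n F q) 1 := ⟨one_ne_zero, by simp [mat_one], by simp [mat_one]⟩

theorem IsL.mul {s t : S n F q} {a b : F} (hs : IsL q e f s a) (ht : IsL q e f t b) :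
    IsL q e f (s * t) (a * b) := by
  refine ⟨mul_ne_zero hs.1 ht.1, ?_, ?_⟩
  · rw [mat_mul, ← mulVec_mulVec, ht.2.1, mulVec_smul, hs.2.1, smul_smul, mul_comm]
  · rw [mat_mul, ← mulVec_mulVec, ht.2.2, mulVec_smul, hs.2.2, smul_smul, mul_pow, mul_inv, mul_comm]

theorem IsL.inv {s : S n F q} {a : F} (hs : IsL q e f s a) : IsL q e f s⁻¹ a⁻¹ := by
  refine ⟨inv_ne_zero hs.1, ?_, ?_⟩
  · conv_rhs => rw [← mulVec_inv_cancel s e, hs.2.1, mulVec_smul, smul_smul, inv_mul_cancel₀ hs.1,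
      one_smul]
  · conv_rhs => rw [← mulVec_inv_cancel s f, hs.2.2, mulVec_smul, smul_smul, inv_pow, inv_inv,
      mul_inv_cancel₀ (pow_ne_zero _ hs.1), one_smul]

theorem IsL.mem {s : S n F q} {a : F} (hs : IsL q e f s a) {x : Fin n → F} (hx : InW q e f x) :
    InW q e f (mat s *ᵥ x) := by
  have h1 : hm q (mat s *ᵥ x) (mat s *ᵥ e) = 0 := by rw [iso, hx.1]
  have h2 : hm q (mat s *ᵥ x) (mat s *ᵥ f) = 0 := by rw [iso, hx.2]
  rw [hs.2.1, hm_smul_right] at h1
  rw [hs.2.2, hm_smul_right] at h2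
  exact ⟨(mul_eq_zero.1 h1).resolve_left (pow_ne_zero _ hs.1),
    (mul_eq_zero.1 h2).resolve_left (pow_ne_zero _ (inv_ne_zero (pow_ne_zero _ hs.1)))⟩

/-- Conjugation of a radical element. -/
theorem IsL.conj {s : S n F q} {a : F} (hs : IsL q e f s a) {x : Fin n → F} (hx : InW q e f x)
    {c : F} (hc : Cond q x c) :
    Cond q (a ^ q • (mat s *ᵥ x)) (a * a ^ q * c) ∧
      s * U hF e x c = U hF e (a ^ q • (mat s *ᵥ x)) (a * a ^ q * c) * s := by
  have hc' : Cond q (a ^ q • (mat s *ᵥ x)) (a * a ^ q * c) := by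
    unfold Cond at *
    rw [hm_smul_left', hm_smul_right, iso, mul_pow, mul_pow, Herm.conj_conj hF]
    linear_combination (a * a ^ q) * hc
  refine ⟨hc', vec_ext fun z => ?_⟩
  have hx' : InW q e f (a ^ q • (mat s *ᵥ x)) := (IsL.mem hF HP hs hx).smul _
  rw [mat_mul, mat_mul, ← mulVec_mulVec, ← mulVec_mulVec, U_mulVec hF HP hx hc,
    U_mulVec hF HP hx' hc']
  have h1 : hm q (mat s *ᵥ z) e = (a ^ q)⁻¹ * hm q z e := by
    rw [← iso s z e, hs.2.1, hm_smul_right, ← mul_assoc,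
      inv_mul_cancel₀ (pow_ne_zero _ hs.1), one_mul]
  have h2 : hm q (mat s *ᵥ z) (a ^ q • (mat s *ᵥ x)) = a * hm q z x := by
    rw [hm_smul_right, Herm.conj_conj hF, iso]
  rw [h1, h2, mulVec_add, mulVec_add, mulVec_smul, mulVec_smul, hs.2.1, smul_smul, smul_smul]
  have hq0 : a ^ q ≠ 0 := pow_ne_zero _ hs.1
  congr 1
  · rw [show (a ^ q)⁻¹ * hm q z e * a ^ q = hm q z e by field_simp]
  · congr 1
    field_simp

theorem IsL.T_conj' {s : S n F q} {a : F} (hs : IsL q e f s a) {c : F} (hc : Skew q c) :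
    Skew q (a * a ^ q * c) ∧ s * T hF e c = T hF e (a * a ^ q * c) * s := by
  obtain ⟨h1, h2⟩ := IsL.conj hF HP hs (InW.zero e f) (Cond.skew hF hc)
  rw [mulVec_zero, smul_zero] at h1 h2
  have h1' : Skew q (a * a ^ q * c) := by
    unfold Cond at h1; unfold Skew; rwa [hm_zero_left, neg_zero] at h1
  rw [U_zero_eq_T hF HP hc, U_zero_eq_T hF HP h1'] at h2
  exact ⟨h1', h2⟩

omit hF HP in
/-- The action on vectors of the annihilators. -/
noncomputable def psiL (hF : Fintype.card F = q ^ 2) (HP : Pair q e f) {s : S n F q} {a : F}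
    (hs : IsL q e f s a) (v : WM q e f) : WM q e f :=
  ⟨a⁻¹ • (mat s *ᵥ (v : Fin n → F)), (IsL.mem hF HP hs (mem_WM.1 v.2)).smul _⟩

theorem psiL_norm {s : S n F q} {a : F} (hs : IsL q e f s a) (v : WM q e f) :
    hm q (psiL hF HP hs v : Fin n → F) (psiL hF HP hs v : Fin n → F) =
      (a * a ^ q)⁻¹ * hm q (v : Fin n → F) v := by
  rw [psiL, hm_smul_left', hm_smul_right, iso, inv_pow, mul_inv]; ring

theorem psiL_injective {s : S n F q} {a : F} (hs : IsL q e f s a) :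
    Function.Injective (psiL hF HP hs) := by
  intro v w h
  have h1 := smul_right_injective _ (inv_ne_zero hs.1) (congrArg Subtype.val h)
  exact Subtype.ext (by rw [← mulVec_inv_cancel s (v : Fin n → F), h1, mulVec_inv_cancel])

variable {Ω : Type v} [MulAction (S n F q) Ω]

theorem free_smul {s : S n F q} {a : F} (hs : IsL q e f s a) {ω : Ω} (hfree : Free hF e ω) :
    Free hF e (s • ω) := by
  intro d hd h
  have hb := IsL.inv hF HP hs
  obtain ⟨h1, h2⟩ := IsL.T_conj' hF HP hb hd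
  have h3 : T hF e (a⁻¹ * a⁻¹ ^ q * d) • ω = ω := by
    have e1 := congrArg (· • (s • ω)) h2
    simp only [mul_smul, inv_smul_smul, h] at e1
    exact e1.symm
  exact (mul_eq_zero.1 (hfree _ h1 h3)).resolve_left
    (mul_ne_zero (inv_ne_zero hs.1) (pow_ne_zero _ (inv_ne_zero hs.1)))

theorem mem_Wst_smul {s : S n F q} {a : F} (hs : IsL q e f s a) {ω : Ω} {w : WM q e f}
    (hw : w ∈ Wst hF HP ω) :
    (⟨a ^ q • (mat s *ᵥ (w : Fin n → F)), (IsL.mem hF HP hs (mem_WM.1 w.2)).smul _⟩ : WM q e f) ∈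
      Wst hF HP (s • ω) := by
  obtain ⟨c, hc, h⟩ := hw
  obtain ⟨h1, h2⟩ := IsL.conj hF HP hs (mem_WM.1 w.2) hc
  exact ⟨_, h1, by rw [← mul_smul, ← h2, mul_smul, h]⟩

theorem Ann_smul {s : S n F q} {a : F} (hs : IsL q e f s a) (ω : Ω) :
    Ann hF HP (s • ω) = (Ann hF HP ω).image (psiL hF HP hs) := by
  have key : ∀ {s : S n F q} {a : F} (hs : IsL q e f s a) (ω : Ω), ∀ v ∈ Ann hF HP ω,
      psiL hF HP hs v ∈ Ann hF HP (s • ω) := by
    intro s a hs ω v hv
    refine (mem_Ann hF).2 fun w' hw' => ?_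
    have hw := mem_Wst_smul hF HP (IsL.inv hF HP hs) hw'
    simp only [inv_smul_smul] at hw
    have h := (mem_Ann hF).1 hv _ hw
    rw [kap_apply] at h ⊢
    simp only [psiL] at *
    convert h using 2
    have e1 : ∀ x y : Fin n → F, hm q (mat s⁻¹ *ᵥ x) y = hm q x (mat s *ᵥ y) := fun x y => by
      rw [← iso s (mat s⁻¹ *ᵥ x) y, mulVec_mulVec, ← mat_mul, mul_inv_cancel, mat_one, one_mulVec]
    have e2 : ∀ x y : Fin n → F, hm q y (mat s⁻¹ *ᵥ x) = hm q (mat s *ᵥ y) x := fun x y => by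
      rw [hm_swap hF (mat s⁻¹ *ᵥ x) y, e1, ← hm_swap hF]
    simp only [hm_smul_left', hm_smul_right, e1, e2, inv_pow, Herm.conj_conj hF]
  refine Finset.Subset.antisymm (fun v hv => ?_) (Finset.image_subset_iff.2 (key hs ω))
  have h := key (IsL.inv hF HP hs) _ v hv
  rw [inv_smul_smul] at h
  refine Finset.mem_image.2 ⟨_, h, Subtype.ext ?_⟩
  simp only [psiL]
  rw [mulVec_smul, smul_smul, inv_inv, inv_mul_cancel₀ hs.1, one_smul, mulVec_mulVec, ← mat_mul,
    mul_inv_cancel, mat_one, one_mulVec]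

end Cfsg.Agent.Lib.MinIndexSU
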