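import Cfsg.Agent.Lib.MinIndexSU.RegularCount

/-!
Rich points over fields whose fixed field has at least three elements.
-/

set_option autoImplicit false

namespace Cfsg.Agent.Lib.MinIndexSU

open Matrix Module Cfsg.Agent.Lib.Forms Cfsg.Agent.Lib.Classical Cfsg.Agent.Lib.AutPSU

universe u v

attribute [local instance] _root_.Classical.propDecidable

variable {n m : ℕ} {F : Type u} [Field F] [Fintype F] {q : ℕ}
variable (hF : Fintype.card F = q ^ 2)
include hF

theorem exists_fixed_two (hq : 3 ≤ q) : ∃ a : F, a ^ q = a ∧ a ≠ 0 ∧ a ≠ 1 := by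
  have h := Herm.card_fixed hF
  rw [Nat.card_eq_fintype_card, Fintype.card_subtype] at h
  obtain ⟨a, ha, ha'⟩ := Finset.exists_mem_notMem_of_card_lt_card (s := ({0, 1} : Finset F))
    (t := Finset.univ.filter fun a : F => a ^ q = a)
    (lt_of_le_of_lt Finset.card_le_two (lt_of_lt_of_eq (show 2 < q by omega) h.symm))
  simp only [Finset.mem_insert, Finset.mem_singleton, not_or] at ha'
  exact ⟨a, (Finset.mem_filter.1 ha).2, ha'.1, ha'.2⟩

variable {e f : Fin n → F} (HP : Pair q e f)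
include HP

/-- The real torus element of the pair. -/
theorem exists_central {a0 : F} (h0 : a0 ≠ 0) (hreal : a0 ^ q = a0) :
    ∃ δ : S n F q, IsL q e f δ a0 ∧ (∀ x, InW q e f x → mat δ *ᵥ x = x) ∧
      ∀ (s : S n F q) (a : F), IsL q e f s a → δ * s = s * δ := by
  obtain ⟨M, hd, hi, hM⟩ := pairDil hF HP h0
  rw [hreal] at hd hM
  refine ⟨⟨⟨M, by rw [hd, mul_inv_cancel₀ h0]⟩, hi⟩, ⟨h0, ?_, ?_⟩, fun x hx => ?_,
    fun s a hs => vec_ext fun z => ?_⟩
  · show M *ᵥ e = _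
    rw [hM, HP.ee, HP.ef]; module
  · show M *ᵥ f = _
    rw [hM, HP.ff, HP.fe, hreal]; module
  · show M *ᵥ x = _
    rw [hM, hx.1, hx.2]; module
  · rw [mat_mul, mat_mul, ← mulVec_mulVec, ← mulVec_mulVec]
    show M *ᵥ (mat s *ᵥ z) = mat s *ᵥ (M *ᵥ z)
    have h1 : hm q (mat s *ᵥ z) e = (a ^ q)⁻¹ * hm q z e := by
      rw [← iso s z e, hs.2.1, hm_smul_right, ← mul_assoc,
        inv_mul_cancel₀ (pow_ne_zero _ hs.1), one_mul]
    have h2 : hm q (mat s *ᵥ z) f = a * hm q z f := by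
      rw [← iso s z f, hs.2.2, hm_smul_right, inv_pow, Herm.conj_conj hF, ← mul_assoc,
        mul_inv_cancel₀ hs.1, one_mul]
    rw [hM, hM, mulVec_add, mulVec_add, mulVec_smul, mulVec_smul, hs.2.1, hs.2.2, h1, h2]
    module

variable {Ω : Type v} [MulAction (S n F q) Ω]

theorem exists_all_lin (hq : 3 ≤ q) {ω : Ω} (hreg : Reg (n := n) hF Ω) (hω : Free hF e ω) :
    ∃ ω' ∈ orb hF e f ω, Free hF e ω' ∧
      ∀ (s : S n F q) (a : F), IsL q e f s a → Lin hF e ω' s := by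
  obtain ⟨a0, hreal, h0, h1⟩ := exists_fixed_two hF hq
  obtain ⟨δ, hδ, hW, hcomm⟩ := exists_central hF HP h0 hreal
  have hfpf : ∀ x : WM q e f, a0 ^ q • (mat δ *ᵥ (x : Fin n → F)) = (x : Fin n → F) → x = 0 := by
    intro x hx
    rw [hW _ (mem_WM.1 x.2), hreal] at hx
    by_contra hne
    have h2 : (a0 - 1) • (x : Fin n → F) = 0 := by rw [sub_smul, one_smul, hx, sub_self]
    rcases smul_eq_zero.1 h2 with h | h
    · exact h1 (sub_eq_zero.1 h)
    · exact hne (Subtype.ext h)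
  obtain ⟨ω', hω', hlin⟩ := exists_shift hF HP hreg hω hδ hfpf
  have hf' := free_orb hF HP hω hω'
  exact ⟨ω', hω', hf', fun s a hs =>
    lin_of_commute hF HP hreg hf' hδ hs hlin (hcomm s a hs) hfpf⟩

omit HP in
theorem hasNorm_big (hn : n = m + 2) (hm3 : 3 ≤ m) (hq : 3 ≤ q) (hreg : Reg (n := n) hF Ω) :
    HasNorm (n := n) hF Ω := by
  intro e f HP ω hω
  obtain ⟨ω', hω', hf', hlin⟩ := exists_all_lin hF HP hq hreg hω
  refine ⟨ω', hω', hf', fun u huu s hs => hlin _ _ (isL_T hF HP (mem_WM.1 u.2) huu hs),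
    fun u u' h => ?_⟩
  rcases h with ⟨hu, hu'⟩ | ⟨hu, hu'⟩
  · obtain ⟨s, hs, h⟩ := trans_iso hF HP hn hm3 hu hu'
    refine ⟨s, 1, hs, hlin _ _ hs, ?_⟩
    rw [← congrArg Subtype.val h]
    simp [psiL]
  · have hu0 := mem_anV.1 hu
    have hu0' := mem_anV.1 hu'
    set μ := hm q (u : Fin n → F) u / hm q (u' : Fin n → F) u' with hμ
    have hμ0 : μ ≠ 0 := div_ne_zero hu0 hu0'
    have hμq : μ ^ q = μ := by rw [hμ, div_pow, AutPSU.hm_self_fixed hF, AutPSU.hm_self_fixed hF]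
    have hm' : μ • u' ∈ anV q e f := mem_anV.2 (by
      rw [Submodule.coe_smul, hm_smul_left', hm_smul_right]
      exact mul_ne_zero hμ0 (mul_ne_zero (pow_ne_zero _ hμ0) hu0'))
    obtain ⟨s, a, hs, h⟩ := trans_an hF HP hn (by omega) hu hm'
    refine ⟨s, a, hs, hlin _ _ hs, ?_⟩
    have hn' := psiL_norm hF HP hs u
    rw [h, Submodule.coe_smul, hm_smul_left', hm_smul_right, hμq] at hn'
    have hh : μ * hm q (u' : Fin n → F) u' = hm q (u : Fin n → F) u := div_mul_cancel₀ _ hu0'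
    rw [hh] at hn'
    have hμa : μ = (a * a ^ q)⁻¹ := mul_right_cancel₀ hu0 hn'
    have h3 := congrArg Subtype.val h
    simp only [psiL, Submodule.coe_smul] at h3
    have hsu : mat s *ᵥ (u : Fin n → F) = (a * μ) • (u' : Fin n → F) := by
      rw [← smul_smul, ← h3, smul_smul, mul_inv_cancel₀ hs.1, one_smul]
    rw [hsu, smul_smul, show a ^ q * (a * μ) = 1 by
      rw [hμa]; field_simp [hs.1, pow_ne_zero q hs.1], one_smul]

end Cfsg.Agent.Lib.MinIndexSU
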