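import Cfsg.Agent.Lib.MinIndexSU.RegularCount
import Cfsg.Agent.Lib.MinIndexSU.Diag

/-!
Rich points over the field with four elements.
-/

set_option autoImplicit false

namespace Cfsg.Agent.Lib.MinIndexSU

open Matrix Module Cfsg.Agent.Lib.Forms Cfsg.Agent.Lib.Classical Cfsg.Agent.Lib.AutPSU

universe u v

attribute [local instance] _root_.Classical.propDecidable

variable {n m : ℕ} {F : Type u} [Field F] [Fintype F] {q : ℕ}
variable (hF : Fintype.card F = q ^ 2)
include hF

theorem two_eq_zero (h2 : q = 2) : (2 : F) = 0 := by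
  have h := Nat.cast_card_eq_zero F
  rw [hF, h2, Nat.cast_pow, Nat.cast_ofNat] at h
  exact pow_eq_zero_iff (two_ne_zero) |>.1 h

theorem norm_two (h2 : q = 2) {c : F} (hc : c ≠ 0) : c * c ^ q = 1 := by
  have h := FiniteField.pow_card_sub_one_eq_one c hc
  rw [hF, h2] at h
  rw [h2, ← pow_succ']
  exact h

theorem exists_theta (h2 : q = 2) : ∃ θ : F, θ ≠ 0 ∧ θ ≠ 1 ∧ θ ^ 3 = 1 := by
  obtain ⟨θ, -, hθ⟩ := Finset.exists_mem_notMem_of_card_lt_card (s := ({0, 1} : Finset F))
    (t := Finset.univ) (lt_of_le_of_lt Finset.card_le_two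
      (by rw [Finset.card_univ, hF, h2]; norm_num))
  simp only [Finset.mem_insert, Finset.mem_singleton, not_or] at hθ
  refine ⟨θ, hθ.1, hθ.2, ?_⟩
  have h := norm_two hF h2 hθ.1
  rwa [h2, ← pow_succ'] at h

variable {e f : Fin n → F} (HP : Pair q e f) {b : Fin m → Fin n → F} (hb : OrthB q e f b)
include HP hb

/-- Fixed-point-free diagonal elements constant on a triple. -/
theorem exists_delta (h2 : q = 2) (hex : Odd m ∨ 6 ≤ m) {T : Finset (Fin m)} (hT : T.card = 3) :
    ∃ (θ : F) (d : Fin m → F) (δ : S n F q), (∀ i ∈ T, d i = θ) ∧ (∀ i, d i ≠ 1) ∧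
      IsL q e f δ 1 ∧ ∀ z, mat δ *ᵥ z = z + ∑ i, ((d i - 1) * hm q z (b i)) • b i := by
  obtain ⟨θ, h0, h1, h3⟩ := exists_theta hF h2
  have hle := Finset.card_le_univ T
  rw [hT, Fintype.card_fin] at hle
  obtain ⟨a, r, K, hc, hK⟩ : ∃ a r K, m = 3 + (a + r) ∧ 3 + a + 2 * r = 3 * K := by
    rcases Nat.even_or_odd' m with ⟨j, hj | hj⟩
    · have hj3 : 3 ≤ j := by
        rcases hex with h | h
        · obtain ⟨k, hk⟩ := h; omega
        · omega
      exact ⟨j - 3, j, j, by omega, by omega⟩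
    · exact ⟨j - 1, j - 1, j, by omega, by omega⟩
  have hTc : Tᶜ.card = a + r := by rw [Finset.card_compl, hT, Fintype.card_fin]; omega
  obtain ⟨A, hA, hAc⟩ := Finset.exists_subset_card_eq (s := Tᶜ) (n := a) (by omega)
  set d : Fin m → F := fun i => if i ∈ T ∨ i ∈ A then θ else θ ^ 2 with hd
  have h21 : θ ^ 2 ≠ 1 := fun h => h1 (by
    have : θ ^ 3 = θ := by rw [pow_succ', h, mul_one]
    exact this.symm.trans h3)
  have hd1 : ∀ i, d i ≠ 1 := fun i => by rw [hd]; dsimp only; split_ifs <;> assumption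
  have hd0 : ∀ i, d i ≠ 0 := fun i => by
    rw [hd]; dsimp only; split_ifs
    exacts [h0, pow_ne_zero _ h0]
  have hprod : ∏ i, d i = 1 := by
    rw [← Finset.prod_mul_prod_compl T, ← Finset.prod_sdiff hA,
      Finset.prod_congr rfl (g := fun _ => θ) fun i hi => by simp [hd, hi],
      Finset.prod_congr rfl (g := fun _ => θ ^ 2) (s₁ := Tᶜ \ A) fun i hi => by
        obtain ⟨hi1, hi2⟩ := Finset.mem_sdiff.1 hi
        simp [hd, hi2, Finset.mem_compl.1 hi1],
      Finset.prod_congr rfl (g := fun _ => θ) (s₁ := A) fun i hi => by simp [hd, hi],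
      Finset.prod_const, Finset.prod_const, Finset.prod_const, Finset.card_sdiff_of_subset hA, hT,
      hAc, hTc, show a + r - a = r by omega, ← pow_mul, ← pow_add, ← pow_add,
      show 3 + (2 * r + a) = 3 * K by omega, pow_mul, h3, one_pow]
  obtain ⟨δ, hδ, hδz⟩ := exists_diag_S hF HP hb d (fun i => norm_two hF h2 (hd0 i)) hprod
  exact ⟨θ, d, δ, fun i hi => by simp [hd, hi], hd1, hδ, hδz⟩

variable {Ω : Type v} [MulAction (S n F q) Ω]

/-- Every element supported on three vectors is lifted. -/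
def Triples (hF : Fintype.card F = q ^ 2) (e f : Fin n → F) (b : Fin m → Fin n → F) (ω : Ω) : Prop :=
  ∀ (T : Finset (Fin m)), T.card = 3 → ∀ g : S n F q, IsL q e f g 1 →
    (∀ l ∉ T, mat g *ᵥ b l = b l) → Lin hF e ω g

theorem exists_triples (hm3 : 3 ≤ m) (h2 : q = 2) (hex : Odd m ∨ 6 ≤ m) {ω : Ω}
    (hreg : Reg (n := n) hF Ω) (hω : Free hF e ω) :
    ∃ ω' ∈ orb hF e f ω, Free hF e ω' ∧ Triples hF e f b ω' := by
  obtain ⟨T0, -, hT0⟩ := Finset.exists_subset_card_eq (s := (Finset.univ : Finset (Fin m))) (n := 3)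
    (by rw [Finset.card_univ, Fintype.card_fin]; exact hm3)
  obtain ⟨θ, d, δ, -, hd1, hδ, hδz⟩ := exists_delta hF HP hb h2 hex hT0
  have hfpf := diag_fpf hb hd1 hδz
  obtain ⟨ω', hω', hlin⟩ := exists_shift hF HP hreg hω hδ hfpf
  have hf' := free_orb hF HP hω hω'
  refine ⟨ω', hω', hf', fun T hT g hg hfix => ?_⟩
  obtain ⟨θ', d', δ', hdT, hd1', hδ', hδz'⟩ := exists_delta hF HP hb h2 hex hT
  have hlin' := lin_of_commute hF HP hreg hf' hδ hδ' hlin (diag_comm hb hδz hδz') hfpf
  exact lin_of_commute hF HP hreg hf' hδ' hg hlin'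
    (diag_comm_supp hF HP hb hdT hδz' hg hfix) (diag_fpf hb hd1' hδz')

omit hb in
/-- Joined by a lifted element. -/
def Rel (hF : Fintype.card F = q ^ 2) (e f : Fin n → F) (ω : Ω) (u u' : Fin n → F) : Prop :=
  ∃ g : S n F q, IsL q e f g 1 ∧ Lin hF e ω g ∧ mat g *ᵥ u = u'

omit hb in
theorem Rel.symm {ω : Ω} {u u' : Fin n → F} (h : Rel hF e f ω u u') : Rel hF e f ω u' u := by
  obtain ⟨g, hg, hl, rfl⟩ := h
  refine ⟨g⁻¹, ?_, Lin.inv' hF HP hg hl, mulVec_inv_cancel g u⟩
  simpa using IsL.inv hF HP hg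

omit hb in
theorem Rel.trans {ω : Ω} {u u' u'' : Fin n → F} (h : Rel hF e f ω u u')
    (h' : Rel hF e f ω u' u'') : Rel hF e f ω u u'' := by
  obtain ⟨g, hg, hl, rfl⟩ := h
  obtain ⟨g', hg', hl', rfl⟩ := h'
  refine ⟨g' * g, ?_, Lin.mul' hF HP hg' hl' hl, by rw [mat_mul, mulVec_mulVec]⟩
  simpa using IsL.mul hF HP hg' hg

/-- Moving vectors supported on a triple. -/
theorem exists_move {T : Finset (Fin m)} {k : Fin m} (hk : k ∈ T) {u u' : Fin n → F}
    (hu : InW q e f u) (hu' : InW q e f u') (hu0 : u ≠ 0) (hu0' : u' ≠ 0)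
    (hsu : ∀ l ∉ T, hm q u (b l) = 0) (hsu' : ∀ l ∉ T, hm q u' (b l) = 0)
    (hk' : hm q u' (b k) = 0) (hn : hm q u' u' = hm q u u) :
    ∃ g : S n F q, IsL q e f g 1 ∧ (∀ l ∉ T, mat g *ᵥ b l = b l) ∧ mat g *ᵥ u = u' := by
  let c : Fin Tᶜ.card → Fin m := fun i => (Tᶜ.equivFin.symm i : Fin m)
  have hcT : ∀ i, c i ∉ T := fun i => Finset.mem_compl.1 (Tᶜ.equivFin.symm i).2
  have hcinj : ∀ i j, c i = c j → i = j := fun i j h =>
    Tᶜ.equivFin.symm.injective (Subtype.ext h)
  have hli : ∀ x : Fin n → F, x ≠ 0 → (∀ l ∉ T, hm q x (b l) = 0) →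
      LinearIndependent F (Fin.cons x (fun i => b (c i)) : Fin (Tᶜ.card + 1) → Fin n → F) := by
    intro x hx hxs
    refine Fintype.linearIndependent_iff.2 fun co hco => ?_
    rw [Fin.sum_univ_succ] at hco
    simp only [Fin.cons_zero, Fin.cons_succ] at hco
    have hs : ∀ j, co (Fin.succ j) = 0 := fun j => by
      have h := congrArg (hm q · (b (c j))) hco
      simp only [hm_add_left, hm_smul_left', hxs _ (hcT j), mul_zero, zero_add, hm_zero_left,
        hm_sum_left, hb.orth] at h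
      rw [Finset.sum_eq_single j (fun i _ hij => by rw [if_neg (fun e => hij (hcinj i j e)), mul_zero])
        (fun hh => absurd (Finset.mem_univ j) hh), if_pos rfl, mul_one] at h
      exact h
    rw [Finset.sum_eq_zero fun j _ => by rw [hs j, zero_smul], add_zero] at hco
    exact Fin.cases ((smul_eq_zero.1 hco).resolve_right hx) hs
  obtain ⟨M, hd, hi, hMe, hMf, hM⟩ := witt_pair hF HP
    (x := (Fin.cons u (fun i => b (c i)) : Fin (Tᶜ.card + 1) → Fin n → F))
    (x' := (Fin.cons u' (fun i => b (c i)) : Fin (Tᶜ.card + 1) → Fin n → F))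
    (Fin.cases hu fun i => hb.mem _) (Fin.cases hu' fun i => hb.mem _) (hli u hu0 hsu)
    (hli u' hu0' hsu') (by
      refine Fin.cases (Fin.cases ?_ fun j => ?_) fun i => Fin.cases ?_ fun j => ?_
      · simpa using hn
      · simp [hsu _ (hcT j), hsu' _ (hcT j)]
      · simp [hm_comm_zero hF (hsu _ (hcT i)), hm_comm_zero hF (hsu' _ (hcT i))]
      · simp)
  obtain ⟨g, hg, hgx⟩ := fix_quasi hF HP hd hi hMe hMf (hb.mem k) (hb.self k) one_ne_zero
  have hMu : M *ᵥ u = u' := by simpa using hM 0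
  refine ⟨g, hg, fun l hl => ?_, by rw [hgx u hu (by rw [hMu, hk']), hMu]⟩
  have hMl : M *ᵥ b l = b l := by
    obtain ⟨i, hi⟩ : ∃ i, c i = l := ⟨Tᶜ.equivFin ⟨l, Finset.mem_compl.2 hl⟩, by simp [c]⟩
    simpa [hi] using hM i.succ
  rw [hgx _ (hb.mem l) (by rw [hMl, hb.orth, if_neg]; rintro rfl; exact hl hk), hMl]

theorem rel_move {ω : Ω} (htr : Triples hF e f b ω) {T : Finset (Fin m)} (hT : T.card = 3)
    {k : Fin m} (hk : k ∈ T) {u u' : Fin n → F}
    (hu : InW q e f u) (hu' : InW q e f u') (hu0 : u ≠ 0) (hu0' : u' ≠ 0)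
    (hsu : ∀ l ∉ T, hm q u (b l) = 0) (hsu' : ∀ l ∉ T, hm q u' (b l) = 0)
    (hk' : hm q u' (b k) = 0) (hn : hm q u' u' = hm q u u) : Rel hF e f ω u u' := by
  obtain ⟨g, hg, hfix, hgu⟩ := exists_move hF HP hb hk hu hu' hu0 hu0' hsu hsu' hk' hn
  exact ⟨g, hg, htr T hT g hg hfix, hgu⟩

theorem norm_supp (h2 : q = 2) {u : Fin n → F} (hu : InW q e f u) :
    hm q u u = ((Finset.univ.filter fun i => hm q u (b i) ≠ 0).card : F) := by
  nth_rewrite 1 [hb.expand u hu]
  rw [hm_sum_left]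
  rw [Finset.card_filter, Nat.cast_sum]
  refine Finset.sum_congr rfl fun i _ => ?_
  rw [hm_smul_left', hm_swap hF u (b i)]
  rcases eq_or_ne (hm q u (b i)) 0 with h | h
  · simp [h]
  · rw [norm_two hF h2 h, if_pos h, Nat.cast_one]

theorem add_pair_facts (h2 : q = 2) {i j : Fin m} (hij : i ≠ j) :
    InW q e f (b i + b j) ∧ b i + b j ≠ 0 ∧ hm q (b i + b j) (b i + b j) = 0 ∧
      ∀ l, l ≠ i → l ≠ j → hm q (b i + b j) (b l) = 0 := by
  refine ⟨(hb.mem i).add (hb.mem j), fun h => ?_, ?_, fun l hli hlj => ?_⟩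
  · have := congrArg (hm q · (b i)) h
    simp [hm_add_left, hb.orth, hij.symm, hm_zero_left] at this
  · simp only [hm_add_left, hm_add_right hF, hb.orth, if_neg hij, if_neg hij.symm, if_true]
    linear_combination two_eq_zero hF h2
  · simp [hm_add_left, hb.orth, hli.symm, hlj.symm]

/-- Every vector is joined to a standard one. -/
theorem rel_std (hm3 : 3 ≤ m) (h2 : q = 2) {ω : Ω} (htr : Triples hF e f b ω) {i0 i1 : Fin m}
    (h01 : i0 ≠ i1) : ∀ (N : ℕ) (u : Fin n → F), InW q e f u → u ≠ 0 →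
      (Finset.univ.filter fun i => hm q u (b i) ≠ 0).card ≤ N →
      (hm q u u = 1 → Rel hF e f ω u (b i0)) ∧
      (hm q u u = 0 → Rel hF e f ω u (b i0 + b i1)) := by
  intro N
  induction N using Nat.strong_induction_on with
  | _ N ih =>
  intro u hu hu0 hN
  set A := Finset.univ.filter fun i => hm q u (b i) ≠ 0 with hA
  have hnorm := norm_supp hF HP hb h2 hu
  rw [← hA] at hnorm
  have hout : ∀ l ∉ A, hm q u (b l) = 0 := fun l hl =>
    by_contra fun h => hl (Finset.mem_filter.2 ⟨Finset.mem_univ _, h⟩)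
  have hcardm : (Finset.univ : Finset (Fin m)).card = m := Finset.card_fin m
  by_cases h3 : 3 ≤ A.card
  · obtain ⟨T, hTA, hT⟩ := Finset.exists_subset_card_eq h3
    obtain ⟨i, hi⟩ := Finset.card_pos.1 (show 0 < T.card by omega)
    obtain ⟨k, hk, hki⟩ := Finset.exists_mem_ne (show 1 < T.card by omega) i
    set v := ∑ l ∈ T, hm q u (b l) • b l with hv
    have hvW : InW q e f v := (WM q e f).sum_mem fun l _ => (WM q e f).smul_mem _ (hb.mem l)
    have hvc : ∀ l, hm q v (b l) = if l ∈ T then hm q u (b l) else 0 := fun l =>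
      hb.coef T (fun l => hm q u (b l)) l
    have hvsupp : (Finset.univ.filter fun l => hm q v (b l) ≠ 0) = T := by
      ext l
      by_cases hl : l ∈ T
      · simp [hvc, hl, (Finset.mem_filter.1 (hTA hl)).2]
      · simp [hvc, hl]
    have hv1 : hm q v v = 1 := by
      rw [norm_supp hF HP hb h2 hvW, hvsupp, hT]
      have := two_eq_zero hF h2
      push_cast
      linear_combination this
    have hv0 : v ≠ 0 := fun h => by rw [h, hm_zero_left] at hv1; exact zero_ne_one hv1
    obtain ⟨g, hg, hfix, hgv⟩ := exists_move hF HP hb hk (u := v) (u' := b i) hvW (hb.mem i) hv0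
      (fun h => by have := hb.self i; rw [h, hm_zero_left] at this; exact zero_ne_one this)
      (fun l hl => by rw [hvc, if_neg hl])
      (fun l hl => by rw [hb.orth, if_neg]; rintro rfl; exact hl hi)
      (by rw [hb.orth, if_neg hki.symm]) (by rw [hb.self, hv1])
    set u1 := mat g *ᵥ u with hu1
    have hu1W : InW q e f u1 := IsL.mem hF HP hg hu
    have hu1c : ∀ l ∉ T, hm q u1 (b l) = hm q u (b l) := fun l hl => by
      conv_lhs => rw [← hfix l hl, hu1, iso]
    have hu1T : ∀ l ∈ T, l ≠ i → hm q u1 (b l) = 0 := fun l hl hli => by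
      have hd : u = v + ∑ j ∈ Tᶜ, hm q u (b j) • b j := by
        rw [hv, Finset.sum_add_sum_compl]; exact hb.expand u hu
      have hd1 : u1 = b i + ∑ j ∈ Tᶜ, hm q u (b j) • b j := by
        rw [hu1]
        conv_lhs => rw [hd]
        rw [mulVec_add, hgv, mulVec_sum]
        congr 1
        exact Finset.sum_congr rfl fun j hj => by rw [mulVec_smul, hfix j (Finset.mem_compl.1 hj)]
      rw [hd1, hm_add_left, hb.orth, if_neg hli.symm, hb.coef,
        if_neg (fun h => Finset.mem_compl.1 h hl), add_zero]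
    have hsub : (Finset.univ.filter fun l => hm q u1 (b l) ≠ 0) ⊆ A \ T ∪ {i} := by
      intro l hl
      have hl' := (Finset.mem_filter.1 hl).2
      by_cases hlT : l ∈ T
      · refine Finset.mem_union_right _ (Finset.mem_singleton.2 ?_)
        by_contra hli
        exact hl' (hu1T l hlT hli)
      · refine Finset.mem_union_left _ (Finset.mem_sdiff.2 ⟨?_, hlT⟩)
        rw [hu1c l hlT] at hl'
        exact Finset.mem_filter.2 ⟨Finset.mem_univ _, hl'⟩
    have hlt : (Finset.univ.filter fun l => hm q u1 (b l) ≠ 0).card < N := by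
      refine lt_of_le_of_lt ((Finset.card_le_card hsub).trans (Finset.card_union_le _ _)) ?_
      rw [Finset.card_singleton, Finset.card_sdiff_of_subset hTA]
      omega
    have hrel : Rel hF e f ω u u1 := ⟨g, hg, htr T hT g hg hfix, rfl⟩
    obtain ⟨r1, r2⟩ := ih _ hlt u1 hu1W (mulVec_ne_zero g hu0) le_rfl
    have hnu : hm q u1 u1 = hm q u u := iso g u u
    rw [hnu] at r1 r2
    exact ⟨fun h => Rel.trans hF HP hrel (r1 h), fun h => Rel.trans hF HP hrel (r2 h)⟩
  -- at most two vectors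
  have hA0 : A.Nonempty := by
    rw [Finset.nonempty_iff_ne_empty]
    intro h
    refine hu0 ((hb.expand u hu).trans (Finset.sum_eq_zero fun l _ => ?_))
    rw [hout l (by rw [h]; exact Finset.notMem_empty l), zero_smul]
  have hpos := Finset.card_pos.2 hA0
  rcases (show A.card = 1 ∨ A.card = 2 by omega) with hc | hc
  · rw [hc, Nat.cast_one] at hnorm
    refine ⟨fun _ => ?_, fun h => absurd (hnorm.symm.trans h) one_ne_zero⟩
    obtain ⟨T, hTA, -, hT⟩ := Finset.exists_subsuperset_card_eq (Finset.subset_univ (A ∪ {i0}))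
      (show (A ∪ {i0}).card ≤ 3 from (Finset.card_union_le _ _).trans (by rw [Finset.card_singleton]; omega))
      (by rw [hcardm]; exact hm3)
    obtain ⟨k, hk, hki⟩ := Finset.exists_mem_ne (show 1 < T.card by omega) i0
    exact rel_move hF HP hb htr hT hk hu (hb.mem i0) hu0
      (fun h => by have := hb.self i0; rw [h, hm_zero_left] at this; exact zero_ne_one this)
      (fun l hl => hout l fun h => hl (hTA (Finset.mem_union_left _ h)))
      (fun l hl => by
        rw [hb.orth, if_neg]; rintro rfl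
        exact hl (hTA (Finset.mem_union_right _ (Finset.mem_singleton_self _))))
      (by rw [hb.orth, if_neg hki.symm]) (by rw [hb.self, hnorm])
  · have h0 : hm q u u = 0 := by
      rw [hnorm, hc]; exact_mod_cast two_eq_zero hF h2
    refine ⟨fun h => absurd (h0.symm.trans h) zero_ne_one, fun _ => ?_⟩
    obtain ⟨T, hTA, -, hT⟩ := Finset.exists_subsuperset_card_eq (Finset.subset_univ (A ∪ {i0}))
      (show (A ∪ {i0}).card ≤ 3 from (Finset.card_union_le _ _).trans (by rw [Finset.card_singleton]; omega))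
      (by rw [hcardm]; exact hm3)
    have hi0 : i0 ∈ T := hTA (Finset.mem_union_right _ (Finset.mem_singleton_self _))
    obtain ⟨x, hx, hxi⟩ := Finset.exists_mem_ne (show 1 < T.card by omega) i0
    obtain ⟨k, hk, hk'⟩ := Finset.exists_mem_notMem_of_card_lt_card (s := ({i0, x} : Finset (Fin m)))
      (t := T) (lt_of_le_of_lt Finset.card_le_two (by omega))
    simp only [Finset.mem_insert, Finset.mem_singleton, not_or] at hk'
    obtain ⟨hpW, hp0, hpp, hpo⟩ := add_pair_facts hF HP hb h2 hxi.symm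
    have step1 := rel_move hF HP hb htr hT hk hu hpW hu0 hp0
      (fun l hl => hout l fun h => hl (hTA (Finset.mem_union_left _ h)))
      (fun l hl => hpo l (fun h => hl (h ▸ hi0)) (fun h => hl (h ▸ hx)))
      (hpo k hk'.1 hk'.2) (by rw [hpp, h0])
    refine Rel.trans hF HP step1 ?_
    obtain ⟨T', hTA', -, hT'⟩ := Finset.exists_subsuperset_card_eq
      (Finset.subset_univ ({i0, x, i1} : Finset (Fin m))) Finset.card_le_three (by rw [hcardm]; exact hm3)
    obtain ⟨k', hk2, hk2'⟩ := Finset.exists_mem_notMem_of_card_lt_card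
      (s := ({i0, i1} : Finset (Fin m))) (t := T') (lt_of_le_of_lt Finset.card_le_two (by omega))
    simp only [Finset.mem_insert, Finset.mem_singleton, not_or] at hk2'
    obtain ⟨hqW, hq0, hqq, hqo⟩ := add_pair_facts hF HP hb h2 h01
    exact rel_move hF HP hb htr hT' hk2 hpW hqW hp0 hq0
      (fun l hl => hpo l (fun h => hl (hTA' (by simp [h]))) (fun h => hl (hTA' (by simp [h]))))
      (fun l hl => hqo l (fun h => hl (hTA' (by simp [h]))) (fun h => hl (hTA' (by simp [h]))))
      (hqo k' hk2'.1 hk2'.2) (by rw [hpp, hqq])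

omit HP hb in
theorem hasNorm_two (hn : n = m + 2) (hm3 : 3 ≤ m) (h2 : q = 2) (hex : Odd m ∨ 6 ≤ m)
    (hreg : Reg (n := n) hF Ω) : HasNorm (n := n) hF Ω := by
  intro e f HP ω hω
  obtain ⟨b, hb⟩ := exists_orthB hF hn HP
  obtain ⟨ω', hω', hf', htr⟩ := exists_triples hF HP hb hm3 h2 hex hreg hω
  set i0 : Fin m := ⟨0, by omega⟩
  set i1 : Fin m := ⟨1, by omega⟩
  have h01 : i0 ≠ i1 := fun h => by simpa [i0, i1] using congrArg Fin.val h
  have hiso : ∀ u : WM q e f, u ≠ 0 → hm q (u : Fin n → F) u = 0 →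
      Rel hF e f ω' (u : Fin n → F) (b i0 + b i1) := fun u hu huu =>
    (rel_std hF HP hb hm3 h2 htr h01 _ _ (mem_WM.1 u.2) (fun h => hu (Subtype.ext h)) le_rfl).2 huu
  refine ⟨ω', hω', hf', fun u huu s hs => ?_, fun u u' h => ?_⟩
  · rcases eq_or_ne u 0 with rfl | hu0
    · refine ⟨0, Skew.zero hF, ?_⟩
      have e1 : T hF ((0 : WM q e f) : Fin n → F) s = 1 := vec_ext fun x => by
        rw [T_mulVec hF huu hs, Submodule.coe_zero, smul_zero, add_zero, mat_one, one_mulVec]
      rw [e1, T_zero hF HP.ee, one_smul, one_smul]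
    obtain ⟨g, hg, hl, hgu⟩ := hiso u hu0 huu
    obtain ⟨hpW, hp0, hpp, hpo⟩ := add_pair_facts hF HP hb h2 h01
    obtain ⟨T0, hT0, -, hT0c⟩ := Finset.exists_subsuperset_card_eq
      (Finset.subset_univ ({i0, i1} : Finset (Fin m))) (n := 3)
      (Finset.card_le_two.trans (by omega)) (by rw [Finset.card_fin]; exact hm3)
    have hv : IsL q e f (T hF (b i0 + b i1) s) 1 := isL_T hF HP hpW hpp hs
    have hlv : Lin hF e ω' (T hF (b i0 + b i1) s) := htr T0 hT0c _ hv fun l hl' =>
      T_fix hF hpp hs (hm_comm_zero hF (hpo l (fun h => hl' (hT0 (by simp [h])))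
        (fun h => hl' (hT0 (by simp [h])))))
    have hginv : IsL q e f g⁻¹ 1 := by simpa using IsL.inv hF HP hg
    have e2 : T hF (u : Fin n → F) s = g⁻¹ * T hF (b i0 + b i1) s * g := by
      have h3 := T_conj hF hpp hs g⁻¹
      rw [inv_inv, ← hgu, mulVec_inv_cancel] at h3
      rw [← hgu]
      exact h3.symm
    rw [e2]
    have hmid : IsL q e f (g⁻¹ * T hF (b i0 + b i1) s) 1 := by
      simpa using IsL.mul hF HP hginv hv
    exact Lin.mul' hF HP hmid (Lin.mul' hF HP hginv (Lin.inv' hF HP hg hl) hlv) hl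
  · have key : Rel hF e f ω' (u : Fin n → F) (u' : Fin n → F) := by
      rcases h with ⟨hu, hu'⟩ | ⟨hu, hu'⟩
      · exact Rel.trans hF HP (hiso u (mem_isoV.1 hu).1 (mem_isoV.1 hu).2)
          (Rel.symm hF HP (hiso u' (mem_isoV.1 hu').1 (mem_isoV.1 hu').2))
      · have one : ∀ x : WM q e f, x ∈ anV q e f → Rel hF e f ω' (x : Fin n → F) (b i0) := fun x hx =>
          (rel_std hF HP hb hm3 h2 htr h01 _ _ (mem_WM.1 x.2)
            (fun h => mem_anV.1 hx (by rw [h, hm_zero_left])) le_rfl).1 (by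
              refine mul_left_cancel₀ (mem_anV.1 hx) ?_
              rw [mul_one, ← pow_two]
              exact (congrArg (hm q (x : Fin n → F) x ^ ·) h2).symm.trans
                (AutPSU.hm_self_fixed hF (x : Fin n → F)))
        exact Rel.trans hF HP (one u hu) (Rel.symm hF HP (one u' hu'))
    obtain ⟨g, hg, hl, hgu⟩ := key
    exact ⟨g, 1, hg, hl, by rw [one_pow, one_smul, hgu]⟩

end Cfsg.Agent.Lib.MinIndexSU
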