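import Cfsg.Agent.Lib.MinIndexSU.Proper
import Cfsg.Agent.Lib.MinIndexSU.NormBig
import Cfsg.Agent.Lib.MinIndexSU.NormTwo

/-!
The minimal index of a proper subgroup of the projective special unitary groups.
-/

set_option autoImplicit false

namespace Cfsg.Agent.Lib.MinIndexSU

open Matrix Module Cfsg.Agent.Lib.Forms Cfsg.Agent.Lib.Classical Cfsg.Agent.Lib.AutPSU

universe u v

attribute [local instance] _root_.Classical.propDecidable

variable {n m : ℕ} {F : Type u} [Field F] [Fintype F] {q : ℕ}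
variable {Ω : Type v} [MulAction (S n F q) Ω]
variable (hF : Fintype.card F = q ^ 2)
include hF

theorem two_orbits_arith (hm3 : 3 ≤ m) (hpar : q = 2 → Odd m) {M : ℕ}
    (h : 2 * q ^ (2 * m + 1) ≤ M) : N0 q (m + 2) ≤ (q ^ 2 - 1) * M := by
  refine le_trans ?_ (Nat.mul_le_mul_left _ h)
  have hq := Herm.two_le_q hF
  have hrel := N0_succ_succ hF (q := q) m
  have h2 := two_mul_N0 hF hm3 hpar
  have hq2 : q ≤ q ^ 2 - 1 := by
    have : 2 * q ≤ q ^ 2 := by rw [pow_two]; exact Nat.mul_le_mul_right q hq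
    omega
  have h3 : q ^ 2 * (N0 q m + 1) ≤ (q ^ 2 - 1) * q ^ (2 * m + 1) := by
    refine le_trans ?_ (Nat.mul_le_mul_right _ hq2)
    rw [pow_two, mul_assoc, pow_succ']
    exact Nat.mul_le_mul_left _ (Nat.mul_le_mul_left _ (by omega))
  rw [show (q ^ 2 - 1) * (2 * q ^ (2 * m + 1)) =
    (q ^ 2 - 1) * q ^ (2 * m + 1) + (q ^ 2 - 1) * q ^ (2 * m + 1) by ring]
  omega

/-- A transitive action is at least as large as the action on the isotropic points. -/
theorem card_bound (hn : n = m + 2) (hm3 : 3 ≤ m) (hpar : q = 2 → Odd m) [Fintype Ω]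
    [MulAction.IsPretransitive (S n F q) Ω] (h2 : 2 ≤ Fintype.card Ω) :
    N0 q n ≤ (q ^ 2 - 1) * Fintype.card Ω := by
  by_cases hreg : Reg (n := n) hF Ω
  · refine bound_of_reg hF hn hm3 hpar h2 hreg ?_
    rcases (show q = 2 ∨ 3 ≤ q by have := Herm.two_le_q hF; omega) with hq | hq
    · exact hasNorm_two hF hn hm3 hq (Or.inl (hpar hq)) hreg
    · exact hasNorm_big hF hn hm3 hq hreg
  unfold Reg at hreg
  push Not at hreg
  obtain ⟨e, f, HP, y, hy, hreg⟩ := hreg
  have hproper : ∀ z, Free hF e z → Ann hF HP z ≠ Finset.univ →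
      N0 q n ≤ (q ^ 2 - 1) * Fintype.card Ω := fun z hz hne =>
    (bound_of_proper hF HP hn hm3 hpar hz hne).trans
      (Nat.mul_le_mul_left _ (Finset.card_le_univ _))
  by_cases hA : Ann hF HP y = Finset.univ
  swap
  · exact hproper y hy hA
  obtain ⟨y', hy', hyy⟩ := hreg hA
  by_cases hA' : Ann hF HP y' = Finset.univ
  swap
  · exact hproper y' hy' hA'
  subst hn
  refine two_orbits_arith hF hm3 hpar ?_
  have hcard : ∀ z : Ω, Free hF e z → Ann hF HP z = Finset.univ →
      (orb hF e f z).card = q ^ (2 * m + 1) := fun z hz hAz => by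
    rw [card_orb hF HP hz, hAz, Finset.card_univ, ← Nat.card_eq_fintype_card,
      card_WM hF HP rfl, pow_succ']
  rw [two_mul]
  nth_rewrite 1 [← hcard y hy hA]
  rw [← hcard y' hy' hA', ← Finset.card_union_of_disjoint]
  · exact Finset.card_le_univ _
  rw [Finset.disjoint_left]
  intro z hz hz'
  obtain ⟨w, c, hc, rfl⟩ := (mem_orb hF).1 hz
  obtain ⟨w', c', hc', h⟩ := (mem_orb hF).1 hz'
  apply hyy
  refine (mem_orb hF).2 ⟨-w' + w, _, (cond_inv hF hc').mul hF hc, ?_⟩
  rw [Submodule.coe_add, Submodule.coe_neg,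
    ← U_mul hF HP (InW_neg hF HP (mem_WM.1 w'.2)) (mem_WM.1 w.2) (cond_inv hF hc') hc,
    mul_smul, ← U_inv hF HP (mem_WM.1 w'.2) hc', inv_smul_eq_iff, h]

omit hF in
/-- The line of a vector. -/
def lineOf (v : Fin n → F) : Set (Fin n → F) := {w | ∃ l : F, w = l • v}

omit hF in
theorem lineOf_smul {k : F} (hk : k ≠ 0) (v : Fin n → F) : lineOf (k • v) = lineOf v := by
  ext y
  constructor
  · rintro ⟨l, rfl⟩; exact ⟨l * k, by rw [smul_smul]⟩
  · rintro ⟨l, rfl⟩
    exact ⟨l * k⁻¹, by rw [smul_smul, mul_assoc, inv_mul_cancel₀ hk, mul_one]⟩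

/-- The stabiliser of an isotropic point. -/
theorem exists_index (hn : 3 ≤ n) : ∃ H : Subgroup (S n F q),
    Subgroup.center (S n F q) ≤ H ∧ H.index * (q ^ 2 - 1) = N0 q n := by
  obtain ⟨e, f, HP⟩ := exists_pair hF (n := n) (by omega)
  letI act : MulAction (S n F q) (Set (Fin n → F)) :=
    { smul := fun g A => (fun v => mat g *ᵥ v) '' A
      one_smul := fun A => by
        show (fun v => mat (1 : S n F q) *ᵥ v) '' A = A
        simp [mat_one]
      mul_smul := fun g h A => by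
        show (fun v => mat (g * h) *ᵥ v) '' A =
          (fun v => mat g *ᵥ v) '' ((fun v => mat h *ᵥ v) '' A)
        simp [Set.image_image, mulVec_mulVec, mat_mul] }
  have hact : ∀ (g : S n F q) (v : Fin n → F), g • lineOf v = lineOf (mat g *ᵥ v) := fun g v => by
    show (fun w => mat g *ᵥ w) '' lineOf v = lineOf (mat g *ᵥ v)
    ext w
    constructor
    · rintro ⟨u, ⟨l, rfl⟩, rfl⟩
      exact ⟨l, mulVec_smul _ _ _⟩
    · rintro ⟨l, rfl⟩
      exact ⟨l • v, ⟨l, rfl⟩, mulVec_smul _ _ _⟩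
  refine ⟨MulAction.stabilizer (S n F q) (lineOf e), fun g hg => ?_, ?_⟩
  · rw [MulAction.mem_stabilizer_iff, hact]
    obtain ⟨a, ha⟩ := Herm.scalar_of_mem_center_SU hF (by omega) hg
    have ha' : mat g = a • 1 := ha
    have hae : mat g *ᵥ e = a • e := by rw [ha', smul_mulVec, one_mulVec]
    have ha0 : a ≠ 0 := fun h => mulVec_ne_zero g HP.e_ne (by rw [hae, h, zero_smul])
    rw [hae, lineOf_smul ha0]
  · rw [MulAction.index_stabilizer]
    set O : Finset (Set (Fin n → F)) := (validV q n F).image lineOf with hO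
    have horb : MulAction.orbit (S n F q) (lineOf e) = (O : Set (Set (Fin n → F))) := by
      ext A
      simp only [MulAction.mem_orbit_iff, hO, Finset.coe_image, Set.mem_image, Finset.mem_coe]
      constructor
      · rintro ⟨g, rfl⟩
        exact ⟨mat g *ᵥ e, mem_validV.2 (valid_mulVec hF g HP.valid_e), (hact g e).symm⟩
      · rintro ⟨v, hv, rfl⟩
        obtain ⟨g, s, hs, hg⟩ := transitive hF HP (by omega) (mem_validV.1 hv)
        exact ⟨g, by rw [hact, hg, lineOf_smul hs]⟩
    rw [horb, Set.ncard_coe_finset, ← card_validV hF]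
    have hfib : ∀ A ∈ O, ((validV q n F).filter fun v => lineOf v = A).card = q ^ 2 - 1 := by
      intro A hA
      obtain ⟨v, hv, rfl⟩ := Finset.mem_image.1 hA
      have hvv : Valid q v := mem_validV.1 hv
      rw [← hF, ← Finset.card_univ (α := F), ← Finset.card_erase_of_mem (Finset.mem_univ (0 : F))]
      symm
      refine Finset.card_bij (fun l _ => l • v) (fun l hl => ?_)
        (fun l _ l' _ h => smul_left_injective F hvv.1 h) (fun w hw => ?_)
      · have hl0 := Finset.ne_of_mem_erase hl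
        exact Finset.mem_filter.2 ⟨mem_validV.2 (valid_smul hF hl0 hvv), lineOf_smul hl0 v⟩
      · obtain ⟨hw1, hw2⟩ := Finset.mem_filter.1 hw
        obtain ⟨l, hl⟩ : w ∈ lineOf v := by rw [← hw2]; exact ⟨1, (one_smul F w).symm⟩
        exact ⟨l, Finset.mem_erase.2 ⟨fun h => (mem_validV.1 hw1).1 (by rw [hl, h, zero_smul]),
          Finset.mem_univ _⟩, hl.symm⟩
    rw [← smul_eq_mul, ← Finset.sum_const, ← Finset.sum_congr rfl hfib,
      ← Finset.card_eq_sum_card_image]

/-- The minimal index. -/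
theorem min_index (hn : 5 ≤ n) (hpar : q = 2 → Odd n) :
    (∀ H : Subgroup (Cfsg.PSU n F q), H ≠ ⊤ → N0 q n / (q ^ 2 - 1) ≤ H.index) ∧
      ∃ H : Subgroup (Cfsg.PSU n F q), H.index = N0 q n / (q ^ 2 - 1) := by
  have hq2 : 0 < q ^ 2 - 1 := by
    have : 2 ^ 2 ≤ q ^ 2 := Nat.pow_le_pow_left (Herm.two_le_q hF) 2
    omega
  have hs := pr_surjective (n := n) (F := F) (q := q)
  refine ⟨fun H hH => ?_, ?_⟩
  · obtain ⟨m, rfl⟩ : ∃ m, n = m + 2 := ⟨n - 2, by omega⟩
    rw [← H.index_comap_of_surjective hs, Subgroup.index_eq_card]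
    set K := H.comap pr with hK
    haveI : Fintype (S (m + 2) F q ⧸ K) := Fintype.ofFinite _
    have hK1 : K ≠ ⊤ := fun e => hH (Subgroup.comap_injective hs (by rw [Subgroup.comap_top]; exact e))
    have h2 : 2 ≤ Fintype.card (S (m + 2) F q ⧸ K) := by
      have h0 : K.index ≠ 1 := fun e => hK1 (Subgroup.index_eq_one.1 e)
      have h1 := Fintype.card_pos (α := S (m + 2) F q ⧸ K)
      rw [Subgroup.index_eq_card, Nat.card_eq_fintype_card] at h0
      omega
    rw [Nat.card_eq_fintype_card, Nat.div_le_iff_le_mul_add_pred hq2]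
    have hpar' : q = 2 → Odd m := fun h => by
      obtain ⟨k, hk⟩ := hpar h
      exact ⟨k - 1, by omega⟩
    exact le_trans (card_bound hF rfl (by omega) hpar' h2) (Nat.le_add_right _ _)
  · obtain ⟨H, hle, hH⟩ := exists_index hF (n := n) (by omega)
    refine ⟨H.map pr, ?_⟩
    rw [← hH, Nat.mul_div_cancel _ hq2]
    refine Subgroup.index_map_eq _ hs ?_
    rw [QuotientGroup.ker_mk']
    exact hle

end Cfsg.Agent.Lib.MinIndexSU
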