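import Cfsg.Agent.Lib.MinIndexSU.Iso

/-!
The degree when some annihilator is proper.
-/

set_option autoImplicit false

namespace Cfsg.Agent.Lib.MinIndexSU

open Matrix Module Cfsg.Agent.Lib.Forms Cfsg.Agent.Lib.Classical Cfsg.Agent.Lib.AutPSU

universe u v

attribute [local instance] _root_.Classical.propDecidable

variable {n m : ℕ} {F : Type u} [Field F] [Fintype F] {q : ℕ}
variable (hF : Fintype.card F = q ^ 2)
include hF

theorem q_mul_N0_le (m : ℕ) : q * (N0 q m + 1) ≤ q ^ (2 * m) + q ^ (m + 1) := by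
  rw [← cnt_zero_N0 hF]
  have h := Herm.q_mul_cnt_zero hF m
  have hq : (2 : ℤ) ≤ q := by exact_mod_cast Herm.two_le_q hF
  zify
  rw [h]
  rcases Nat.even_or_odd m with he | ho
  · rw [he.neg_pow, pow_succ]
    nlinarith [pow_nonneg (show (0 : ℤ) ≤ q by omega) m]
  · rw [ho.neg_pow, pow_succ]
    nlinarith [pow_nonneg (show (0 : ℤ) ≤ q by omega) m]

theorem le_q_mul_N0 (m : ℕ) : q ^ (2 * m) ≤ q * (N0 q m + 1) + q ^ (m + 1) := by
  rw [← cnt_zero_N0 hF]
  have h := Herm.q_mul_cnt_zero hF m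
  have hq : (2 : ℤ) ≤ q := by exact_mod_cast Herm.two_le_q hF
  zify
  rw [h]
  rcases Nat.even_or_odd m with he | ho
  · rw [he.neg_pow, pow_succ]
    nlinarith [pow_nonneg (show (0 : ℤ) ≤ q by omega) m]
  · rw [ho.neg_pow, pow_succ]
    nlinarith [pow_nonneg (show (0 : ℤ) ≤ q by omega) m]

theorem two_mul_N0_odd (h2 : q = 2) (hodd : Odd m) :
    2 * (N0 q m + 1) + 2 ^ m = 2 ^ (2 * m) := by
  rw [← cnt_zero_N0 hF]
  have h := Herm.q_mul_cnt_zero hF m
  rw [hodd.neg_pow, h2] at h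
  rw [h2] at *
  zify
  push_cast at h
  linarith

/-- The numerical bound with two translates at each anisotropic vector. -/
theorem arith_an (hm : 3 ≤ m) {s : ℕ} (h3 : 3 ≤ q)
    (h : 2 * (q ^ (2 * m) - (N0 q m + 1)) ≤ s) :
    N0 q (m + 2) ≤ (q ^ 2 - 1) * (q * s) := by
  have hrel := N0_succ_succ hF m
  set M := q ^ (2 * m) with hM
  set X := N0 q m + 1 with hX
  rw [pow_succ q (2 * m), ← hM] at hrel
  have hb : q ^ 3 * X ≤ M * (q ^ 2 + 1) := by
    have h1 := Nat.mul_le_mul_left (q ^ 2) (q_mul_N0_le hF m)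
    rw [← hM, ← hX] at h1
    have h2 : q ^ 2 * q ^ (m + 1) ≤ M := by
      rw [← pow_add]; exact Nat.pow_le_pow_right (by omega) (by omega)
    nlinarith
  have hXM : X ≤ M := by
    have := card_norm_bound (q := q) hb h3
    exact this
  obtain ⟨d, hd⟩ : ∃ d, M = X + d := Nat.exists_eq_add_of_le hXM
  rw [hd, Nat.add_sub_cancel_left] at h
  have hq2 : 1 ≤ q ^ 2 := Nat.one_le_pow _ _ (by omega)
  obtain ⟨r, hr⟩ : ∃ r, q ^ 2 = r + 1 := ⟨q ^ 2 - 1, by omega⟩
  rw [hr, Nat.add_sub_cancel] at hrel ⊢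
  refine le_trans ?_ (Nat.mul_le_mul_left r (Nat.mul_le_mul_left q h))
  refine Nat.le_of_mul_le_mul_left (?_ : q ^ 3 * _ ≤ q ^ 3 * _) (pow_pos (show 0 < q by omega) 3)
  have h27 : 27 ≤ q ^ 3 := le_trans (by norm_num) (Nat.pow_le_pow_left h3 3)
  rw [hr] at hb
  have h3q : 3 * q ≤ r + 1 := by rw [← hr, pow_two]; exact Nat.mul_le_mul_right q h3
  have hr8 : 8 ≤ r := by nlinarith
  have hq4 : q ^ 3 * q = (r + 1) * (r + 1) := by rw [← hr]; ring
  have hkey : (2 * r * q + (r + 1)) * (r + 2) ≤ r * (q ^ 3 * q) := by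
    rw [hq4]
    nlinarith [Nat.mul_le_mul_left (r * (r + 2)) h3q, hr8]
  have h1 := Nat.mul_le_mul_left (2 * r * q + (r + 1)) hb
  have h2 := Nat.mul_le_mul_left M hkey
  rw [hd] at h1 h2 hrel
  have h4 : q ^ 3 * (N0 q (m + 2) + 1) = q ^ 3 * ((r + 1) * X + r * ((X + d) * q)) := by rw [hrel]
  nlinarith [h1, h2, h4]
where
  card_norm_bound {q M X : ℕ} (hb : q ^ 3 * X ≤ M * (q ^ 2 + 1)) (h3 : 3 ≤ q) : X ≤ M := by
    refine Nat.le_of_mul_le_mul_left (?_ : q ^ 3 * _ ≤ q ^ 3 * _) (pow_pos (show 0 < q by omega) 3)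
    refine hb.trans ?_
    rw [mul_comm (q ^ 3)]
    refine Nat.mul_le_mul_left _ ?_
    nlinarith

theorem arith_an_two (hm : 3 ≤ m) (hodd : Odd m) {s : ℕ} (h2 : q = 2)
    (h : 2 * (q ^ (2 * m) - (N0 q m + 1)) + N0 q m ≤ s) :
    N0 q (m + 2) ≤ (q ^ 2 - 1) * (q * s) := by
  have hrel := N0_succ_succ hF m
  have hX := two_mul_N0_odd hF h2 hodd
  subst h2
  rw [pow_succ (2 : ℕ) (2 * m)] at hrel
  have : 2 ^ 6 ≤ 2 ^ (2 * m) := Nat.pow_le_pow_right (by norm_num) (by omega)
  have e4 : (2 : ℕ) ^ 2 = 4 := rfl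
  have e64 : (2 : ℕ) ^ 6 = 64 := rfl
  rw [e4] at hrel ⊢
  rw [e64] at this
  generalize (2 : ℕ) ^ (2 * m) = M at *
  generalize (2 : ℕ) ^ m = K at *
  omega

/-- The numerical bound with `q + 1` translates at an isotropic vector. -/
theorem arith_iso (hm : 3 ≤ m) (hpar : q = 2 → Odd m) {t : ℕ}
    (h : (q + 1) * N0 q m ≤ t * (q ^ m - 1)) :
    N0 q (m + 2) ≤ (q ^ 2 - 1) * (q * (t * q ^ m)) := by
  have hrel := N0_succ_succ hF m
  have hq := Herm.two_le_q hF
  rcases (show q = 2 ∨ 3 ≤ q by omega) with h2 | h3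
  · have hodd := hpar h2
    have hX := two_mul_N0_odd hF h2 hodd
    subst h2
    rw [pow_succ (2 : ℕ) (2 * m)] at hrel
    rcases eq_or_lt_of_le hm with rfl | hm4
    · norm_num at hrel h hX ⊢
      omega
    · have h5 : 5 ≤ m := by obtain ⟨k, rfl⟩ := hodd; omega
      have hsq : 2 ^ (2 * m) = 2 ^ m * 2 ^ m := by rw [two_mul, pow_add]
      have h32 : 2 ^ 5 ≤ 2 ^ m := Nat.pow_le_pow_right (by norm_num) h5
      have hle : (2 + 1) * N0 2 m ≤ t * 2 ^ m :=
        h.trans (Nat.mul_le_mul_left _ (Nat.sub_le _ _))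
      rw [hsq] at hrel hX
      have h64 : 32 * 2 ^ m ≤ 2 ^ m * 2 ^ m := Nat.mul_le_mul_right _ (by simpa using h32)
      norm_num at hrel hle h32 ⊢
      omega
  · have hle : (q + 1) * N0 q m ≤ t * q ^ m := h.trans (Nat.mul_le_mul_left _ (Nat.sub_le _ _))
    set M := q ^ (2 * m) with hM
    set X := N0 q m + 1 with hX
    rw [pow_succ q (2 * m), ← hM] at hrel
    have hb : M * q ^ 2 ≤ q ^ 3 * X + M := by
      have h1 := Nat.mul_le_mul_left (q ^ 2) (le_q_mul_N0 hF m)
      rw [← hM, ← hX] at h1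
      have h2 : q ^ 2 * q ^ (m + 1) ≤ M := by
        rw [← pow_add]; exact Nat.pow_le_pow_right (by omega) (by omega)
      nlinarith
    have hMb : q ^ 6 ≤ M := Nat.pow_le_pow_right (by omega) (by omega)
    obtain ⟨r, hr⟩ : ∃ r, q ^ 2 = r + 1 := ⟨q ^ 2 - 1, by
      have := Nat.one_le_pow 2 q (by omega); omega⟩
    rw [hr, Nat.add_sub_cancel] at hrel ⊢
    refine le_trans ?_ (Nat.mul_le_mul_left r (Nat.mul_le_mul_left q hle))
    have hN : N0 q m + 1 = X := rfl
    refine Nat.le_of_mul_le_mul_left (?_ : q ^ 3 * _ ≤ q ^ 3 * _) (pow_pos (show 0 < q by omega) 3)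
    rw [hr] at hb
    have hr8 : 8 ≤ r := by nlinarith
    have hb' : r * M ≤ q ^ 3 * X := by nlinarith
    obtain ⟨r', hr'⟩ : ∃ r', r = r' + 2 := ⟨r - 2, by omega⟩
    obtain ⟨C, hC⟩ : ∃ C, C + (r + 1) = r * q * (q + 1) := ⟨r * q * (q + 1) - (r + 1), by
      have : r + 1 ≤ r * q * (q + 1) := by nlinarith
      omega⟩
    have hq4 : q ^ 3 * q = (r + 1) * (r + 1) := by rw [← hr]; ring
    have hC4 : q ^ 3 * q + r' ≤ C := by
      have e1 : r * q * (q + 1) = r * q ^ 2 + r * q := by ring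
      rw [e1, hr] at hC
      rw [hq4]
      nlinarith [Nat.mul_le_mul_left r h3]
    have h6 : q ^ 3 * q * (q + 1) ≤ r' * M := by
      refine le_trans ?_ (Nat.mul_le_mul (show 1 ≤ r' by omega) hMb)
      rw [one_mul, show q ^ 6 = q ^ 3 * q * q ^ 2 by ring]
      refine Nat.mul_le_mul_left _ ?_
      nlinarith
    have h7 := Nat.mul_le_mul_left C hb'
    have h8 := Nat.mul_le_mul_right (r * M) hC4
    have h9 := Nat.mul_le_mul_left r h6
    have h4 : q ^ 3 * (N0 q (m + 2) + 1) = q ^ 3 * ((r + 1) * X + r * (M * q)) := by rw [hrel]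
    have h5 : q ^ 3 * X * (C + (r + 1)) = q ^ 3 * (N0 q m + 1) * (r * q * (q + 1)) := by rw [hC, hN]
    nlinarith [h4, h5, h7, h8, h9]

variable {e f : Fin n → F} (HP : Pair q e f)
include HP

variable {Ω : Type v} [MulAction (S n F q) Ω] [Fintype Ω]

theorem sum_split (ω : Ω) :
    ∑ B ∈ Tset hF HP ω, ((isoV q e f).filter fun u => u ∈ B).card +
      ∑ B ∈ Tset hF HP ω, ((anV q e f).filter fun u => u ∈ B).card ≤
      ∑ B ∈ Tset hF HP ω, B.card := by
  rw [← Finset.sum_add_distrib]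
  refine Finset.sum_le_sum fun B _ => ?_
  rw [← Finset.card_union_of_disjoint]
  · exact Finset.card_le_card (Finset.union_subset (fun x hx => (Finset.mem_filter.1 hx).2)
      fun x hx => (Finset.mem_filter.1 hx).2)
  · rw [Finset.disjoint_left]
    intro x hx hx'
    exact mem_anV.1 (Finset.mem_filter.1 hx').1 (mem_isoV.1 (Finset.mem_filter.1 hx).1).2

theorem exists_iso_two (hn : n = m + 2) (hm3 : 3 ≤ m) (h2 : q = 2) {ω : Ω} (hfree : Free hF e ω) :
    ∃ v ∈ Ann hF HP ω, v ∈ isoV q e f := by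
  by_contra hc
  push Not at hc
  set A := Ann hF HP ω
  have hone : ∀ v ∈ A, v ≠ 0 → hm q (v : Fin n → F) v = 1 := by
    intro v hv hv0
    have hne : hm q (v : Fin n → F) v ≠ 0 := fun h => hc v hv (mem_isoV.2 ⟨hv0, h⟩)
    have h : hm q (v : Fin n → F) v * hm q (v : Fin n → F) v = hm q (v : Fin n → F) v := by
      rw [← pow_two]
      convert AutPSU.hm_self_fixed hF (v : Fin n → F) using 2
      exact h2.symm
    exact mul_left_cancel₀ hne (h.trans (mul_one _).symm)
  have hB : ∀ a ∈ A, ∀ b ∈ A, a ≠ 0 → b ≠ 0 → a + b ≠ 0 →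
      hm q (a : Fin n → F) b + hm q (b : Fin n → F) a = -1 := by
    intro a ha b hb ha0 hb0 hab
    have h := hone _ (add_mem_Ann hF HP ha hb) hab
    rw [Submodule.coe_add, hm_add_left, hm_add_right hF, hm_add_right hF, hone a ha ha0,
      hone b hb hb0] at h
    linear_combination h
  have hcard : 8 ≤ A.card := by
    refine le_trans ?_ (card_Ann_ge hF HP hn hfree)
    rw [h2]; exact le_trans (by norm_num) (Nat.pow_le_pow_right (by norm_num) hm3)
  obtain ⟨a, ha, ha0⟩ := Finset.exists_mem_ne (show 1 < A.card by omega) 0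
  obtain ⟨b, hb, hb'⟩ := Finset.exists_mem_notMem_of_card_lt_card
    (s := ({0, a, -a} : Finset (WM q e f))) (t := A) (lt_of_le_of_lt Finset.card_le_three (by omega))
  simp only [Finset.mem_insert, Finset.mem_singleton, not_or] at hb'
  obtain ⟨c, hc', hc''⟩ := Finset.exists_mem_notMem_of_card_lt_card
    (s := ({0, -a, -b} : Finset (WM q e f)) ∪ {-a - b}) (t := A) (by
      refine lt_of_le_of_lt (Finset.card_union_le _ _) ?_
      rw [Finset.card_singleton]
      have := Finset.card_le_three (a := (0 : WM q e f)) (b := -a) (c := -b)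
      omega)
  simp only [Finset.mem_union, Finset.mem_insert, Finset.mem_singleton, not_or] at hc''
  obtain ⟨⟨hc0, hca, hcb⟩, hcab⟩ := hc''
  have hbc : b + c ≠ 0 := fun h => hcb (eq_neg_of_add_eq_zero_right h)
  have e1 := hB a ha b hb ha0 hb'.1 fun h => hb'.2.2 (eq_neg_of_add_eq_zero_right h)
  have e2 := hB a ha c hc' ha0 hc0 fun h => hca (eq_neg_of_add_eq_zero_right h)
  have e3 := hB a ha (b + c) (add_mem_Ann hF HP hb hc') ha0 hbc fun h => hcab (by
    rw [← add_assoc] at h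
    rw [eq_neg_of_add_eq_zero_right h]; abel)
  rw [Submodule.coe_add, hm_add_right hF, hm_add_left] at e3
  have : (1 : F) = 0 := by linear_combination e1 + e2 - e3
  exact one_ne_zero this

/-- A free point with proper annihilator gives the bound. -/
theorem bound_of_proper (hn : n = m + 2) (hm3 : 3 ≤ m) (hpar : q = 2 → Odd m) {ω : Ω}
    (hfree : Free hF e ω) (hne : Ann hF HP ω ≠ Finset.univ) :
    N0 q n ≤ (q ^ 2 - 1) * (Finset.univ.filter fun y : Ω => Free hF e y).card := by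
  refine le_trans ?_ (Nat.mul_le_mul_left _ (sum_le_card hF HP hfree))
  have hiso_card := card_isoV hF HP hn
  have hsum := card_isoV_add_anV hF HP hn
  rw [hiso_card] at hsum
  have hanc : (anV q e f).card = q ^ (2 * m) - (N0 q m + 1) := by omega
  have hq := Herm.two_le_q hF
  by_cases han : ∃ u ∈ Ann hF HP ω, u ∈ anV q e f
  · obtain ⟨u, huA, hu⟩ := han
    obtain ⟨B, hB, hBA, huB⟩ := exists_second hF HP hn hm3 hfree huA hu hne
    have h2 := cover hF HP (ω := ω) (O := anV q e f) (u0 := u)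
      (fun v hv => trans_an hF HP hn (by omega) hu hv) (T := {Ann hF HP ω, B})
      (Finset.insert_subset (Ann_mem_Tset hF HP ω) (Finset.singleton_subset_iff.2 hB))
      (fun C hC => by
        simp only [Finset.mem_insert, Finset.mem_singleton] at hC
        rcases hC with rfl | rfl <;> assumption)
    rw [Finset.card_pair (Ne.symm hBA), hanc] at h2
    have hs := sum_split hF HP ω
    subst hn
    rcases (show q = 2 ∨ 3 ≤ q by omega) with hq2 | hq3
    · obtain ⟨v, hvA, hv⟩ := exists_iso_two hF HP rfl hm3 hq2 hfree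
      have h3 := cover hF HP (ω := ω) (O := isoV q e f) (u0 := v)
        (fun w hw => by
          obtain ⟨s, hs, h⟩ := trans_iso hF HP rfl hm3 hv hw
          exact ⟨s, 1, hs, h⟩) (T := {Ann hF HP ω})
        (Finset.singleton_subset_iff.2 (Ann_mem_Tset hF HP ω))
        (fun C hC => by rw [Finset.mem_singleton] at hC; subst hC; exact hvA)
      rw [Finset.card_singleton, one_mul, hiso_card] at h3
      exact arith_an_two hF hm3 (hpar hq2) hq2 (by omega)
    · exact arith_an hF hm3 hq3 (by omega)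
  · push Not at han
    have hall : ∀ v ∈ Ann hF HP ω, hm q (v : Fin n → F) v = 0 := fun v hv => by
      by_contra h; exact han v hv (mem_anV.2 h)
    obtain ⟨u, hu, hmult⟩ := iso_mult hF HP hn hm3 hfree hall
    have h2 := cover hF HP (ω := ω) (O := isoV q e f) (u0 := u)
      (fun w hw => by
        obtain ⟨s, hs, h⟩ := trans_iso hF HP hn hm3 hu hw
        exact ⟨s, 1, hs, h⟩) (T := (Tset hF HP ω).filter fun B => u ∈ B)
      (Finset.filter_subset _ _) (fun C hC => (Finset.mem_filter.1 hC).2)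
    obtain ⟨hcard, -⟩ := iso_struct hF HP hn hfree hall
    have h3 : ∑ B ∈ Tset hF HP ω, ((isoV q e f).filter fun v => v ∈ B).card ≤
        (Tset hF HP ω).card * (q ^ m - 1) := by
      rw [← smul_eq_mul]
      refine Finset.sum_le_card_nsmul _ _ _ fun B hB => ?_
      have h0 : (0 : WM q e f) ∈ B := by
        obtain ⟨t, b, ht, hBe⟩ := (mem_Tset hF).1 hB
        rw [← hBe]; exact zero_mem_Ann hF HP _
      rw [← hcard, ← Tset_card hF HP hB, ← Finset.card_erase_of_mem h0]
      exact Finset.card_le_card fun x hx => Finset.mem_erase.2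
        ⟨(mem_isoV.1 (Finset.mem_filter.1 hx).1).1, (Finset.mem_filter.1 hx).2⟩
    rw [hiso_card] at h2
    have h4 : (q + 1) * N0 q m ≤ (Tset hF HP ω).card * (q ^ m - 1) :=
      ((Nat.mul_le_mul_right _ hmult).trans h2).trans h3
    subst hn
    refine le_trans (arith_iso hF hm3 hpar h4) (le_of_eq ?_)
    rw [Finset.sum_congr rfl fun B hB => Tset_card hF HP hB, Finset.sum_const, smul_eq_mul, hcard]

end Cfsg.Agent.Lib.MinIndexSU
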