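import Cfsg.Agent.Lib.MinIndexSU.Exists

/-!
Actions in which the radical is regular on the free points: lifts of the Levi elements.
-/

set_option autoImplicit false

namespace Cfsg.Agent.Lib.MinIndexSU

open Matrix Module Cfsg.Agent.Lib.Forms Cfsg.Agent.Lib.Classical Cfsg.Agent.Lib.AutPSU

universe u v

attribute [local instance] _root_.Classical.propDecidable

variable {n m : ℕ} {F : Type u} [Field F] [Fintype F] {q : ℕ}
variable {Ω : Type v} [MulAction (S n F q) Ω]

/-- Every radical is regular on the points with no centre in the stabiliser. -/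
def Reg (hF : Fintype.card F = q ^ 2) (Ω : Type v) [MulAction (S n F q) Ω] : Prop :=
  ∀ (e f : Fin n → F) (HP : Pair q e f) (y : Ω), Free hF e y →
    Ann hF HP y = Finset.univ ∧ ∀ y', Free hF e y' → y' ∈ orb hF e f y

/-- An element lifting to the stabiliser through the centre. -/
def Lin (hF : Fintype.card F = q ^ 2) (e : Fin n → F) (ω : Ω) (s : S n F q) : Prop :=
  ∃ c, Skew q c ∧ T hF e c • s • ω = ω

variable (hF : Fintype.card F = q ^ 2) {e f : Fin n → F} (HP : Pair q e f)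
include hF HP

theorem trivial_of_fix {y : Ω} (hreg : Reg (n := n) hF Ω) (hy : Free hF e y) {w : WM q e f} {c : F}
    (hc : Cond q (w : Fin n → F) c) (h : AutPSU.U hF e (w : Fin n → F) c • y = y) : w = 0 ∧ c = 0 := by
  have hw : w ∈ Wst hF HP y := ⟨c, hc, h⟩
  have hw0 : w = 0 := by
    by_contra hne
    obtain ⟨v, hv1, hv2⟩ := exists_WM_partner hF HP hne
    obtain ⟨t, ht⟩ := AutPSU.exists_trace hF (a := (1 : F)) (one_pow q)
    have hmem : t • v ∈ Ann hF HP y := by rw [(hreg e f HP y hy).1]; exact Finset.mem_univ _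
    have h1 := (mem_Ann hF).1 hmem w hw
    rw [kap_apply, Submodule.coe_smul, hm_smul_left', hm_smul_right, hv1, hv2, mul_one, mul_one,
      ht] at h1
    exact psi_one h1
  refine ⟨hw0, ?_⟩
  rw [hw0, Submodule.coe_zero] at hc h
  have hsk : Skew q c := by
    unfold Cond at hc; unfold Skew; rwa [hm_zero_left, neg_zero] at hc
  rw [U_zero_eq_T hF HP hsk] at h
  exact hy c hsk h

theorem lift_unique {ω : Ω} (hreg : Reg (n := n) hF Ω) (hω : Free hF e ω) {s : S n F q} {a : F}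
    (hs : IsL q e f s a) {w w' : WM q e f} {c c' : F} (hc : Cond q (w : Fin n → F) c)
    (hc' : Cond q (w' : Fin n → F) c') (h : AutPSU.U hF e (w : Fin n → F) c • s • ω = ω)
    (h' : AutPSU.U hF e (w' : Fin n → F) c' • s • ω = ω) : w = w' := by
  obtain ⟨h0, -⟩ := trivial_of_fix hF HP hreg (free_smul hF HP hs hω) (w := -w' + w)
    ((cond_inv hF hc').mul hF hc) (by
      rw [Submodule.coe_add, Submodule.coe_neg,
        ← U_mul hF HP (InW_neg hF HP (mem_WM.1 w'.2)) (mem_WM.1 w.2) (cond_inv hF hc') hc,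
        mul_smul, h, ← U_inv hF HP (mem_WM.1 w'.2) hc', inv_smul_eq_iff, h'])
  rwa [neg_add_eq_zero, eq_comm] at h0

theorem Lin.mul' {ω : Ω} {s t : S n F q} {a : F} (hs : IsL q e f s a) (h : Lin hF e ω s)
    (h' : Lin hF e ω t) : Lin hF e ω (s * t) := by
  obtain ⟨c, hc, h⟩ := h
  obtain ⟨d, hd, h'⟩ := h'
  obtain ⟨hd', e1⟩ := IsL.T_conj' hF HP hs hd
  refine ⟨c + a * a ^ q * d, Skew.add hF hc hd', ?_⟩
  rw [← T_add hF HP.ee hc hd', ← mul_smul, mul_assoc, ← mul_assoc (T hF e (a * a ^ q * d)), ← e1,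
    mul_assoc s, mul_smul, mul_smul, mul_smul, h', h]

theorem Lin.inv' {ω : Ω} {s : S n F q} {a : F} (hs : IsL q e f s a) (h : Lin hF e ω s) :
    Lin hF e ω s⁻¹ := by
  obtain ⟨c, hc, h⟩ := h
  obtain ⟨hc', e1⟩ := IsL.T_conj' hF HP (IsL.inv hF HP hs) hc
  have hn : Skew q (-(a⁻¹ * a⁻¹ ^ q * c)) := by
    unfold Skew at *; rw [Herm.conj_neg hF]; linear_combination -hc'
  refine ⟨_, hn, ?_⟩
  have h2 : s⁻¹ • ω = T hF e (a⁻¹ * a⁻¹ ^ q * c) • ω := by
    conv_lhs => rw [← h]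
    rw [← mul_smul, e1, mul_smul, inv_smul_smul]
  rw [h2, ← mul_smul, T_add hF HP.ee hn hc', neg_add_cancel, T_zero hF HP.ee, one_smul]

/-- An element commuting with a fixed-point-free lifted one is lifted. -/
theorem lin_of_commute {ω : Ω} (hreg : Reg (n := n) hF Ω) (hω : Free hF e ω) {δ s : S n F q} {b a : F}
    (hδ : IsL q e f δ b) (hs : IsL q e f s a) (hLin : Lin hF e ω δ) (hcomm : δ * s = s * δ)
    (hfpf : ∀ x : WM q e f, b ^ q • (mat δ *ᵥ (x : Fin n → F)) = (x : Fin n → F) → x = 0) :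
    Lin hF e ω s := by
  obtain ⟨y, hy, hy'⟩ : ∃ y, Free hF e y ∧ s • ω = y := ⟨_, free_smul hF HP hs hω, rfl⟩
  obtain ⟨w, c, hc, hfix⟩ := (mem_orb hF).1 ((hreg e f HP y hy).2 ω hω)
  rw [← hy'] at hfix
  obtain ⟨d, hd, hdfix⟩ := hLin
  obtain ⟨h1, h2⟩ := IsL.conj hF HP hδ (mem_WM.1 w.2) hc
  have hnd : Skew q (-d) := by unfold Skew at *; rw [Herm.conj_neg hF]; linear_combination -hd
  have hδω : δ • ω = T hF e (-d) • ω := by
    conv_rhs => rw [← hdfix, ← mul_smul, T_add hF HP.ee hnd hd, neg_add_cancel, T_zero hF HP.ee,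
      one_smul]
  obtain ⟨h3, h4⟩ := IsL.T_conj' hF HP hs hnd
  set w' : WM q e f := ⟨b ^ q • (mat δ *ᵥ (w : Fin n → F)), (IsL.mem hF HP hδ (mem_WM.1 w.2)).smul _⟩
  have hA : Cond q (w' : Fin n → F) (d + b * b ^ q * c + a * a ^ q * -d) :=
    cond_add hF (by
      have := cond_add hF h1 hd
      rwa [add_comm] at this) h3
  have hfix' : AutPSU.U hF e (w' : Fin n → F) (d + b * b ^ q * c + a * a ^ q * -d) • s • ω = ω := by
    have e0 : T hF e d • δ • AutPSU.U hF e (w : Fin n → F) c • s • ω = ω := by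
      rw [hfix, hdfix]
    obtain ⟨-, u2⟩ := U_T hF HP (mem_WM.1 w'.2) h1 hd
    obtain ⟨u3, -⟩ := U_T hF HP (mem_WM.1 w'.2) (cond_add hF h1 hd) h3
    rw [← mul_smul δ, h2, mul_smul, ← mul_smul δ s, hcomm, mul_smul s δ, hδω, ← mul_smul s, h4,
      mul_smul, ← mul_smul (T hF e d), u2, ← mul_smul, u3] at e0
    rwa [add_comm d]
  have hw0 : w = 0 := hfpf w (congrArg Subtype.val (lift_unique hF HP hreg hω hs hA hc hfix' hfix))
  rw [hw0, Submodule.coe_zero] at hc hfix
  have hsk : Skew q c := by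
    unfold Cond at hc; unfold Skew; rwa [hm_zero_left, neg_zero] at hc
  rw [U_zero_eq_T hF HP hsk] at hfix
  exact ⟨c, hsk, hfix⟩

/-- Moving the point makes a fixed-point-free element lifted. -/
theorem exists_shift {ω : Ω} (hreg : Reg (n := n) hF Ω) (hω : Free hF e ω) {δ : S n F q} {b : F}
    (hδ : IsL q e f δ b)
    (hfpf : ∀ x : WM q e f, b ^ q • (mat δ *ᵥ (x : Fin n → F)) = (x : Fin n → F) → x = 0) :
    ∃ ω' ∈ orb hF e f ω, Lin hF e ω' δ := by
  obtain ⟨w, c, hc, hw⟩ := (mem_orb hF).1 ((hreg e f HP ω hω).2 _ (free_smul hF HP hδ hω))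
  let L : WM q e f →ₗ[F] WM q e f :=
    { toFun := fun x => x - ⟨b ^ q • (mat δ *ᵥ (x : Fin n → F)), (IsL.mem hF HP hδ (mem_WM.1 x.2)).smul _⟩
      map_add' := fun x y => Subtype.ext (by
        simp only [Submodule.coe_add, AddSubgroupClass.coe_sub, mulVec_add, smul_add]; abel)
      map_smul' := fun l x => Subtype.ext (by
        simp only [Submodule.coe_smul, AddSubgroupClass.coe_sub, mulVec_smul, smul_sub, RingHom.id_apply,
          smul_comm l]) }
  have hinj : Function.Injective L := by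
    rw [injective_iff_map_eq_zero]
    intro x hx
    exact hfpf x (congrArg Subtype.val (sub_eq_zero.1 hx)).symm
  obtain ⟨v, hv⟩ := LinearMap.injective_iff_surjective.1 hinj w
  obtain ⟨d, hd⟩ := exists_cond hF (v : Fin n → F)
  refine ⟨AutPSU.U hF e (v : Fin n → F) d • ω, (mem_orb hF).2 ⟨v, d, hd, rfl⟩, ?_⟩
  obtain ⟨h1, h2⟩ := IsL.conj hF HP hδ (mem_WM.1 v.2) hd
  set c' := b * b ^ q * d + c - hm q (w : Fin n → F) (b ^ q • (mat δ *ᵥ (v : Fin n → F)))
  have hveq : b ^ q • (mat δ *ᵥ (v : Fin n → F)) + (w : Fin n → F) = (v : Fin n → F) := by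
    rw [← hv]
    exact add_sub_cancel _ _
  have hc' : Cond q (v : Fin n → F) c' := by
    have := h1.mul hF hc
    rwa [hveq] at this
  refine ⟨d - c', skew_of_cond hF hd hc', ?_⟩
  rw [← mul_smul δ, h2, mul_smul, ← hw,
    ← mul_smul (AutPSU.U hF e (b ^ q • (mat δ *ᵥ (v : Fin n → F))) _),
    U_mul hF HP ((IsL.mem hF HP hδ (mem_WM.1 v.2)).smul _) (mem_WM.1 w.2) h1 hc, hveq, ← mul_smul,
    (U_T hF HP (mem_WM.1 v.2) hc' (skew_of_cond hF hd hc')).2, add_sub_cancel]

/-- A lifted transvection fixes the point. -/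
theorem T_fixes {ω : Ω} (hreg : Reg (n := n) hF Ω) (hω : Free hF e ω) {u : WM q e f} (hu0 : u ≠ 0)
    (huu : hm q (u : Fin n → F) u = 0) (hlin : ∀ s, Skew q s → Lin hF e ω (T hF (u : Fin n → F) s))
    {s : F} (hs : Skew q s) : T hF (u : Fin n → F) s • ω = ω := by
  obtain ⟨c, hc, hfix⟩ := hlin s hs
  rcases eq_or_ne c 0 with rfl | hc0
  · rwa [T_zero hF HP.ee, one_smul] at hfix
  rcases eq_or_ne s 0 with rfl | hs0
  · rw [T_zero hF huu, one_smul]
  exfalso
  have hW := mem_WM.1 u.2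
  have hsq : s ^ q = -s := by unfold Skew at hs; linear_combination hs
  have hcq : c ^ q = -c := by unfold Skew at hc; linear_combination hc
  obtain ⟨κ, hκ0, hκ⟩ := Herm.exists_norm hF (c := -s / c) (div_ne_zero (neg_ne_zero.2 hs0) hc0)
    (by rw [div_pow, Herm.conj_neg hF, hsq, hcq, div_neg, neg_neg, neg_div])
  rw [pow_succ'] at hκ
  set z := e + κ • (u : Fin n → F) with hz
  have hzp : Pair q z f := by
    refine ⟨?_, HP.ff, ?_, ?_⟩
    · simp [hz, hm_add_left, hm_add_right hF, hm_smul_left', hm_smul_right, HP.ee, huu, hW.1,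
        (hW.swap hF).1]
    · simp [hz, hm_add_left, hm_smul_left', HP.ef, hW.2]
    · simp [hz, hm_add_right hF, hm_smul_right, HP.fe, (hW.swap hF).2]
  have hxW : InW q z f ((-(c * κ)) • (u : Fin n → F)) := by
    refine ⟨?_, ?_⟩
    · rw [hz, hm_smul_left', hm_add_right hF, hm_smul_right, huu, hW.1]
      ring
    · simp [hm_smul_left', hW.2, AutPSU.hm_neg_left]
  have hxc : Cond q ((-(c * κ)) • (u : Fin n → F)) c := by
    unfold Cond
    rw [hm_smul_left', hm_smul_right, huu, mul_zero, mul_zero, neg_zero, hcq, add_neg_cancel]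
  have key : T hF e c * T hF (u : Fin n → F) s = AutPSU.U hF z ((-(c * κ)) • (u : Fin n → F)) c := by
    refine vec_ext fun x => ?_
    rw [mat_mul, ← mulVec_mulVec, T_mulVec hF huu hs, T_mulVec hF HP.ee hc,
      U_mulVec hF hzp hxW hxc]
    have hκ' : s = -(c * (κ * κ ^ q)) := by rw [hκ, mul_div_cancel₀ _ hc0, neg_neg]
    simp only [hz, hm_add_left, hm_add_right hF, hm_smul_left', hm_smul_right,
      (hW.1), Herm.conj_neg hF, mul_pow, hcq]
    rw [hκ']
    module
  rw [← mul_smul, key] at hfix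
  by_cases hfree : Free hF z ω
  · obtain ⟨h0, -⟩ := trivial_of_fix hF hzp hreg hfree (w := ⟨_, hxW⟩) hxc hfix
    have h1 := congrArg Subtype.val h0
    rw [Submodule.coe_zero, smul_eq_zero] at h1
    rcases h1 with h1 | h1
    · exact mul_ne_zero hc0 hκ0 (neg_eq_zero.1 h1)
    · exact hu0 (Subtype.ext h1)
  · unfold Free at hfree
    push Not at hfree
    obtain ⟨s', hs', hfix', hs'0⟩ := hfree
    have hs'' : Skew q (s' * (κ * κ ^ q)) := hs'.mul_fixed (norm_fixed' hF κ)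
    obtain ⟨hcw, hT⟩ := T_shift hF HP hW huu κ⁻¹ hs''
    have hzv : hm q ((u : Fin n → F) + κ⁻¹ • e) ((u : Fin n → F) + κ⁻¹ • e) = 0 := by
      simp [hm_add_left, hm_add_right hF, hm_smul_left', hm_smul_right, huu, HP.ee, hW.1,
        (hW.swap hF).1]
    rw [show z = κ • ((u : Fin n → F) + κ⁻¹ • e) by
      rw [hz, smul_add, smul_smul, mul_inv_cancel₀ hκ0, one_smul, add_comm],
      T_smul hF hzv κ hs', hT, mul_smul] at hfix'
    obtain ⟨c2, hc2, hfix2⟩ := hlin _ hs''
    rw [← U_zero_eq_T hF HP hc2] at hfix2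
    have hTL := isL_T hF HP hW huu hs''
    have h := lift_unique hF HP hreg hω hTL
      (w := (s' * (κ * κ ^ q) * κ⁻¹ ^ q) • u) (w' := 0)
      (c := s' * (κ * κ ^ q) * (κ⁻¹ * κ⁻¹ ^ q)) (c' := c2)
      (by rw [Submodule.coe_smul]; exact hcw) (by rw [Submodule.coe_zero]; exact Cond.skew hF hc2)
      (by rw [Submodule.coe_smul]; exact hfix') (by rw [Submodule.coe_zero]; exact hfix2)
    rw [smul_eq_zero] at h
    rcases h with h | h
    · exact mul_ne_zero (mul_ne_zero hs'0 (mul_ne_zero hκ0 (pow_ne_zero _ hκ0)))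
        (pow_ne_zero _ (inv_ne_zero hκ0)) h
    · exact hu0 h

/-- A point on a line through a lifted transvection point is not free only at that point. -/
theorem free_line {ω : Ω} (hreg : Reg (n := n) hF Ω) (hω : Free hF e ω) {u : WM q e f} (hu0 : u ≠ 0)
    (huu : hm q (u : Fin n → F) u = 0) (hlin : ∀ s, Skew q s → Lin hF e ω (T hF (u : Fin n → F) s))
    {ν : F} (hν : ν ≠ 0) : Free hF ((u : Fin n → F) + ν • e) ω := by
  intro s hs hfix
  by_contra hs0
  have hW := mem_WM.1 u.2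
  obtain ⟨hcw, hT⟩ := T_shift hF HP hW huu ν hs
  rw [hT, mul_smul] at hfix
  have h := lift_unique hF HP hreg hω (isL_T hF HP hW huu hs) (w := (s * ν ^ q) • u) (w' := 0)
    (c := s * (ν * ν ^ q)) (c' := 0) (by rw [Submodule.coe_smul]; exact hcw)
    (by rw [Submodule.coe_zero]; exact Cond.zero hF) (by rw [Submodule.coe_smul]; exact hfix)
    (by rw [Submodule.coe_zero, U_zero_zero hF HP, one_smul, T_fixes hF HP hreg hω hu0 huu hlin hs])
  rw [smul_eq_zero] at h
  rcases h with h | h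
  · exact mul_ne_zero hs0 (pow_ne_zero _ hν) h
  · exact hu0 h

end Cfsg.Agent.Lib.MinIndexSU
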