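import Cfsg.Agent.Lib.MinIndexSU.Basic

/-!
Numerical lemmas for regular actions of the radical.
-/

set_option autoImplicit false

namespace Cfsg.Agent.Lib.MinIndexSU

open Cfsg.Agent.Lib.Classical

universe u

variable {F : Type u} [Field F] [Fintype F] {q m : ℕ} (hF : Fintype.card F = q ^ 2)
include hF

theorem two_mul_N0 (hm3 : 3 ≤ m) (hpar : q = 2 → Odd m) : 2 * (N0 q m + 1) ≤ q ^ (2 * m) := by
  have hq := Herm.two_le_q hF
  have h := Herm.q_mul_cnt_zero hF m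
  rw [cnt_zero_N0 hF] at h
  push_cast at h
  rcases (show q = 2 ∨ 3 ≤ q by omega) with rfl | hq3
  · rw [(hpar rfl).neg_pow] at h
    push_cast at h
    have h1 : (0 : ℤ) ≤ 2 ^ m := by positivity
    have h2 : ((2 * (N0 2 m + 1) : ℕ) : ℤ) ≤ ((2 ^ (2 * m) : ℕ) : ℤ) := by
      push_cast
      linarith
    exact_mod_cast h2
  · have h1 : (-(q : ℤ)) ^ m ≤ (q : ℤ) ^ m := by
      rcases Nat.even_or_odd m with he | ho
      · rw [he.neg_pow]
      · rw [ho.neg_pow]; linarith [show (0 : ℤ) ≤ (q : ℤ) ^ m by positivity]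
    have hqz : (3 : ℤ) ≤ q := by exact_mod_cast hq3
    have h3 : (q : ℤ) ^ 3 ≤ (q : ℤ) ^ m := pow_le_pow_right₀ (by linarith) hm3
    have h4 : (2 : ℤ) * q ≤ (q : ℤ) ^ 3 := by nlinarith
    have h5 : (q : ℤ) ^ (2 * m) = (q : ℤ) ^ m * (q : ℤ) ^ m := by rw [← pow_add]; congr 1; omega
    have h6 : (0 : ℤ) ≤ (q : ℤ) ^ m := by positivity
    have h7 := mul_le_mul_of_nonneg_right h1 (show (0 : ℤ) ≤ (q : ℤ) - 1 by linarith)
    have h8 := mul_le_mul_of_nonneg_right (le_trans h4 h3) h6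
    have h9 : (q : ℤ) ^ m * ((q : ℤ) - 1) ≤ (q : ℤ) ^ m * q := by nlinarith
    have h2 : ((2 * (N0 q m + 1) : ℕ) : ℤ) ≤ ((q ^ (2 * m) : ℕ) : ℤ) := by
      push_cast
      have h10 : (0 : ℤ) ≤ (q : ℤ) ^ (2 * m) := by positivity
      nlinarith
    exact_mod_cast h2

theorem N0_succ_le (m : ℕ) : N0 q m + 1 ≤ q ^ (2 * m) := by
  have := N0_add_aniso hF m
  omega

theorem four_lt_N0 (hm3 : 3 ≤ m) : q ^ 4 + 1 ≤ N0 q m := by
  have hq := Herm.two_le_q hF
  unfold N0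
  have hb : ∀ a, 1 ≤ q ^ a := fun a => Nat.one_le_pow _ _ (by omega)
  split_ifs with he
  · have h4 : 4 ≤ m := by obtain ⟨k, rfl⟩ := he; omega
    have h1 : q ^ 4 ≤ q ^ m := Nat.pow_le_pow_right (by omega) h4
    have h2 : q ^ 3 ≤ q ^ (m - 1) := Nat.pow_le_pow_right (by omega) (by omega)
    have h3 : 2 ^ 3 ≤ q ^ 3 := Nat.pow_le_pow_left hq 3
    have h5 := Nat.mul_le_mul (Nat.sub_le_sub_right h1 1) (Nat.add_le_add_right h2 1)
    have h6 : 2 ^ 4 ≤ q ^ 4 := Nat.pow_le_pow_left hq 4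
    have h7 := Nat.mul_le_mul (le_refl (q ^ 4 - 1)) (Nat.add_le_add_right h3 1)
    omega
  · have h1 : q ^ 3 ≤ q ^ m := Nat.pow_le_pow_right (by omega) hm3
    have h2 : q ^ 2 ≤ q ^ (m - 1) := Nat.pow_le_pow_right (by omega) (by omega)
    refine le_trans ?_ (Nat.mul_le_mul (Nat.add_le_add_right h1 1) (Nat.sub_le_sub_right h2 1))
    have h4 : 2 * q ≤ q ^ 2 := by rw [pow_two]; exact Nat.mul_le_mul_right q hq
    have h5 : q ^ 3 * (q ^ 2 - 1) ≥ q ^ 3 * (2 * q - 1) := Nat.mul_le_mul_left _ (by omega)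
    have h6 : q ^ 3 * (2 * q - 1) + q ^ 3 = q ^ 4 + q ^ 4 := by
      rw [← Nat.mul_succ, show (2 * q - 1).succ = 2 * q by omega]; ring
    have h7 : q ^ 3 ≤ q ^ 4 := Nat.pow_le_pow_right (by omega) (by omega)
    rw [add_mul, one_mul]
    omega

theorem not_many_lines (hm3 : 3 ≤ m) {R S N : ℕ} (hN : N = N0 q m)
    (hsum : S + R = N0 q (m + 2)) (hR : R ≤ N + (q ^ 2 - 1) * q)
    (hcount : S * N ≤ R * (q ^ 2 * (N + 1) - 1)) : False := by
  have hq := Herm.two_le_q hF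
  have hN4 := four_lt_N0 hF hm3
  have h2N := N0_succ_le hF m
  have hrel := N0_succ_succ hF (q := q) m
  rw [← hN] at hN4 h2N hrel
  have hq2 : 1 ≤ q ^ 2 := Nat.one_le_pow _ _ (by omega)
  have hX : q ^ (2 * m + 1) = q * q ^ (2 * m) := pow_succ' _ _
  obtain ⟨r, hr⟩ : ∃ r, q ^ 2 = r + 1 := ⟨q ^ 2 - 1, by omega⟩
  rw [hr, Nat.add_sub_cancel] at hrel hR
  rw [hr] at hcount
  set X := q ^ (2 * m + 1)
  have hqr : q + 1 ≤ r := by
    have : 2 * q ≤ q ^ 2 := by rw [pow_two]; exact Nat.mul_le_mul_right q hq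
    omega
  have hS : r * X ≤ S := by
    have h1 : (r + 1) * (N + 1) = r * (N + 1) + (N + 1) := by ring
    have h2 : r * q + 1 ≤ r * (N + 1) := by
      have : q + 1 ≤ N + 1 := by
        have : q ≤ q ^ 4 := by
          calc q = q ^ 1 := (pow_one q).symm
            _ ≤ q ^ 4 := Nat.pow_le_pow_right (by omega) (by omega)
        omega
      calc r * q + 1 ≤ r * q + r := by omega
        _ = r * (q + 1) := by ring
        _ ≤ r * (N + 1) := Nat.mul_le_mul_left _ this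
    omega
  have h3 : (r + 1) * (N + 1) ≤ q * X := by
    rw [← hr, hX, pow_two, mul_assoc]
    refine Nat.mul_le_mul_left _ (Nat.mul_le_mul_left _ ?_)
    omega
  have h4 : r * X * N ≤ (N + r * q) * (q * X) :=
    (Nat.mul_le_mul_right N hS).trans (hcount.trans
      (Nat.mul_le_mul hR ((Nat.sub_le _ _).trans h3)))
  have hXpos : 0 < X := Nat.pow_pos (by omega)
  have h5 : r * N ≤ (N + r * q) * q := by
    refine Nat.le_of_mul_le_mul_right ?_ hXpos
    calc r * N * X = r * X * N := by ring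
      _ ≤ (N + r * q) * (q * X) := h4
      _ = (N + r * q) * q * X := by ring
  have h6 : (q + 1) * N ≤ r * N := Nat.mul_le_mul_right N hqr
  have h7 : r * q * q < q ^ 4 := by
    have : r * q * q + q ^ 2 = q ^ 4 := by
      rw [show q ^ 4 = q ^ 2 * q ^ 2 by ring, hr, show r * q * q = r * (r + 1) by rw [← hr]; ring]
      ring
    omega
  nlinarith

theorem not_divides (hm3 : 3 ≤ m) {M S N : ℕ} (hN : N = N0 q m)
    (hsum : S + q ^ 2 * N = N0 q (m + 2)) (hcount : M * S = N0 q (m + 2) * q ^ (2 * m + 1)) :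
    False := by
  have hq := Herm.two_le_q hF
  have hN4 := four_lt_N0 hF hm3
  have h2N := N0_succ_le hF m
  have hrel := N0_succ_succ hF (q := q) m
  rw [← hN] at hN4 h2N hrel
  have hq2 : 4 ≤ q ^ 2 := by simpa using Nat.pow_le_pow_left hq 2
  have hS : S = (q ^ 2 - 1) * (q ^ (2 * m + 1) + 1) := by
    rw [← hsum, mul_add, mul_one] at hrel
    rw [mul_add, mul_one]
    omega
  have hcop : Nat.Coprime S q := by
    rw [← Nat.isCoprime_iff_coprime, hS]
    refine ⟨-1, (q : ℤ) ^ 2 * (q : ℤ) ^ (2 * m) + q - (q : ℤ) ^ (2 * m), ?_⟩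
    push_cast [Nat.cast_sub (show 1 ≤ q ^ 2 by omega)]
    rw [pow_succ]
    ring
  have hdvd : S ∣ q ^ (2 * m + 3) * N := by
    have h1 : S ∣ S * q ^ (2 * m + 1) + q ^ (2 * m + 3) * N := ⟨M, by
      rw [mul_comm S M, hcount, ← hsum]
      ring⟩
    exact (Nat.dvd_add_right (dvd_mul_right _ _)).1 h1
  have h2 := Nat.le_of_dvd (by omega) ((Nat.Coprime.pow_right _ hcop).dvd_of_dvd_mul_left hdvd)
  have h3 : q ^ (2 * m) ≤ q ^ (2 * m + 1) := Nat.pow_le_pow_right (by omega) (by omega)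
  have h4 : q ^ (2 * m + 1) + 1 ≤ S := hS ▸ Nat.le_mul_of_pos_left _ (by omega)
  omega

theorem enough_lines {R1 R S N M : ℕ} (hN : N = N0 q m) (hsum : S + R = N0 q (m + 2))
    (hR : R = N + (q ^ 2 - 1) * R1) (h1 : N + 1 ≤ R1)
    (hcount : M * S = N0 q (m + 2) * q ^ (2 * m + 1)) : N0 q (m + 2) ≤ (q ^ 2 - 1) * M := by
  have hq := Herm.two_le_q hF
  have hrel := N0_succ_succ hF (q := q) m
  rw [← hN] at hrel
  obtain ⟨r, hr⟩ : ∃ r, q ^ 2 = r + 1 := ⟨q ^ 2 - 1, by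
    have : 1 ≤ q ^ 2 := Nat.one_le_pow _ _ (by omega)
    omega⟩
  rw [hr, Nat.add_sub_cancel] at hrel hR ⊢
  have h2 : r * (N + 1) ≤ r * R1 := Nat.mul_le_mul_left _ h1
  have h3 : S ≤ r * q ^ (2 * m + 1) := by
    have : (r + 1) * (N + 1) = r * (N + 1) + (N + 1) := by ring
    omega
  rcases Nat.eq_zero_or_pos S with h0 | h0
  · rw [h0, mul_zero] at hcount
    rcases mul_eq_zero.1 hcount.symm with h | h
    · rw [h]; exact Nat.zero_le _
    · exact absurd h (Nat.pow_pos (by omega)).ne'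
  refine Nat.le_of_mul_le_mul_right ?_ (Nat.pow_pos (n := 2 * m + 1) (show 0 < q by omega))
  calc N0 q (m + 2) * q ^ (2 * m + 1) = M * S := hcount.symm
    _ ≤ M * (r * q ^ (2 * m + 1)) := Nat.mul_le_mul_left _ h3
    _ = r * M * q ^ (2 * m + 1) := by ring

end Cfsg.Agent.Lib.MinIndexSU
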