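import Cfsg.Agent.Lib.MinIndexSU.Regular
import Cfsg.Agent.Lib.MinIndexSU.RegularArith

/-!
The bound when every radical is regular on its free points.
-/

set_option autoImplicit false

namespace Cfsg.Agent.Lib.MinIndexSU

open Matrix Module Cfsg.Agent.Lib.Forms Cfsg.Agent.Lib.Classical Cfsg.Agent.Lib.AutPSU

universe u v

attribute [local instance] _root_.Classical.propDecidable

variable {n m : ℕ} {F : Type u} [Field F] [Fintype F] {q : ℕ}
variable {Ω : Type v} [MulAction (S n F q) Ω]

/-- The elements lifted at the point are rich. -/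
structure Norm (hF : Fintype.card F = q ^ 2) (e f : Fin n → F) (ω : Ω) : Prop where
  free : Free hF e ω
  tv : ∀ u : WM q e f, hm q (u : Fin n → F) u = 0 → ∀ s, Skew q s →
    Lin hF e ω (T hF (u : Fin n → F) s)
  trans : ∀ u u' : WM q e f, (u ∈ isoV q e f ∧ u' ∈ isoV q e f ∨ u ∈ anV q e f ∧ u' ∈ anV q e f) →
    ∃ (s : S n F q) (a : F), IsL q e f s a ∧ Lin hF e ω s ∧
      a ^ q • (mat s *ᵥ (u : Fin n → F)) = (u' : Fin n → F)

/-- Every free point can be moved along its orbit to a rich one. -/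
def HasNorm (hF : Fintype.card F = q ^ 2) (Ω : Type v) [MulAction (S n F q) Ω] : Prop :=
  ∀ (e f : Fin n → F) (_HP : Pair q e f) (ω : Ω), Free hF e ω →
    ∃ ω' ∈ orb hF e f ω, Norm hF e f ω'

/-- The nonzero isotropic vectors of the space. -/
noncomputable def validV (q n : ℕ) (F : Type u) [Field F] [Fintype F] : Finset (Fin n → F) :=
  Finset.univ.filter fun z => Valid q z

/-- The isotropic vectors whose root group meets the stabiliser. -/
noncomputable def bad (hF : Fintype.card F = q ^ 2) (ω : Ω) : Finset (Fin n → F) :=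
  Finset.univ.filter fun z => Valid q z ∧ ¬ Free hF z ω

theorem mem_validV {z : Fin n → F} : z ∈ validV q n F ↔ z ≠ 0 ∧ hm q z z = 0 := by
  rw [validV, Finset.mem_filter]
  exact and_iff_right (Finset.mem_univ _)

theorem mulVec_injective (g : S n F q) : Function.Injective fun x : Fin n → F => mat g *ᵥ x := by
  intro a b h
  have h' : mat g⁻¹ *ᵥ (mat g *ᵥ a) = mat g⁻¹ *ᵥ (mat g *ᵥ b) := congrArg (mat g⁻¹ *ᵥ ·) h
  rwa [mulVec_inv_cancel, mulVec_inv_cancel] at h'

variable (hF : Fintype.card F = q ^ 2)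
include hF

theorem mem_bad {ω : Ω} {z : Fin n → F} : z ∈ bad (n := n) hF ω ↔ Valid q z ∧ ¬ Free hF z ω := by
  simp [bad]

theorem free_map (g : S n F q) {x : Fin n → F} (hx : hm q x x = 0) (ω : Ω) :
    Free hF (mat g *ᵥ x) (g • ω) ↔ Free hF x ω := by
  refine forall_congr' fun c => forall_congr' fun hc => imp_congr_left ?_
  rw [← T_conj hF hx hc g, ← mul_smul, inv_mul_cancel_right, mul_smul, smul_left_cancel_iff]

theorem free_smul_vec {l : F} (hl : l ≠ 0) {x : Fin n → F} (hx : hm q x x = 0) (ω : Ω) :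
    Free hF (l • x) ω ↔ Free hF x ω := by
  have key : ∀ {l : F}, l ≠ 0 → ∀ {x : Fin n → F}, hm q x x = 0 → Free hF x ω →
      Free hF (l • x) ω := fun {l} hl {x} hx h c hc hfix => by
    rw [T_smul hF hx l hc] at hfix
    exact (mul_eq_zero.1 (h _ (hc.mul_fixed (norm_fixed' hF l)) hfix)).resolve_right
      (mul_ne_zero hl (pow_ne_zero _ hl))
  refine ⟨fun h => ?_, key hl hx⟩
  have := key (inv_ne_zero hl) (x := l • x)
    (by rw [hm_smul_left', hm_smul_right, hx, mul_zero, mul_zero]) h
  rwa [smul_smul, inv_mul_cancel₀ hl, one_smul] at this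

theorem valid_smul {l : F} (hl : l ≠ 0) {x : Fin n → F} (hx : Valid q x) : Valid q (l • x) :=
  ⟨smul_ne_zero hl hx.1, by rw [hm_smul_left', hm_smul_right, hx.2, mul_zero, mul_zero]⟩

theorem valid_mulVec (g : S n F q) {x : Fin n → F} (hx : Valid q x) : Valid q (mat g *ᵥ x) :=
  ⟨mulVec_ne_zero g hx.1, by rw [iso, hx.2]⟩

theorem bad_map (g : S n F q) (ω : Ω) :
    bad (n := n) hF (g • ω) = (bad (n := n) hF ω).image (mat g *ᵥ ·) := by
  ext z
  rw [Finset.mem_image]
  constructor
  · intro hz
    obtain ⟨hv, hz⟩ := (mem_bad (n := n) hF).1 hz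
    have hv' := valid_mulVec hF g⁻¹ hv
    have e1 : mat g *ᵥ (mat g⁻¹ *ᵥ z) = z := by
      rw [mulVec_mulVec, ← mat_mul, mul_inv_cancel, mat_one, one_mulVec]
    refine ⟨mat g⁻¹ *ᵥ z, (mem_bad (n := n) hF).2 ⟨hv', ?_⟩, e1⟩
    rwa [← free_map hF g hv'.2, e1]
  · rintro ⟨x, hx, rfl⟩
    obtain ⟨hv, hx⟩ := (mem_bad (n := n) hF).1 hx
    exact (mem_bad (n := n) hF).2 ⟨valid_mulVec hF g hv, by rwa [free_map hF g hv.2]⟩

theorem card_validV : (validV q n F).card = N0 q n := by
  have h := card_norm_sub hF (ndeg_top hF (n := n)) (0 : F)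
  rw [finrank_top, Module.finrank_fintype_fun_eq_card, Fintype.card_fin, cnt_zero_N0 hF] at h
  have e1 : (Finset.univ.filter fun x : Fin n → F => hm q x x = 0) =
      insert 0 (validV q n F) := by
    ext x
    rcases eq_or_ne x 0 with rfl | hx <;> simp [mem_validV, hm_zero_left, *]
  have e2 : Nat.card {x : (⊤ : Submodule F (Fin n → F)) // hm q (x : Fin n → F) x = 0} =
      (insert 0 (validV q n F)).card := by
    rw [← e1, ← Fintype.card_subtype, ← Nat.card_eq_fintype_card]
    exact Nat.card_congr (Equiv.subtypeEquiv Submodule.topEquiv.toEquiv fun x => Iff.rfl)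
  rw [e2, Finset.card_insert_of_notMem (by simp [mem_validV])] at h
  omega

theorem split_bad (ω : Ω) :
    ((validV q n F).filter fun x => Free hF x ω).card + (bad (n := n) hF ω).card = N0 q n := by
  rw [← card_validV hF, bad, validV,
    ← Finset.card_filter_add_card_filter_not (s := Finset.univ.filter fun z => Valid q z)
      (p := fun z => Free hF z ω), Finset.filter_filter, Finset.filter_filter]

theorem card_bad_eq [MulAction.IsPretransitive (S n F q) Ω] (y ω : Ω) :
    (bad (n := n) hF y).card = (bad (n := n) hF ω).card := by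
  obtain ⟨g, rfl⟩ := MulAction.exists_smul_eq (S n F q) ω y
  rw [bad_map hF, Finset.card_image_of_injective _ (mulVec_injective g)]

variable {e f : Fin n → F} (HP : Pair q e f)
include HP

/-- The isotropic vectors orthogonal to a given one. -/
theorem card_perp_valid (hn : n = m + 2) :
    ((validV q n F).filter fun x => hm q x e = 0).card + 1 = q ^ 2 * (N0 q m + 1) := by
  let g : F × WM q e f → Fin n → F := fun p => p.1 • e + (p.2 : Fin n → F)
  have hg : Function.Injective g := fun p p' h => by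
    have h1 := congrArg (hm q · f) h
    simp only [g, hm_add_left, hm_smul_left', HP.ef, mul_one, (mem_WM.1 p.2.2).2,
      (mem_WM.1 p'.2.2).2, add_zero] at h1
    simp only [g, h1, add_right_inj] at h
    exact Prod.ext h1 (Subtype.ext h)
  have h0 : ∀ p : F × WM q e f, hm q (g p) e = 0 := fun p => by
    simp [g, hm_add_left, hm_smul_left', HP.ee, (mem_WM.1 p.2.2).1]
  have h2 : ∀ p : F × WM q e f, hm q (g p) (g p) = hm q (p.2 : Fin n → F) p.2 := fun p => by
    simp [g, hm_add_left, hm_add_right hF, hm_smul_left', hm_smul_right, HP.ee,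
      (mem_WM.1 p.2.2).1, ((mem_WM.1 p.2.2).swap hF).1]
  have himg : (((Finset.univ : Finset F) ×ˢ insert 0 (isoV q e f)).image g) =
      insert 0 ((validV q n F).filter fun x => hm q x e = 0) := by
    ext x
    rw [Finset.mem_image]
    constructor
    · rintro ⟨p, hp, rfl⟩
      rcases eq_or_ne (g p) 0 with hz | hz
      · rw [hz]; exact Finset.mem_insert_self _ _
      refine Finset.mem_insert_of_mem (Finset.mem_filter.2
        ⟨Finset.mem_filter.2 ⟨Finset.mem_univ _, hz, ?_⟩, h0 p⟩)
      rw [h2]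
      rcases Finset.mem_insert.1 (Finset.mem_product.1 hp).2 with h | h
      · rw [h, Submodule.coe_zero, hm_zero_left]
      · exact (mem_isoV.1 h).2
    · intro hx
      have hx' : hm q x x = 0 ∧ hm q x e = 0 := by
        rcases Finset.mem_insert.1 hx with rfl | h
        · exact ⟨hm_zero_left _, hm_zero_left _⟩
        · obtain ⟨hv, he⟩ := Finset.mem_filter.1 h
          exact ⟨(Finset.mem_filter.1 hv).2.2, he⟩
      have hd := perp_e_decomp hF HP hx'.2
      refine ⟨(hm q x f, ⟨proj q e f x, proj_mem HP x⟩), ?_, hd.symm⟩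
      refine Finset.mem_product.2 ⟨Finset.mem_univ _, ?_⟩
      rcases eq_or_ne (⟨proj q e f x, proj_mem HP x⟩ : WM q e f) 0 with h | h
      · rw [h]; exact Finset.mem_insert_self _ _
      · refine Finset.mem_insert_of_mem (mem_isoV.2 ⟨h, ?_⟩)
        have := h2 (hm q x f, ⟨proj q e f x, proj_mem HP x⟩)
        rw [show g (hm q x f, ⟨proj q e f x, proj_mem HP x⟩) = x from hd.symm, hx'.1] at this
        exact this.symm
  have h := congrArg Finset.card himg
  rw [Finset.card_image_of_injective _ hg, Finset.card_product, Finset.card_univ, hF,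
    Finset.card_insert_of_notMem (by simp [isoV]),
    Finset.card_insert_of_notMem (by simp [mem_validV]), card_isoV hF HP hn] at h
  exact h.symm

/-- At a rich point the perpendicular part of the bad vectors is known. -/
theorem bad_perp {ω : Ω} (hreg : Reg (n := n) hF Ω) (hN : Norm hF e f ω) :
    ((bad (n := n) hF ω).filter fun z => hm q z e = 0) =
      (isoV q e f).image (fun u : WM q e f => (u : Fin n → F)) := by
  ext z
  rw [Finset.mem_filter, Finset.mem_image]
  constructor
  · rintro ⟨hz, hze⟩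
    obtain ⟨⟨hz0, hzz⟩, hnf⟩ := (mem_bad (n := n) hF).1 hz
    have hd := perp_e_decomp hF HP hze
    set u : WM q e f := ⟨proj q e f z, proj_mem HP z⟩ with hu
    set α := hm q z f
    have hd' : z = α • e + (u : Fin n → F) := hd
    have huu : hm q (u : Fin n → F) u = 0 := by
      rw [hd'] at hzz
      simpa [hm_add_left, hm_add_right hF, hm_smul_left', hm_smul_right, HP.ee,
        (mem_WM.1 u.2).1, ((mem_WM.1 u.2).swap hF).1] using hzz
    rcases eq_or_ne α 0 with hα | hα
    · rw [hα, zero_smul, zero_add] at hd'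
      exact ⟨u, mem_isoV.2 ⟨fun h => hz0 (by rw [hd', h, Submodule.coe_zero]), huu⟩, hd'.symm⟩
    exfalso
    apply hnf
    rcases eq_or_ne u 0 with h0 | h0
    · rw [hd', h0, Submodule.coe_zero, add_zero, free_smul_vec hF hα HP.ee]
      exact hN.free
    · rw [hd', add_comm]
      exact free_line hF HP hreg hN.free h0 huu (hN.tv u huu) hα
  · rintro ⟨u, hu, rfl⟩
    obtain ⟨h0, huu⟩ := mem_isoV.1 hu
    obtain ⟨κ, hκ0, hκ⟩ := exists_skew_ne_zero hF
    refine ⟨(mem_bad (n := n) hF).2 ⟨⟨fun h => h0 (Subtype.ext h), huu⟩, fun h => hκ0 (h κ hκ ?_)⟩,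
      (mem_WM.1 u.2).1⟩
    exact T_fixes hF HP hreg hN.free h0 huu (hN.tv u huu) hκ

theorem card_bad_perp (hn : n = m + 2) (hreg : Reg (n := n) hF Ω) (hnorm : HasNorm (n := n) hF Ω)
    {y : Ω} (hy : Free hF e y) :
    ((bad (n := n) hF y).filter fun z => hm q z e = 0).card = N0 q m := by
  obtain ⟨ω, hω, hN⟩ := hnorm e f HP y hy
  obtain ⟨w, c, hc, hw⟩ := (mem_orb hF).1 ((hreg e f HP ω hN.free).2 y hy)
  have hge : mat (AutPSU.U hF e (w : Fin n → F) c) *ᵥ e = e :=
    U_apply_e hF HP (mem_WM.1 w.2) hc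
  have hperp : ∀ x, hm q (mat (AutPSU.U hF e (w : Fin n → F) c) *ᵥ x) e = hm q x e := fun x => by
    have h := iso (AutPSU.U hF e (w : Fin n → F) c) x e
    rwa [hge] at h
  rw [← hw, bad_map hF, Finset.filter_image]
  simp only [hperp]
  rw [bad_perp hF HP hreg hN, Finset.card_image_of_injective _ (mulVec_injective _),
    Finset.card_image_of_injective _ Subtype.val_injective, card_isoV hF HP hn]

theorem card_free (hn : n = m + 2) [Fintype Ω] (hreg : Reg (n := n) hF Ω) {ω : Ω}
    (hω : Free hF e ω) :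
    (Finset.univ.filter fun y : Ω => Free hF e y).card = q ^ (2 * m + 1) := by
  have hset : (Finset.univ.filter fun y : Ω => Free hF e y) = orb hF e f ω := by
    ext y
    rw [Finset.mem_filter]
    exact ⟨fun h => (hreg e f HP ω hω).2 y h.2,
      fun h => ⟨Finset.mem_univ _, free_orb hF HP hω h⟩⟩
  rw [hset, card_orb hF HP hω, (hreg e f HP ω hω).1, Finset.card_univ, ← Nat.card_eq_fintype_card,
    card_WM hF HP hn, pow_succ, mul_comm]

/-- A lifted element preserves the projections of the bad vectors. -/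
theorem bad_step {ω : Ω} {s : S n F q} {a : F} (hs : IsL q e f s a) (hlin : Lin hF e ω s)
    {z : Fin n → F} (hz : z ∈ bad (n := n) hF ω) (hze : hm q z e = 1) :
    ∃ z' ∈ bad (n := n) hF ω, hm q z' e = 1 ∧
      proj q e f z' = a ^ q • (mat s *ᵥ proj q e f z) := by
  obtain ⟨c, hc, hfix⟩ := hlin
  obtain ⟨hv, hnf⟩ := (mem_bad (n := n) hF).1 hz
  have haq : a ^ q ≠ 0 := pow_ne_zero _ hs.1
  set g := T hF e c * s with hg
  have hgω : g • ω = ω := by rw [hg, mul_smul, hfix]
  have hv' := valid_mulVec hF g hv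
  refine ⟨a ^ q • (mat g *ᵥ z), (mem_bad (n := n) hF).2 ⟨valid_smul hF haq hv', ?_⟩, ?_, ?_⟩
  · rw [free_smul_vec hF haq hv'.2]
    intro h
    rw [← hgω, free_map hF g hv.2] at h
    exact hnf h
  all_goals
    have hW := IsL.mem hF HP hs (proj_mem HP z)
    have hd : mat g *ᵥ z = (hm q z f * a + c * (a ^ q)⁻¹) • e + (a ^ q)⁻¹ • f +
        mat s *ᵥ proj q e f z := by
      have e1 : mat s *ᵥ z = (hm q z f * a) • e + (a ^ q)⁻¹ • f + mat s *ᵥ proj q e f z := by
        conv_lhs => rw [decomp (q := q) e f z, hze, one_smul]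
        rw [mulVec_add, mulVec_add, mulVec_smul, hs.2.1, hs.2.2, smul_smul]
      have e2 : hm q ((hm q z f * a) • e + (a ^ q)⁻¹ • f + mat s *ᵥ proj q e f z) e = (a ^ q)⁻¹ := by
        rw [hm_add_left, hm_add_left, hm_smul_left', hm_smul_left', HP.ee, HP.fe, hW.1]
        ring
      rw [hg, mat_mul, ← mulVec_mulVec, e1, T_mulVec hF HP.ee hc, e2]
      module
    rw [hd]
  · simp only [hm_add_left, hm_smul_left', HP.ee, HP.fe, hW.1]
    field_simp
    ring
  · rw [proj_smul, proj_add, proj_add, proj_smul, proj_smul, proj_e HP, proj_eq_self hW,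
      show proj q e f f = 0 by simp [proj, HP.ff, HP.fe]]
    module

theorem scaled_card (ω : Ω) :
    (bad (n := n) hF ω).card = ((bad (n := n) hF ω).filter fun z => hm q z e = 0).card +
      (q ^ 2 - 1) * ((bad (n := n) hF ω).filter fun z => hm q z e = 1).card := by
  rw [← Finset.card_filter_add_card_filter_not (s := bad (n := n) hF ω) (p := fun z => hm q z e = 0)]
  congr 1
  have hF1 : ((Finset.univ : Finset F).erase 0).card = q ^ 2 - 1 := by
    rw [Finset.card_erase_of_mem (Finset.mem_univ _), Finset.card_univ, hF]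
  rw [← hF1, ← Finset.card_product]
  symm
  refine Finset.card_bij (fun p _ => p.1 • p.2) (fun p hp => ?_) (fun p hp p' hp' h => ?_)
    (fun z hz => ?_)
  · obtain ⟨hl, hp⟩ := Finset.mem_product.1 hp
    obtain ⟨hb, h1⟩ := Finset.mem_filter.1 hp
    obtain ⟨hv, hnf⟩ := (mem_bad (n := n) hF).1 hb
    have hl0 := Finset.ne_of_mem_erase hl
    refine Finset.mem_filter.2 ⟨(mem_bad (n := n) hF).2 ⟨valid_smul hF hl0 hv, ?_⟩, ?_⟩
    · rwa [free_smul_vec hF hl0 hv.2]
    · rw [hm_smul_left', h1, mul_one]; exact hl0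
  · have h1 := (Finset.mem_filter.1 (Finset.mem_product.1 hp).2).2
    have h2 := (Finset.mem_filter.1 (Finset.mem_product.1 hp').2).2
    have h3 : p.1 = p'.1 := by
      have := congrArg (hm q · e) h
      simpa [hm_smul_left', h1, h2] using this
    refine Prod.ext h3 ?_
    rw [h3] at h
    exact smul_right_injective _ (Finset.ne_of_mem_erase (Finset.mem_product.1 hp').1) h
  · obtain ⟨hb, hne⟩ := Finset.mem_filter.1 hz
    obtain ⟨hv, hnf⟩ := (mem_bad (n := n) hF).1 hb
    refine ⟨(hm q z e, (hm q z e)⁻¹ • z), Finset.mem_product.2 ⟨Finset.mem_erase.2 ⟨hne,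
      Finset.mem_univ _⟩, Finset.mem_filter.2 ⟨(mem_bad (n := n) hF).2 ⟨valid_smul hF (inv_ne_zero hne) hv,
      ?_⟩, by rw [hm_smul_left', inv_mul_cancel₀ hne]⟩⟩, ?_⟩
    · rwa [free_smul_vec hF (inv_ne_zero hne) hv.2]
    · rw [smul_smul, mul_inv_cancel₀ hne, one_smul]

omit HP in
/-- A bound for regular radicals, given the count for many anisotropic projections. -/
theorem bound_of_reg_gen (hn : n = m + 2) (hm3 : 3 ≤ m) {B : ℕ} (hB : B ≤ N0 q n)
    (harith : ∀ R1 R S M : ℕ, q ^ (2 * m) ≤ R1 + N0 q m + 1 → S + R = N0 q n →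
      R = N0 q m + (q ^ 2 - 1) * R1 → M * S = N0 q n * q ^ (2 * m + 1) → B ≤ (q ^ 2 - 1) * M)
    [Fintype Ω] [MulAction.IsPretransitive (S n F q) Ω] (h2 : 2 ≤ Fintype.card Ω)
    (hreg : Reg (n := n) hF Ω) (hnorm : HasNorm (n := n) hF Ω) :
    B ≤ (q ^ 2 - 1) * Fintype.card Ω := by
  haveI : Nonempty Ω := Fintype.card_pos_iff.1 (by omega)
  obtain ⟨ω0⟩ := ‹Nonempty Ω›
  obtain ⟨e, he0, hee, hfree0⟩ := exists_free hF hn (by omega) h2 ω0
  obtain ⟨f, -, HP⟩ := exists_partner_mem hF (ndeg_top hF) (U := ⊤) trivial he0 hee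
  obtain ⟨ω, -, hN⟩ := hnorm e f HP ω0 hfree0
  -- free points of every valid vector
  have hfr : ∀ x ∈ validV q n F,
      (Finset.univ.filter fun y : Ω => Free hF x y).card = q ^ (2 * m + 1) := by
    intro x hx
    have hv := (Finset.mem_filter.1 hx).2
    obtain ⟨f', -, HP'⟩ := exists_partner_mem hF (ndeg_top hF) (U := ⊤) trivial hv.1 hv.2
    obtain ⟨g, l, hl, hg⟩ := transitive hF HP (by omega) hv
    have hfx : Free hF x (g • ω) := by
      rw [← free_smul_vec hF hl hv.2, ← hg, free_map hF g HP.ee]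
      exact hN.free
    exact card_free hF HP' hn hreg hfx
  have hsplit : ∀ y : Ω, ((validV q n F).filter fun x => Free hF x y).card +
      (bad (n := n) hF ω).card = N0 q n := fun y => by rw [← card_bad_eq hF y ω]; exact split_bad (n := n) hF y
  set Sc := ((validV q n F).filter fun x => Free hF x ω).card with hSc
  have hsum : Sc + (bad (n := n) hF ω).card = N0 q n := hsplit ω
  have hcount : Fintype.card Ω * Sc = N0 q n * q ^ (2 * m + 1) := by
    rw [← card_validV hF, ← smul_eq_mul ((validV q n F).card), ← Finset.sum_const,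
      ← Finset.sum_congr rfl hfr, ← Finset.card_univ, ← smul_eq_mul, ← Finset.sum_const]
    refine (Finset.sum_congr rfl fun y _ => ?_).trans ?_
      (b := ∑ y : Ω, ((validV q n F).filter fun x => Free hF x y).card)
    · have := hsplit y; omega
    · simp only [Finset.card_filter]; exact Finset.sum_comm
  have hperp := card_bad_perp hF HP hn hreg hnorm hN.free
  have hbad := scaled_card hF HP ω
  rw [hperp] at hbad
  set R1 := (bad (n := n) hF ω).filter fun z => hm q z e = 1
  let pr' : (Fin n → F) → WM q e f := fun z => ⟨proj q e f z, proj_mem HP z⟩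
  set P1 := R1.image pr'
  have hP1 : P1.card ≤ R1.card := Finset.card_image_le
  have hclos : ∀ (u u' : WM q e f),
      (u ∈ isoV q e f ∧ u' ∈ isoV q e f ∨ u ∈ anV q e f ∧ u' ∈ anV q e f) → u ∈ P1 → u' ∈ P1 := by
    intro u u' hty hu
    obtain ⟨z, hz, rfl⟩ := Finset.mem_image.1 hu
    obtain ⟨s, a, hs, hlin, hsu⟩ := hN.trans _ _ hty
    obtain ⟨hzb, hze⟩ := Finset.mem_filter.1 hz
    obtain ⟨z', hz', hz'e, hp⟩ := bad_step hF HP hs hlin hzb hze
    exact Finset.mem_image.2 ⟨z', Finset.mem_filter.2 ⟨hz', hz'e⟩, Subtype.ext (hp.trans hsu)⟩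
  subst hn
  have hiso := card_isoV hF HP rfl
  by_cases han : ∃ u ∈ P1, u ∈ anV q e f
  · obtain ⟨u, hu, hua⟩ := han
    have h3 : (anV q e f).card ≤ R1.card := le_trans
      (Finset.card_le_card fun u' hu' => hclos u u' (Or.inr ⟨hua, hu'⟩) hu) hP1
    have h4 := card_isoV_add_anV hF HP rfl
    exact harith _ _ _ _ (by omega) hsum hbad hcount
  push Not at han
  by_cases his : ∃ u ∈ P1, u ∈ isoV q e f
  · obtain ⟨u, hu, hui⟩ := his
    have h3 : (isoV q e f).card ≤ R1.card := le_trans
      (Finset.card_le_card fun u' hu' => hclos u u' (Or.inl ⟨hui, hu'⟩) hu) hP1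
    rcases Nat.lt_or_ge (N0 q m) R1.card with h4 | h4
    · exact hB.trans (enough_lines hF rfl hsum hbad h4 hcount)
    · exfalso
      refine not_divides hF hm3 rfl (S := Sc) ?_ hcount
      rw [show R1.card = N0 q m by omega] at hbad
      have : 1 ≤ q ^ 2 := Nat.one_le_pow _ _ (by have := Herm.two_le_q hF; omega)
      have e1 : q ^ 2 * N0 q m = N0 q m + (q ^ 2 - 1) * N0 q m := by
        conv_lhs => rw [show q ^ 2 = 1 + (q ^ 2 - 1) by omega, add_mul, one_mul]
      omega
  push Not at his
  exfalso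
  -- only projections zero
  have hR1 : R1.card ≤ q := by
    rw [← exists_skew_set hF (F := F), Nat.card_eq_fintype_card, Fintype.card_subtype]
    have hform : ∀ z ∈ R1, z = hm q z f • e + f ∧ Skew q (hm q z f) := by
      intro z hz
      obtain ⟨hzb, hze⟩ := Finset.mem_filter.1 hz
      have hp0 : pr' z = 0 := by
        by_contra h
        have hm' : pr' z ∈ P1 := Finset.mem_image_of_mem _ hz
        exact his _ hm' (mem_isoV.2 ⟨h, by_contra fun hh => han _ hm' (mem_anV.2 hh)⟩)
      have hd : z = hm q z f • e + f := by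
        conv_lhs => rw [decomp (q := q) e f z, hze, one_smul,
          show proj q e f z = 0 from congrArg Subtype.val hp0, add_zero]
      refine ⟨hd, ?_⟩
      have hzz := ((mem_bad (n := m + 2) hF).1 hzb).1.2
      rw [hd] at hzz
      simp only [hm_add_left, hm_add_right hF, hm_smul_left', hm_smul_right, HP.ee, HP.ff, HP.ef,
        HP.fe] at hzz
      unfold Skew
      linear_combination hzz
    refine Finset.card_le_card_of_injOn (fun z => hm q z f)
      (fun z hz => Finset.mem_filter.2 ⟨Finset.mem_univ _, (hform z hz).2⟩) ?_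
    intro z hz z' hz' h
    rw [(hform z hz).1, (hform z' hz').1]
    exact congrArg (fun l : F => l • e + f) h
  refine not_many_lines hF hm3 rfl hsum
    (by rw [hbad]; exact Nat.add_le_add_left (Nat.mul_le_mul_left _ hR1) _) ?_
  calc Sc * N0 q m
      = ∑ x ∈ (validV q (m + 2) F).filter (fun x => Free hF x ω),
          ((bad (n := m + 2) hF ω).filter fun z => hm q z x = 0).card := by
        rw [hSc, ← smul_eq_mul, ← Finset.sum_const]
        refine Finset.sum_congr rfl fun x hx => ?_
        obtain ⟨hxv, hxf⟩ := Finset.mem_filter.1 hx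
        have hv := (Finset.mem_filter.1 hxv).2
        obtain ⟨f', -, HP'⟩ := exists_partner_mem hF (ndeg_top hF) (U := ⊤) trivial hv.1 hv.2
        exact (card_bad_perp hF HP' rfl hreg hnorm hxf).symm
    _ = ∑ z ∈ bad (n := m + 2) hF ω, ((validV q (m + 2) F).filter fun x => Free hF x ω ∧ hm q z x = 0).card := by
        simp only [← Finset.filter_filter]
        simp only [Finset.card_filter]
        exact Finset.sum_comm
    _ ≤ (bad (n := m + 2) hF ω).card * (q ^ 2 * (N0 q m + 1) - 1) := by
        rw [← smul_eq_mul]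
        refine Finset.sum_le_card_nsmul _ _ _ fun z hz => ?_
        obtain ⟨hv, -⟩ := (mem_bad (n := m + 2) hF).1 hz
        obtain ⟨f', -, HP'⟩ := exists_partner_mem hF (ndeg_top hF) (U := ⊤) trivial hv.1 hv.2
        have h := card_perp_valid hF HP' rfl
        have hle : ((validV q (m + 2) F).filter fun x => Free hF x ω ∧ hm q z x = 0).card ≤
            ((validV q (m + 2) F).filter fun x => hm q x z = 0).card :=
          Finset.card_le_card fun x hx => by
            obtain ⟨h1, -, h2⟩ := Finset.mem_filter.1 hx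
            exact Finset.mem_filter.2 ⟨h1, hm_comm_zero hF h2⟩
        omega

omit HP in
/-- The bound for regular radicals. -/
theorem bound_of_reg (hn : n = m + 2) (hm3 : 3 ≤ m) (hpar : q = 2 → Odd m) [Fintype Ω]
    [MulAction.IsPretransitive (S n F q) Ω] (h2 : 2 ≤ Fintype.card Ω)
    (hreg : Reg (n := n) hF Ω) (hnorm : HasNorm (n := n) hF Ω) :
    N0 q n ≤ (q ^ 2 - 1) * Fintype.card Ω := by
  subst hn
  refine bound_of_reg_gen hF rfl hm3 le_rfl (fun R1 R Sc M h hsum hR hcount => ?_) h2 hreg hnorm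
  have h5 := two_mul_N0 hF hm3 hpar
  exact enough_lines hF rfl hsum hR (by omega) hcount

end Cfsg.Agent.Lib.MinIndexSU
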